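import Mathlib
import Cfsg.Prelude.Def_GeometricClasses
import Cfsg.Agent.Lib.Helper71.AschMain
import Cfsg.Agent.Lib.Helper63.SPPSY
import Cfsg.Agent.Lib.Helper75.SPPEVEN
import Cfsg.Agent.Lib.Helper1.SPGXTDefs

/-! Project SPG (helper71, S5662), sub-project XT (architect helper1), piece XT-I (helper67):
the intertwiner `x * B = B * x^σ` for a field automorphism `σ`, from the averaging lemma and the
Gram matrix of the symplectic form. -/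

set_option autoImplicit false

namespace Cfsg.Agent.Lib.Helper67.SPGXTI

open Matrix Cfsg.Geo Cfsg.Agent.Lib.Helper71.Asch Cfsg.Agent.Lib.Helper1.SPGXT

variable {n : ℕ} {F : Type*} [Field F] [Fintype F]

omit [Fintype F] in
theorem XTI_gram (b : (Fin n → F) → (Fin n → F) → F) (hb : IsBilinearForm b) :
    ∃ G : Matrix (Fin n) (Fin n) F, ∀ u v, b u v = u ⬝ᵥ (G *ᵥ v) := by
  let B : (Fin n → F) →ₗ[F] (Fin n → F) →ₗ[F] F :=
    LinearMap.mk₂ F b hb.add_left hb.smul_left hb.add_right hb.smul_right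
  refine ⟨LinearMap.toMatrix₂' F B, fun u v => ?_⟩
  rw [← Matrix.toLinearMap₂'_apply', Matrix.toLinearMap₂'_toMatrix']
  rfl

omit [Fintype F] in
theorem XTI_mat_ext (M N : Matrix (Fin n) (Fin n) F)
    (h : ∀ u v : Fin n → F, u ⬝ᵥ (M *ᵥ v) = u ⬝ᵥ (N *ᵥ v)) : M = N := by
  ext i j
  have := h (Pi.single i 1) (Pi.single j 1)
  simpa [Matrix.mulVec_single_one, single_one_dotProduct] using this

omit [Fintype F] in
theorem XTI_dot (A : Matrix (Fin n) (Fin n) F) (u w : Fin n → F) :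
    (A *ᵥ u) ⬝ᵥ w = u ⬝ᵥ (Aᵀ *ᵥ w) := by
  rw [dotProduct_comm, Matrix.dotProduct_mulVec, ← Matrix.mulVec_transpose, dotProduct_comm]

/-- PIECE XT-I -/
theorem XTI (hn : 4 ≤ n) (f : (Fin n → F) → (Fin n → F) → F) (hf : IsSymplecticForm f)
    (H L : Subgroup (GL (Fin n) F)) (hfix : FixesForm (matrixSet H) f) (h : SymT H L)
    (h2 : (2 : F) ≠ 0) (hn0 : (n : F) ≠ 0)
    (hZ : ∀ x ∈ L, x ∈ scalars (Fin n) F → x.1 = 1 ∨ x.1 = -1) (σ : F ≃+* F) :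
    ∃ B : Matrix (Fin n) (Fin n) F, IsUnit B ∧ ∀ x ∈ L, x.1 * B = B * x.1.map σ := by
  classical
  obtain ⟨s, hsdef⟩ : ∃ s : Finset (GL (Fin n) F), s = Finset.univ.filter (fun g => g ∈ L) :=
    ⟨_, rfl⟩
  have hs : ∀ g, g ∈ s ↔ g ∈ L := by
    intro g
    rw [hsdef, Finset.mem_filter]
    exact ⟨fun hg => hg.2, fun hg => ⟨Finset.mem_univ g, hg⟩⟩
  have htr := Cfsg.Agent.Lib.Helper82.ASSG.SG H L h
  have hT1 : (1 : GL (Fin n) F) ∈ s.filter (fun g => g ∈ scalars (Fin n) F) := by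
    rw [Finset.mem_filter, hs]
    exact ⟨L.one_mem, (scalars (Fin n) F).one_mem⟩
  have hTsub : s.filter (fun g => g ∈ scalars (Fin n) F) ⊆ {(1 : GL (Fin n) F), -1} := by
    intro g hg
    rw [Finset.mem_filter, hs] at hg
    rw [Finset.mem_insert, Finset.mem_singleton]
    rcases hZ g hg.1 hg.2 with h1 | h1
    · left
      exact Units.ext h1
    · right
      apply Units.ext
      rw [h1]
      simp
  have hcard1 : 1 ≤ (s.filter (fun g => g ∈ scalars (Fin n) F)).card :=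
    Finset.card_pos.2 ⟨1, hT1⟩
  have hcard2 : (s.filter (fun g => g ∈ scalars (Fin n) F)).card ≤ 2 :=
    (Finset.card_le_card hTsub).trans Finset.card_le_two
  have hterm : ∀ g ∈ s.filter (fun g => g ∈ scalars (Fin n) F),
      Matrix.trace g.1 * (σ : F →+* F) (Matrix.trace g.1) = (n : F) * n := by
    intro g hg
    rw [Finset.mem_filter, hs] at hg
    rcases hZ g hg.1 hg.2 with h1 | h1
    · rw [h1, Matrix.trace_one, Fintype.card_fin]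
      simp
    · rw [h1, Matrix.trace_neg, Matrix.trace_one, Fintype.card_fin]
      simp
  have hsum : ∑ g ∈ s, Matrix.trace g.1 * (σ : F →+* F) (Matrix.trace g.1) ≠ 0 := by
    have h1 : ∑ g ∈ s, Matrix.trace g.1 * (σ : F →+* F) (Matrix.trace g.1) =
        ∑ g ∈ s.filter (fun g => g ∈ scalars (Fin n) F),
          Matrix.trace g.1 * (σ : F →+* F) (Matrix.trace g.1) := by
      rw [Finset.sum_filter]
      apply Finset.sum_congr rfl
      intro g hg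
      by_cases hgs : g ∈ scalars (Fin n) F
      · rw [if_pos hgs]
      · rw [if_neg hgs, htr g ((hs g).mp hg) hgs, zero_mul]
    rw [h1, Finset.sum_congr rfl hterm, Finset.sum_const, nsmul_eq_mul]
    refine mul_ne_zero ?_ (mul_ne_zero hn0 hn0)
    generalize (s.filter (fun g => g ∈ scalars (Fin n) F)).card = c at hcard1 hcard2
    interval_cases c
    · simp
    · exact_mod_cast h2
  obtain ⟨S, hS0, hSinv⟩ := Cfsg.Agent.Lib.Helper97.ASSK.AVG L (σ : F →+* F) s hs hsum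
  have hSinv' : ∀ x ∈ L, x.1ᵀ * S * x.1.map σ = S := fun x hx => hSinv x hx
  have hSu : IsUnit S := Cfsg.Agent.Lib.Helper97.ASSK.AVGinv L h.abs.1 σ S hS0 hSinv'
  obtain ⟨J, hJ⟩ := XTI_gram f hf.bilinear
  have hJu : IsUnit J := by
    apply Matrix.mulVec_injective_iff_isUnit.mp
    intro v w hvw
    by_contra hne
    have hvw0 : v - w ≠ 0 := sub_ne_zero.2 hne
    obtain ⟨⟨x, hx⟩, -⟩ := hf.nondegenerate (v - w) hvw0
    apply hx
    have h0 : J *ᵥ (v - w) = 0 := by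
      rw [Matrix.mulVec_sub]
      exact sub_eq_zero.2 hvw
    rw [hJ, h0, dotProduct_zero]
  have hJinv : ∀ x ∈ L, x.1ᵀ * J * x.1 = J := by
    intro x hx
    apply XTI_mat_ext
    intro u v
    have h1 := hfix x.1 ⟨x, h.min.le hx, rfl⟩ u v
    rw [hJ, hJ, XTI_dot] at h1
    simp only [Matrix.mulVec_mulVec, Matrix.mul_assoc] at h1
    rw [Matrix.mul_assoc]
    exact h1
  obtain ⟨Ju, hJuJ⟩ := hJu
  have hJiJ : (Ju⁻¹ : (Matrix (Fin n) (Fin n) F)ˣ).1 * J = 1 := by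
    rw [← hJuJ, ← Units.val_mul, inv_mul_cancel, Units.val_one]
  have hJJi : J * (Ju⁻¹ : (Matrix (Fin n) (Fin n) F)ˣ).1 = 1 := by
    rw [← hJuJ, ← Units.val_mul, mul_inv_cancel, Units.val_one]
  refine ⟨(Ju⁻¹ : (Matrix (Fin n) (Fin n) F)ˣ).1 * S, (Ju⁻¹).isUnit.mul hSu, ?_⟩
  intro x hx
  have hXiX : ((x⁻¹ : GL (Fin n) F).1)ᵀ * x.1ᵀ = 1 := by
    rw [← Matrix.transpose_mul, ← Units.val_mul, mul_inv_cancel, Units.val_one,
      Matrix.transpose_one]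
  have e1 : S * x.1.map σ = ((x⁻¹ : GL (Fin n) F).1)ᵀ * S := by
    have h1 := hSinv' x hx
    calc S * x.1.map σ = (((x⁻¹ : GL (Fin n) F).1)ᵀ * x.1ᵀ) * S * x.1.map σ := by
          rw [hXiX, Matrix.one_mul]
      _ = ((x⁻¹ : GL (Fin n) F).1)ᵀ * (x.1ᵀ * S * x.1.map σ) := by
          simp only [Matrix.mul_assoc]
      _ = ((x⁻¹ : GL (Fin n) F).1)ᵀ * S := by rw [h1]
  have e2 : J * x.1 = ((x⁻¹ : GL (Fin n) F).1)ᵀ * J := by
    have h1 := hJinv x hx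
    calc J * x.1 = (((x⁻¹ : GL (Fin n) F).1)ᵀ * x.1ᵀ) * J * x.1 := by
          rw [hXiX, Matrix.one_mul]
      _ = ((x⁻¹ : GL (Fin n) F).1)ᵀ * (x.1ᵀ * J * x.1) := by
          simp only [Matrix.mul_assoc]
      _ = ((x⁻¹ : GL (Fin n) F).1)ᵀ * J := by rw [h1]
  have e3 : x.1 * (Ju⁻¹ : (Matrix (Fin n) (Fin n) F)ˣ).1 =
      (Ju⁻¹ : (Matrix (Fin n) (Fin n) F)ˣ).1 * ((x⁻¹ : GL (Fin n) F).1)ᵀ := by
    calc x.1 * (Ju⁻¹ : (Matrix (Fin n) (Fin n) F)ˣ).1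
        = ((Ju⁻¹ : (Matrix (Fin n) (Fin n) F)ˣ).1 * J) * x.1 *
            (Ju⁻¹ : (Matrix (Fin n) (Fin n) F)ˣ).1 := by rw [hJiJ, Matrix.one_mul]
      _ = (Ju⁻¹ : (Matrix (Fin n) (Fin n) F)ˣ).1 * (J * x.1) *
            (Ju⁻¹ : (Matrix (Fin n) (Fin n) F)ˣ).1 := by simp only [Matrix.mul_assoc]
      _ = (Ju⁻¹ : (Matrix (Fin n) (Fin n) F)ˣ).1 * (((x⁻¹ : GL (Fin n) F).1)ᵀ * J) *
            (Ju⁻¹ : (Matrix (Fin n) (Fin n) F)ˣ).1 := by rw [e2]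
      _ = (Ju⁻¹ : (Matrix (Fin n) (Fin n) F)ˣ).1 * ((x⁻¹ : GL (Fin n) F).1)ᵀ *
            (J * (Ju⁻¹ : (Matrix (Fin n) (Fin n) F)ˣ).1) := by simp only [Matrix.mul_assoc]
      _ = (Ju⁻¹ : (Matrix (Fin n) (Fin n) F)ˣ).1 * ((x⁻¹ : GL (Fin n) F).1)ᵀ := by
          rw [hJJi, Matrix.mul_one]
  calc x.1 * ((Ju⁻¹ : (Matrix (Fin n) (Fin n) F)ˣ).1 * S)
      = (x.1 * (Ju⁻¹ : (Matrix (Fin n) (Fin n) F)ˣ).1) * S := by rw [Matrix.mul_assoc]
    _ = (Ju⁻¹ : (Matrix (Fin n) (Fin n) F)ˣ).1 * ((x⁻¹ : GL (Fin n) F).1)ᵀ * S := by rw [e3]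
    _ = (Ju⁻¹ : (Matrix (Fin n) (Fin n) F)ˣ).1 * (((x⁻¹ : GL (Fin n) F).1)ᵀ * S) := by
        rw [Matrix.mul_assoc]
    _ = (Ju⁻¹ : (Matrix (Fin n) (Fin n) F)ˣ).1 * (S * x.1.map σ) := by rw [e1]
    _ = (Ju⁻¹ : (Matrix (Fin n) (Fin n) F)ˣ).1 * S * x.1.map σ := by rw [Matrix.mul_assoc]

end Cfsg.Agent.Lib.Helper67.SPGXTI
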