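import Mathlib

set_option autoImplicit false

namespace Cfsg.Agent.Lib.Helper67.LCB4

/-- weight indicator on `ZMod 2` -/
def ind (x : ZMod 2) : ℕ := if x ≠ 0 then 1 else 0

theorem ind_add (a b : ZMod 2) : ind (a + b) + 2 * ind (a * b) = ind a + ind b := by
  revert a b; decide

theorem cast_ind (a : ZMod 2) : ((ind a : ℕ) : ZMod 2) = a := by
  revert a; decide

theorem hammingNorm_eq_sum (c : Fin 24 → ZMod 2) : hammingNorm c = ∑ i, ind (c i) := by
  unfold hammingNorm ind
  rw [Finset.card_filter]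

/-- A doubly even binary code of length 24 is self-orthogonal. -/
theorem code_orth (C : Submodule (ZMod 2) (Fin 24 → ZMod 2))
    (h4 : ∀ c ∈ C, 4 ∣ hammingNorm c) : ∀ v ∈ C, ∀ w ∈ C, ∑ i, v i * w i = 0 := by
  intro v hv w hw
  have hvw := h4 (v + w) (C.add_mem hv hw)
  have h1 := h4 v hv
  have h2 := h4 w hw
  rw [hammingNorm_eq_sum] at hvw h1 h2
  have key : ∑ i, ind ((v + w) i) + 2 * ∑ i, ind (v i * w i) = ∑ i, ind (v i) + ∑ i, ind (w i) := by
    rw [Finset.mul_sum, ← Finset.sum_add_distrib, ← Finset.sum_add_distrib]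
    exact Finset.sum_congr rfl (fun i _ => ind_add (v i) (w i))
  have heven : 2 ∣ ∑ i, ind (v i * w i) := by omega
  have hcast : ∑ i, v i * w i = ((∑ i, ind (v i * w i) : ℕ) : ZMod 2) := by
    rw [Nat.cast_sum]
    exact Finset.sum_congr rfl (fun i _ => (cast_ind _).symm)
  rw [hcast]
  exact (ZMod.natCast_eq_zero_iff _ 2).2 heven

end Cfsg.Agent.Lib.Helper67.LCB4
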