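import Mathlib
import Cfsg.Agent.Lib.Helper11.Rank3B

/-!
# S1615 piece TWIN (for helper11): a primitive class of 3-transpositions has no twins
-/

set_option autoImplicit false

namespace Cfsg.Agent.Lib.Helper67.F15

open Cfsg Cfsg.Agent.Lib.Helper11

variable {G : Type*} [Group G]

/-- the twin relation: equal, or non-commuting with the same commuting partners elsewhere -/
def twinR (D : Set G) (t u : G) : Prop :=
  t = u ∨ (¬ Commute t u ∧ ∀ z ∈ D, z ≠ t → z ≠ u → (Commute z t ↔ Commute z u))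

theorem twinR_symm {D : Set G} {t u : G} (h : twinR D t u) : twinR D u t := by
  rcases h with h | ⟨h1, h2⟩
  · exact Or.inl h.symm
  · exact Or.inr ⟨fun c => h1 c.symm, fun z hz hzu hzt => (h2 z hz hzt hzu).symm⟩

theorem twinR_trans {D : Set G} {t u v : G} (hv : v ∈ D)
    (h1 : twinR D t u) (h2 : twinR D u v) : twinR D t v := by
  rcases h1 with h1 | ⟨h1, h1'⟩
  · rw [h1]; exact h2
  rcases h2 with h2 | ⟨h2, h2'⟩
  · rw [← h2]; exact Or.inr ⟨h1, h1'⟩
  by_cases htv : t = v
  · exact Or.inl htv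
  have huv : u ≠ v := fun e => h2 (e ▸ Commute.refl u)
  have hvt : ¬ Commute v t :=
    fun c => h2 ((h1' v hv (Ne.symm htv) (Ne.symm huv)).mp c).symm
  refine Or.inr ⟨fun c => hvt c.symm, fun z hz hzt hzv => ?_⟩
  by_cases hzu : z = u
  · subst hzu
    constructor
    · intro c; exact absurd c.symm h1
    · intro c; exact absurd c h2
  · exact (h1' z hz hzt hzu).trans (h2' z hz hzu hzv)

theorem twinR_conj {D : Set G} (hD : IsThreeTranspositionClass D) (g : G) {t u : G}
    (h : twinR D t u) : twinR D (ttcj g t) (ttcj g u) := by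
  rcases h with h | ⟨h1, h2⟩
  · exact Or.inl (by rw [h])
  · refine Or.inr ⟨fun c => h1 ((ttcj_commute_iff g t u).mp c), fun z hz hzt hzu => ?_⟩
    have hz' : ttcj g⁻¹ z ∈ D := ttcj_mem hD hz _
    have e : ttcj g (ttcj g⁻¹ z) = z := ttcj_cancel_inv g z
    have h3 := h2 (ttcj g⁻¹ z) hz' (fun e' => hzt (by rw [← e, e']))
      (fun e' => hzu (by rw [← e, e']))
    rw [← e, ttcj_commute_iff, ttcj_commute_iff]
    exact h3

/-- TWIN: two different members of a primitive class of 3-transpositions are separated by a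
third member commuting with exactly one of them -/
theorem tt_twin {G : Type*} [Group G] [Finite G] {D : Set G} (h : TTPrim D) {a b : G}
    (ha : a ∈ D) (hb : b ∈ D) (hab : a ≠ b) :
    ∃ z ∈ D, z ≠ a ∧ z ≠ b ∧ ¬ (Commute z a ↔ Commute z b) := by
  by_contra hcon
  have hcon' : ∀ z ∈ D, z ≠ a → z ≠ b → (Commute z a ↔ Commute z b) := by
    intro z hz hza hzb
    by_contra hne
    exact hcon ⟨z, hz, hza, hzb, hne⟩
  by_cases hc : Commute a b
  · apply hab
    symm
    apply tt_V h ha hb
    intro y hy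
    by_cases hya : y = a
    · subst hya; exact ⟨fun _ => Commute.refl _, fun _ => hc.symm⟩
    by_cases hyb : y = b
    · subst hyb; exact ⟨fun _ => hc, fun _ => Commute.refl _⟩
    have h3 := hcon' y hy hya hyb
    exact ⟨fun c => (h3.mpr c.symm).symm, fun c => (h3.mp c.symm).symm⟩
  · obtain ⟨hD, hprim, hw1, -⟩ := h
    have hblk : TTBlk {t : G | t ∈ D ∧ twinR D a t} := by
      intro g x hx hgx y hy
      refine ⟨ttcj_mem hD hy.1 g, ?_⟩
      have hxy : twinR D x y := twinR_trans hy.1 (twinR_symm hx.2) hy.2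
      exact twinR_trans (ttcj_mem hD hy.1 g) hgx.2 (twinR_conj hD g hxy)
    have hDB := hprim _ (fun y hy => hy.1) hblk a ⟨ha, Or.inl rfl⟩ b
      ⟨hb, Or.inr ⟨hc, hcon'⟩⟩ hab
    obtain ⟨c, hcD, hca, hcc⟩ := hw1 a ha
    rcases (hDB hcD).2 with e | ⟨e, -⟩
    · exact hca e.symm
    · exact e hcc

end Cfsg.Agent.Lib.Helper67.F15
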