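import Mathlib
import Cfsg.Prelude.Def_GeometricClasses
import Cfsg.Agent.Lib.Helper71.Asch0

set_option autoImplicit false

namespace Cfsg.Agent.Lib.Helper67.ASNL

open Matrix Cfsg.Geo Cfsg.Agent.Lib.Helper71.Asch
open scoped Kronecker

variable {n : ℕ} {F : Type*} [Field F] [Fintype F]

/-- A proper subfield of a finite field lies in the fixed field `F₁` of an automorphism `τ` of
prime order `r`, and `|F| = |F₁| ^ r`. -/
theorem exists_subfield_aut (F₀ : Subfield F) (hF₀ : F₀ ≠ ⊤) :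
    ∃ (F₁ : Subfield F) (r : ℕ) (τ : F ≃+* F), r.Prime ∧ Fintype.card F = Nat.card F₁ ^ r ∧
      F₀ ≤ F₁ ∧ ∀ x : F, x ∈ F₁ ↔ τ x = x := by
  classical
  haveI : Fintype F₀ := Fintype.ofFinite F₀
  set φ : F ≃ₐ[F₀] F := FiniteField.frobeniusAlgEquivOfAlgebraic F₀ F with hφ
  have hord : orderOf φ = Module.finrank F₀ F :=
    FiniteField.orderOf_frobeniusAlgEquivOfAlgebraic F₀ F
  have ht1 : Module.finrank F₀ F ≠ 1 := by
    intro h1
    apply hF₀
    have hc : Fintype.card F = Fintype.card F₀ ^ Module.finrank F₀ F := Module.card_eq_pow_finrank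
    rw [h1, pow_one] at hc
    have h2 : (F₀ : Set F) = Set.univ := by
      rw [Set.eq_univ_iff_ncard, ← Nat.card_coe_set_eq, Nat.card_eq_fintype_card (α := F), hc,
        ← Nat.card_eq_fintype_card]
      rfl
    rw [eq_top_iff]
    intro x _
    have h3 : x ∈ (F₀ : Set F) := by rw [h2]; exact Set.mem_univ x
    exact h3
  obtain ⟨r, hr, hrt⟩ := Nat.exists_prime_and_dvd ht1
  set τ : F ≃ₐ[F₀] F := φ ^ (orderOf φ / r) with hτ
  have hτord : orderOf τ = r :=
    orderOf_pow_orderOf_div (by rw [hord]; exact Module.finrank_pos.ne') (by rw [hord]; exact hrt)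
  set E : IntermediateField F₀ F := IntermediateField.fixedField (Subgroup.zpowers τ) with hE
  have hfin : Module.finrank E F = Nat.card (Subgroup.zpowers τ) :=
    IntermediateField.finrank_fixedField_eq_card _
  have hcardG : Nat.card (Subgroup.zpowers τ) = r := by rw [Nat.card_zpowers, hτord]
  refine ⟨E.toSubfield, r, τ.toRingEquiv, hr, ?_, ?_, ?_⟩
  · have hc : Fintype.card F = Fintype.card E ^ Module.finrank E F := Module.card_eq_pow_finrank
    rw [hc, hfin, hcardG, ← Nat.card_eq_fintype_card]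
    rfl
  · intro x hx
    exact E.algebraMap_mem ⟨x, hx⟩
  · intro x
    constructor
    · intro hx
      exact (IntermediateField.mem_fixedField_iff _ x).mp hx τ (Subgroup.mem_zpowers τ)
    · intro hx
      show x ∈ E
      rw [hE, IntermediateField.mem_fixedField_iff]
      have h4 : Subgroup.zpowers τ ≤ MulAction.stabilizer (F ≃ₐ[F₀] F) x := by
        rw [Subgroup.zpowers_le, MulAction.mem_stabilizer_iff]
        exact hx
      intro g hg
      exact MulAction.mem_stabilizer_iff.mp (h4 hg)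

/-- The Galois twist: an element normalising `L` is, after the base change `B`, the product of a
matrix over `F₁` and a scalar. -/
theorem NL_core (L : Subgroup (GL (Fin n) F)) (hLa : ActsAbsolutelyIrreducibly (matrixSet L))
    (F₁ : Subfield F) (τ : F ≃+* F) (hfix : ∀ x : F, x ∈ F₁ ↔ τ x = x)
    (B : GL (Fin n) F)
    (hB : ∀ s ∈ matrixSet L, ∀ i j, (B.1 * s * (B⁻¹ : GL (Fin n) F).1) i j ∈ F₁)
    (h : GL (Fin n) F) (hh : ∀ x ∈ L, h * x * h⁻¹ ∈ L) :
    B * h * B⁻¹ ∈ (Matrix.GeneralLinearGroup.map (F₁.subtype : F₁ →+* F)).range ⊔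
      scalars (Fin n) F := by
  classical
  set T : F →+* F := (τ : F →+* F) with hT
  have hTa : ∀ x : F, T x = τ x := fun x => rfl
  set h' : GL (Fin n) F := B * h * B⁻¹ with hh'
  -- the conjugates of the elements of `L` are fixed by `τ`
  have hfixM : ∀ x ∈ L, ((B * x * B⁻¹ : GL (Fin n) F).1).map T = (B * x * B⁻¹ : GL (Fin n) F).1 := by
    intro x hx
    ext i j
    rw [Matrix.map_apply, hTa]
    have h1 := hB x.1 ⟨x, hx, rfl⟩ i j
    rw [Units.val_mul, Units.val_mul]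
    exact (hfix _).mp h1
  -- the twisted relation
  have hrel : ∀ x ∈ L, h'.1.map T * (B * x * B⁻¹ : GL (Fin n) F).1 =
      (B * (h * x * h⁻¹) * B⁻¹ : GL (Fin n) F).1 * h'.1.map T := by
    intro x hx
    have e : h' * (B * x * B⁻¹) = (B * (h * x * h⁻¹) * B⁻¹) * h' := by rw [hh']; group
    have e1 : h'.1 * (B * x * B⁻¹ : GL (Fin n) F).1 =
        (B * (h * x * h⁻¹) * B⁻¹ : GL (Fin n) F).1 * h'.1 := by
      rw [← Units.val_mul, ← Units.val_mul, e]
    have e2 := congrArg (fun M : Matrix (Fin n) (Fin n) F => M.map T) e1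
    simp only [Matrix.map_mul] at e2
    rw [hfixM x hx, hfixM _ (hh x hx)] at e2
    exact e2
  -- `m = h'⁻¹ h'^τ` commutes with the conjugates
  have hm : ∀ x ∈ L, ((h'⁻¹ : GL (Fin n) F).1 * h'.1.map T) * (B * x * B⁻¹ : GL (Fin n) F).1 =
      (B * x * B⁻¹ : GL (Fin n) F).1 * ((h'⁻¹ : GL (Fin n) F).1 * h'.1.map T) := by
    intro x hx
    have e : h'⁻¹ * (B * (h * x * h⁻¹) * B⁻¹) = (B * x * B⁻¹) * h'⁻¹ := by rw [hh']; group
    have e1 : (h'⁻¹ : GL (Fin n) F).1 * (B * (h * x * h⁻¹) * B⁻¹ : GL (Fin n) F).1 =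
        (B * x * B⁻¹ : GL (Fin n) F).1 * (h'⁻¹ : GL (Fin n) F).1 := by
      rw [← Units.val_mul, ← Units.val_mul, e]
    rw [mul_assoc, hrel x hx, ← mul_assoc, e1, mul_assoc]
  -- hence it is a scalar
  obtain ⟨c, hc⟩ := hLa.2 ((B⁻¹ : GL (Fin n) F).1 * ((h'⁻¹ : GL (Fin n) F).1 * h'.1.map T) * B.1) (by
    rintro _ ⟨x, hx, rfl⟩
    have e1 : B.1 * x.1 = (B * x * B⁻¹ : GL (Fin n) F).1 * B.1 := by
      rw [← Units.val_mul, ← Units.val_mul]; congr 1; group
    have e2 : (B⁻¹ : GL (Fin n) F).1 * (B * x * B⁻¹ : GL (Fin n) F).1 =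
        x.1 * (B⁻¹ : GL (Fin n) F).1 := by
      rw [← Units.val_mul, ← Units.val_mul]; congr 1; group
    show (B⁻¹ : GL (Fin n) F).1 * ((h'⁻¹ : GL (Fin n) F).1 * h'.1.map T) * B.1 * x.1 =
      x.1 * ((B⁻¹ : GL (Fin n) F).1 * ((h'⁻¹ : GL (Fin n) F).1 * h'.1.map T) * B.1)
    rw [mul_assoc, e1, ← mul_assoc, mul_assoc _ _ ((B * x * B⁻¹ : GL (Fin n) F).1), hm x hx,
      ← mul_assoc, e2]
    simp only [mul_assoc])
  have hBB : B.1 * (B⁻¹ : GL (Fin n) F).1 = 1 := by rw [← Units.val_mul, mul_inv_cancel]; rfl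
  have hBB' : (B⁻¹ : GL (Fin n) F).1 * B.1 = 1 := by rw [← Units.val_mul, inv_mul_cancel]; rfl
  have hh1 : h'.1 * (h'⁻¹ : GL (Fin n) F).1 = 1 := by rw [← Units.val_mul, mul_inv_cancel]; rfl
  have hmc : (h'⁻¹ : GL (Fin n) F).1 * h'.1.map T = c • (1 : Matrix (Fin n) (Fin n) F) := by
    have e3 : B.1 * ((B⁻¹ : GL (Fin n) F).1 * ((h'⁻¹ : GL (Fin n) F).1 * h'.1.map T) * B.1) *
        (B⁻¹ : GL (Fin n) F).1 = B.1 * (c • (1 : Matrix (Fin n) (Fin n) F)) *
        (B⁻¹ : GL (Fin n) F).1 := by rw [hc]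
    rw [Matrix.mul_smul, Matrix.smul_mul, mul_one, hBB] at e3
    rw [← e3]
    calc (h'⁻¹ : GL (Fin n) F).1 * h'.1.map T
        = (B.1 * (B⁻¹ : GL (Fin n) F).1) * ((h'⁻¹ : GL (Fin n) F).1 * h'.1.map T) *
          (B.1 * (B⁻¹ : GL (Fin n) F).1) := by rw [hBB, one_mul, mul_one]
      _ = B.1 * ((B⁻¹ : GL (Fin n) F).1 * ((h'⁻¹ : GL (Fin n) F).1 * h'.1.map T) * B.1) *
          (B⁻¹ : GL (Fin n) F).1 := by simp only [mul_assoc]
  have hτh : h'.1.map T = c • h'.1 := by
    have e4 : h'.1 * ((h'⁻¹ : GL (Fin n) F).1 * h'.1.map T) =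
        h'.1 * (c • (1 : Matrix (Fin n) (Fin n) F)) := by rw [hmc]
    rw [← mul_assoc, hh1, one_mul, Matrix.mul_smul, mul_one] at e4
    exact e4
  by_cases hz : ∃ i j, h'.1 i j ≠ 0
  · obtain ⟨i₀, j₀, ha⟩ := hz
    set a : F := h'.1 i₀ j₀ with haa
    have hτa : τ a = c * a := by
      have e5 := congrFun (congrFun hτh i₀) j₀
      rw [Matrix.map_apply, Matrix.smul_apply, smul_eq_mul, hTa] at e5
      exact e5
    have hc0 : c ≠ 0 := by
      intro h0
      rw [h0, zero_mul] at hτa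
      exact ha ((map_eq_zero_iff τ τ.injective).mp hτa)
    have hentry : ∀ i j, a⁻¹ * h'.1 i j ∈ F₁ := by
      intro i j
      rw [hfix, map_mul, map_inv₀, hτa]
      have e6 := congrFun (congrFun hτh i) j
      rw [Matrix.map_apply, Matrix.smul_apply, smul_eq_mul, hTa] at e6
      rw [e6]
      field_simp
    set Y : Matrix (Fin n) (Fin n) F₁ := fun i j => ⟨a⁻¹ * h'.1 i j, hentry i j⟩ with hY
    have hYmap : Y.map (F₁.subtype : F₁ →+* F) = a⁻¹ • h'.1 := by
      ext i j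
      rw [Matrix.map_apply, Matrix.smul_apply, smul_eq_mul]
      rfl
    have hdet : Y.det ≠ 0 := by
      intro h0
      have e7 : (Y.map (F₁.subtype : F₁ →+* F)).det = 0 := by
        have e8 := RingHom.map_det (F₁.subtype : F₁ →+* F) Y
        rw [RingHom.mapMatrix_apply] at e8
        rw [← e8, h0, map_zero]
      rw [hYmap, Matrix.det_smul] at e7
      have e9 : h'.1.det ≠ 0 := by
        have := h'.isUnit
        exact (Matrix.isUnit_iff_isUnit_det _).mp this |>.ne_zero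
      exact (mul_ne_zero (pow_ne_zero _ (inv_ne_zero ha)) e9) e7
    set y : GL (Fin n) F₁ := Matrix.GeneralLinearGroup.mkOfDetNeZero Y hdet with hy
    have hyv : (Matrix.GeneralLinearGroup.map (F₁.subtype : F₁ →+* F) y).1 = a⁻¹ • h'.1 := by
      rw [← hYmap]
      rfl
    set s : GL (Fin n) F :=
      Units.map (Matrix.scalar (Fin n) : F →+* Matrix (Fin n) (Fin n) F).toMonoidHom
        (Units.mk0 a ha) with hs
    have hsmem : s ∈ scalars (Fin n) F := ⟨Units.mk0 a ha, rfl⟩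
    have hsv : s.1 = a • (1 : Matrix (Fin n) (Fin n) F) := by
      rw [hs]
      simp [Matrix.smul_one_eq_diagonal]
    have hprod : h' = Matrix.GeneralLinearGroup.map (F₁.subtype : F₁ →+* F) y * s := by
      have hv : h'.1 = (Matrix.GeneralLinearGroup.map (F₁.subtype : F₁ →+* F) y * s).1 := by
        rw [Units.val_mul (Matrix.GeneralLinearGroup.map (F₁.subtype : F₁ →+* F) y) s, hyv, hsv,
          Matrix.smul_mul, Matrix.mul_smul, mul_one, smul_smul, inv_mul_cancel₀ ha,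
          one_smul]
      exact Units.ext hv
    rw [hprod]
    exact Subgroup.mul_mem_sup ⟨y, rfl⟩ hsmem
  · push Not at hz
    have h0 : h'.1 = 0 := by
      ext i j
      exact hz i j
    have h1 : (1 : Matrix (Fin n) (Fin n) F) = 0 := by
      rw [← hh1, h0, zero_mul]
    have h2 : h' = 1 := by
      apply Units.ext
      rw [h0]
      exact h1.symm
    rw [h2]
    exact Subgroup.one_mem _

/-- NL: an absolutely irreducible normal subgroup realisable over a proper subfield: class 5. -/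
theorem NL (H L : Subgroup (GL (Fin n) F)) (hN : Nrm H L)
    (hLa : ActsAbsolutelyIrreducibly (matrixSet L)) (F₀ : Subfield F) (hF₀ : F₀ ≠ ⊤)
    (hreal : RealisableOver F₀ (matrixSet L)) : InCls H := by
  classical
  obtain ⟨F₁, r, τ, hr, hcard, hle, hfix⟩ := exists_subfield_aut F₀ hF₀
  obtain ⟨B, hB⟩ := hreal
  refine ⟨subfieldSubgroup F₁ B⁻¹, ?_, ?_⟩
  · right; right; right; right; right; right; left
    exact ⟨F₁, r, B⁻¹, hr, hcard, rfl⟩
  · intro h hh
    have key := NL_core L hLa F₁ τ hfix B (fun s hs i j => hle (hB s hs i j)) h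
      (fun x hx => hN h hh x hx)
    unfold subfieldSubgroup
    refine ⟨B * h * B⁻¹, key, ?_⟩
    show B⁻¹ * (B * h * B⁻¹) * B⁻¹⁻¹ = h
    group

end Cfsg.Agent.Lib.Helper67.ASNL
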