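import Mathlib
import Cfsg.Prelude.Def_Characters
import Cfsg.Agent.Lib.Helper4.Eigen
import Cfsg.Agent.Lib.Helper83.CharBasic

/-! Piece ZCENT of the S4503 project (helper22): an element on which a faithful irreducible
character takes a value of maximal norm is central. -/

set_option autoImplicit false

namespace Cfsg.Agent.Lib.Helper67.BFT

open Cfsg
open scoped ComplexConjugate

universe u

section

variable {G : Type u} [Group G] [Fintype G]

/-- PIECE ZCENT -/
theorem central_of_norm (χ : IrrCharacter G) (hfaith : ∀ g : G, χ.1 g = χ.1 1 → g = 1) (z : G)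
    (c : ℂ) (hc : ‖c‖ = 1) (h : χ.1 z = c * χ.1 1) : z ∈ Subgroup.center G := by
  obtain ⟨n, ρ, -, hρ⟩ := χ.2
  have h1 : ρ.character 1 = (Module.finrank ℂ (Fin n → ℂ) : ℂ) := Representation.char_one ρ
  have hnorm : ‖ρ.character z‖ = (Module.finrank ℂ (Fin n → ℂ) : ℝ) := by
    rw [hρ, h, ← hρ, h1, norm_mul, hc, one_mul]
    simp
  obtain ⟨ω, hω⟩ := (Cfsg.Agent.Lib.Helper4.norm_char_eq_iff ρ z).mp hnorm
  rw [Subgroup.mem_center_iff]
  intro g
  have hcomm : ρ (g * z * (z * g)⁻¹) = 1 := by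
    have h2 : ρ (g * z) = ρ (z * g) := by
      rw [map_mul, map_mul, hω]
      ext v
      simp
    rw [map_mul, h2, ← map_mul, mul_inv_cancel, map_one]
  have h3 := hfaith (g * z * (z * g)⁻¹)
    (by rw [← hρ]; exact (Cfsg.Agent.Lib.Helper83.char_eq_iff_rho_eq_one ρ _).mpr hcomm)
  exact mul_inv_eq_one.mp h3

end

end Cfsg.Agent.Lib.Helper67.BFT
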