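import Mathlib
import Cfsg.Agent.Lib.Helper26.GrossIrr1
import Cfsg.Agent.Lib.Helper26.FrobBasic
import Cfsg.Agent.Lib.Helper34.GrossG2
import Cfsg.Agent.Lib.Helper32.GrossG3
import Cfsg.Agent.Lib.Helper86.GrossG1

set_option autoImplicit false
set_option linter.style.haveILetI false
set_option linter.unusedSectionVars false
open scoped commutatorElement

namespace Cfsg.Agent.Lib.Helper67.GrossIrrHH

open Cfsg.Agent.Lib.Helper26

/-- a unit acting as a scalar is central -/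
theorem scalar_comm {k W : Type*} [Field k] [AddCommGroup W] [Module k W]
    (u : (Module.End k W)ˣ) (c : k) (hu : ∀ w, (u : Module.End k W) w = c • w)
    (g : (Module.End k W)ˣ) : u * g = g * u := by
  apply Units.ext
  apply LinearMap.ext
  intro w
  rw [Units.val_mul, Units.val_mul, Module.End.mul_apply, Module.End.mul_apply, hu, hu, map_smul]

section

variable {k : Type*} [Field k] [Finite k] {V : Type*} [AddCommGroup V] [Module k V]
  [Module.Finite k V] {p q n M₀ : ℕ} {Q : Subgroup (Module.End k V)ˣ} {φ : (Module.End k V)ˣ}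

/-- (K2) an element of `Q` all of whose commutators act trivially on `W` lies in `R` -/
theorem k2 (hmin : GrossMin p q n Q φ) {χ θ : (Module.End k V)ˣ → k}
    {R : Subgroup (Module.End k V)ˣ} {W : Submodule k V} (hW : GrossW Q χ θ R W)
    {x : (Module.End k V)ˣ} (hx : x ∈ Q)
    (h : ∀ y ∈ Q, ∀ v ∈ W, (⁅x, y⁆ : (Module.End k V)ˣ).1 v = v) : x ∈ R := by
  obtain ⟨v, hv, hv0⟩ := (Submodule.ne_bot_iff W).mp hW.hW0
  refine (hW.hχ.hR x).mpr ⟨hx, fun y hy => ?_⟩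
  have h1 := hW.hWχ v hv _ (hmin.comm_mem_center hx hy)
  rw [h y hy v hv] at h1
  have h2 : (χ ⁅x, y⁆ - 1) • v = 0 := by rw [sub_smul, one_smul, ← h1, sub_self]
  rcases smul_eq_zero.mp h2 with h3 | h3
  · exact sub_eq_zero.mp h3
  · exact absurd h3 hv0

/-- (K2') an element of `Q` whose restriction to `W` is central in the restriction of `Q`
lies in `R` -/
theorem k2' (hmin : GrossMin p q n Q φ) {χ θ : (Module.End k V)ˣ → k}
    {R : Subgroup (Module.End k V)ˣ} {W : Submodule k V} (hW : GrossW Q χ θ R W)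
    (hQS : ∀ x ∈ Q, x ∈ grossStab W) (x' : ↥(grossStab W))
    (hx : (x' : (Module.End k V)ˣ) ∈ Q)
    (h : ∀ w ∈ grossResSub W Q, grossRes W x' * w = w * grossRes W x') :
    (x' : (Module.End k V)ˣ) ∈ R := by
  apply k2 hmin hW hx
  intro y hy v hv
  have h1 := h (grossRes W ⟨y, hQS y hy⟩) ((mem_grossResSub W Q _).mpr ⟨_, hy, rfl⟩)
  have h2 : grossRes W (⁅x', (⟨y, hQS y hy⟩ : ↥(grossStab W))⁆) = 1 := by
    rw [map_commutatorElement, commutatorElement_eq_one_iff_mul_comm]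
    exact h1
  exact (grossRes_eq_one_iff W _).mp h2 v hv

/-- the inequality `|Q| ≤ (a - 1) ^ 2 |R|`, with the first commutant identity as a hypothesis -/
theorem gross_irr_le_of_G1 (hD : GrossData k p q n M₀) (h : GrossKP k p q n M₀ V Q φ)
    (hmin : GrossMin p q n Q φ) {χ θ : (Module.End k V)ˣ → k}
    {R : Subgroup (Module.End k V)ˣ} {W : Submodule k V} (hW : GrossW Q χ θ R W)
    (N a : ℕ) (hNa : N * a = p ^ (n + 1)) (ha : 1 < a) (hWN : ∀ v ∈ W, (φ ^ N).1 v ∈ W)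
    (hfix : ∀ v ∈ W, (φ ^ N).1 v = v → v = 0)
    (hinv : ∀ z ∈ Q ⊓ Subgroup.centralizer (Q : Set (Module.End k V)ˣ),
      χ (φ ^ N * z * (φ ^ N)⁻¹) = χ z)
    (hG1 : ∀ (Q' : Subgroup (Module.End k ↥W)ˣ), Finite Q' →
      (∀ x ∈ Q', ∀ y ∈ Q', ∀ w ∈ Q', ⁅x, y⁆ * w = w * ⁅x, y⁆) →
      (∀ z ∈ Q', (∀ w ∈ Q', z * w = w * z) →
        ∃ c : k, ∀ v : ↥W, (z : Module.End k ↥W) v = c • v) →
      (Nat.card Q' : k) ≠ 0 →
      Module.finrank k (Module.End k ↥W) *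
          Nat.card ↥(Q' ⊓ Subgroup.centralizer (Q' : Set (Module.End k ↥W)ˣ)) =
        Nat.card Q' * Module.finrank k ↥(grossComm (Q' : Set (Module.End k ↥W)ˣ))) :
    Nat.card Q ≤ (a - 1) ^ 2 * Nat.card R := by
  classical
  haveI hfinGL : Finite (Module.End k V)ˣ := gross_finite_units
  haveI hfinGLW : Finite (Module.End k ↥W)ˣ := gross_finite_units
  haveI : Fact p.Prime := ⟨hmin.hp⟩
  have hpos : 0 < p ^ (n + 1) := pow_pos hmin.hp.pos _
  have hN0 : 0 < N := by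
    rcases Nat.eq_zero_or_pos N with h0 | h0
    · rw [h0, zero_mul] at hNa
      omega
    · exact h0
  have ha0 : 0 < a := by omega
  obtain ⟨φ₁, hφ₁⟩ : ∃ φ₁ : (Module.End k V)ˣ, φ₁ = φ ^ N := ⟨_, rfl⟩
  rw [← hφ₁] at hWN hfix hinv
  have hφ₁z : φ₁ ∈ Subgroup.zpowers φ := by
    rw [hφ₁]
    exact Subgroup.pow_mem _ (Subgroup.mem_zpowers φ) N
  have hφ₁a : φ₁ ^ a = 1 := by rw [hφ₁, ← pow_mul, hNa, hmin.hφ]
  have hord₁ : orderOf φ₁ = a := by
    rw [hφ₁, orderOf_pow' φ hN0.ne', hmin.ord, ← hNa, Nat.gcd_eq_right (Dvd.intro _ rfl)]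
    exact Nat.mul_div_cancel_left a hN0
  obtain ⟨j, hj⟩ : ∃ j, a = p ^ (j + 1) := by
    have hdvd : a ∣ p ^ (n + 1) := Dvd.intro_left N hNa
    obtain ⟨i, -, hi⟩ := (Nat.dvd_prime_pow hmin.hp).mp hdvd
    cases i with
    | zero =>
      rw [pow_zero] at hi
      omega
    | succ i => exact ⟨i, hi⟩
  have hRn : ∀ x ∈ R, φ₁ * x * φ₁⁻¹ ∈ R := GrossChi.norm hmin hW.hχ hφ₁z hinv
  have hQS : ∀ x ∈ Q, x ∈ grossStab W := fun x hx =>
    mem_grossStab_of_pow W (orderOf_pos x) (pow_orderOf_eq_one x) (hW.hWQ x hx)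
  have hφ₁S : φ₁ ∈ grossStab W := mem_grossStab_of_pow W ha0 hφ₁a hWN
  haveI : Nontrivial ↥W := (Submodule.nontrivial_iff_ne_bot).mpr hW.hW0
  obtain ⟨t, ht⟩ : ∃ t : (Module.End k ↥W)ˣ, t = grossRes W ⟨φ₁, hφ₁S⟩ := ⟨_, rfl⟩
  have htpow : ∀ i : ℕ, t ^ i = grossRes W ⟨φ₁ ^ i, Subgroup.pow_mem _ hφ₁S i⟩ := by
    intro i
    rw [ht, ← map_pow]
    rfl
  have hta : t ^ a = 1 := by
    rw [htpow]
    have h1 : (⟨φ₁ ^ a, Subgroup.pow_mem _ hφ₁S a⟩ : ↥(grossStab W)) = 1 := Subtype.ext hφ₁a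
    rw [h1, map_one]
  -- (K1)
  have K1 : ∀ x' : ↥(grossStab W), (x' : (Module.End k V)ˣ) ∈ R → ∀ w : ↥W,
      ((grossRes W x' : (Module.End k ↥W)ˣ) : Module.End k ↥W) w =
        θ (x' : (Module.End k V)ˣ) • w := by
    intro x' hx w
    apply Subtype.ext
    rw [grossRes_apply]
    exact (hW.hW w).mp w.2 _ hx
  have K1c : ∀ x' : ↥(grossStab W), (x' : (Module.End k V)ˣ) ∈ R →
      ∀ g : (Module.End k ↥W)ˣ, grossRes W x' * g = g * grossRes W x' :=
    fun x' hx g => scalar_comm _ _ (K1 x' hx) g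
  have K2 : ∀ x' : ↥(grossStab W), (x' : (Module.End k V)ˣ) ∈ Q →
      (∀ w ∈ grossResSub W Q, grossRes W x' * w = w * grossRes W x') →
      (x' : (Module.End k V)ˣ) ∈ R := fun x' hx hc => k2' hmin hW hQS x' hx hc
  have hQ₁mem : ∀ y, y ∈ grossResSub W Q ↔
      ∃ x : ↥(grossStab W), (x : (Module.End k V)ˣ) ∈ Q ∧ grossRes W x = y :=
    mem_grossResSub W Q
  have hc2 : ∀ x ∈ grossResSub W Q, ∀ y ∈ grossResSub W Q, ∀ w ∈ grossResSub W Q,
      ⁅x, y⁆ * w = w * ⁅x, y⁆ := by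
    intro x hx y hy w _
    obtain ⟨x', hx', rfl⟩ := (hQ₁mem x).mp hx
    obtain ⟨y', hy', rfl⟩ := (hQ₁mem y).mp hy
    rw [← map_commutatorElement]
    apply K1c
    exact hW.hχ.center_le _ (hmin.comm_mem hx' hy')
      (fun w hw => hmin.comm_central _ hx' _ hy' w hw)
  have hsc : ∀ z ∈ grossResSub W Q, (∀ w ∈ grossResSub W Q, z * w = w * z) →
      ∃ c : k, ∀ v : ↥W, (z : Module.End k ↥W) v = c • v := by
    intro z hz hc
    obtain ⟨x', hx', rfl⟩ := (hQ₁mem z).mp hz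
    exact ⟨θ (x' : (Module.End k V)ˣ), K1 x' (K2 x' hx' hc)⟩
  have hcardQ₁ : Nat.card ↥(grossResSub W Q) ∣ M₀ := (card_grossResSub_dvd W Q).trans h.hcard
  have hcQ : (Nat.card ↥(grossResSub W Q)).Coprime (Nat.card k) :=
    Nat.Coprime.coprime_dvd_left hcardQ₁ hD.hcop
  have hadvd : a ∣ M₀ := (Dvd.intro_left N hNa).trans hD.hM
  have hca : a.Coprime (Nat.card k) := Nat.Coprime.coprime_dvd_left hadvd hD.hcop
  have hnorm : ∀ x ∈ grossResSub W Q, t * x * t⁻¹ ∈ grossResSub W Q := by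
    intro x hx
    obtain ⟨x', hx', rfl⟩ := (hQ₁mem x).mp hx
    rw [ht, ← map_inv, ← map_mul, ← map_mul]
    exact (hQ₁mem _).mpr ⟨_, hmin.zpow_norm hφ₁z _ hx', rfl⟩
  have hQnotR : ¬ ∀ x ∈ Q, x ∈ R := by
    intro hall
    exact hW.hRQ (le_antisymm hW.hχ.le hall)
  have hnc : ∃ x ∈ grossResSub W Q, ∃ y ∈ grossResSub W Q, x * y ≠ y * x := by
    by_contra hcon
    push Not at hcon
    apply hQnotR
    intro x hx
    exact K2 ⟨x, hQS x hx⟩ hx (fun w hw => hcon _ ((hQ₁mem _).mpr ⟨_, hx, rfl⟩) w hw)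
  have hfpfR : ∀ i : ℕ, φ₁ ^ i ≠ 1 → ∀ x ∈ Q, x⁻¹ * (φ₁ ^ i * x * (φ₁ ^ i)⁻¹) ∈ R → x ∈ R := by
    intro i hi x hx hu
    exact hmin.fpf_mod R hW.hχ.le hW.hχ.center_le (Subgroup.pow_mem _ hφ₁z i) hi
      (gross_pow_conj_mem R hRn i) x hx hu
  have hfpf : ∀ s ∈ Subgroup.zpowers t, s ≠ 1 → ∀ x ∈ grossResSub W Q,
      (∀ w ∈ grossResSub W Q, (x⁻¹ * (s * x * s⁻¹)) * w = w * (x⁻¹ * (s * x * s⁻¹))) →
      ∀ w ∈ grossResSub W Q, x * w = w * x := by
    intro s hs hs1 x hx hc w _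
    obtain ⟨i, rfl⟩ := gross_zpowers_nat ha0 hta hs
    obtain ⟨x', hx', rfl⟩ := (hQ₁mem x).mp hx
    have hi : φ₁ ^ i ≠ 1 := by
      intro h1
      apply hs1
      rw [htpow i]
      have h2 : (⟨φ₁ ^ i, Subgroup.pow_mem _ hφ₁S i⟩ : ↥(grossStab W)) = 1 := Subtype.ext h1
      rw [h2, map_one]
    have e : (grossRes W x')⁻¹ * (t ^ i * grossRes W x' * (t ^ i)⁻¹) =
        grossRes W (x'⁻¹ * (⟨φ₁ ^ i, Subgroup.pow_mem _ hφ₁S i⟩ * x' *
          (⟨φ₁ ^ i, Subgroup.pow_mem _ hφ₁S i⟩ : ↥(grossStab W))⁻¹)) := by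
      rw [htpow i, map_mul, map_mul, map_mul, map_inv, map_inv]
    rw [e] at hc
    have hu := K2 _ (Q.mul_mem (Q.inv_mem hx')
      (hmin.zpow_norm (Subgroup.pow_mem _ hφ₁z i) _ hx')) hc
    have hxR : (x' : (Module.End k V)ˣ) ∈ R := hfpfR i hi _ hx' hu
    exact K1c x' hxR w
  have hordt : orderOf t = a := by
    rw [hj]
    apply orderOf_eq_prime_pow
    · intro h1
      rw [htpow] at h1
      have hs1 : φ₁ ^ p ^ j ≠ 1 := by
        intro h2
        have h3 := orderOf_dvd_of_pow_eq_one h2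
        rw [hord₁, hj] at h3
        have h4 := Nat.le_of_dvd (pow_pos hmin.hp.pos _) h3
        have h5 : p ^ j < p ^ (j + 1) := Nat.pow_lt_pow_right hmin.hp.one_lt (Nat.lt_succ_self j)
        omega
      apply hQnotR
      intro x hx
      apply hfpfR (p ^ j) hs1 x hx
      have hu1 : grossRes W ((⟨x, hQS x hx⟩ : ↥(grossStab W))⁻¹ *
          (⟨φ₁ ^ p ^ j, Subgroup.pow_mem _ hφ₁S _⟩ * ⟨x, hQS x hx⟩ *
            (⟨φ₁ ^ p ^ j, Subgroup.pow_mem _ hφ₁S _⟩ : ↥(grossStab W))⁻¹)) = 1 := by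
        rw [map_mul, map_mul, map_mul, map_inv, map_inv, h1]
        group
      exact K2 _ (Q.mul_mem (Q.inv_mem hx)
        (hmin.zpow_norm (Subgroup.pow_mem _ hφ₁z _) _ hx))
        (fun w _ => by rw [hu1, one_mul, mul_one])
    · rw [← hj]
      exact hta
  have hfixt : ∀ w : ↥W, (t : Module.End k ↥W) w = w → w = 0 := by
    intro w hw
    apply Subtype.ext
    have h1 := congrArg (fun u : ↥W => (u : V)) hw
    simp only [ht, grossRes_apply] at h1
    exact hfix _ w.2 h1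
  obtain ⟨ζ, hζ⟩ := gross_root hD hadvd
  have hak : (a : k) ≠ 0 := gross_cast_ne_zero hca
  have hG3 := Cfsg.Agent.Lib.Helper32.GrossG3.gross_hh_G3 t a ha hta hfixt ζ hζ hak
  have hG2 := Cfsg.Agent.Lib.Helper34.gross_hh_G2 (grossResSub W Q) t a hordt ha hnorm hsc hfpf
    hnc hcQ hca
  have hG1' := hG1 (grossResSub W Q) inferInstance hc2 hsc (gross_cast_ne_zero hcQ)
  have hm2eq : Module.finrank k (Module.End k ↥W) = Module.finrank k ↥W ^ 2 := by
    rw [Module.finrank_linearMap, sq]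
  have heCpos : 0 < Module.finrank k
      ↥(grossComm ((grossResSub W Q : Subgroup (Module.End k ↥W)ˣ) :
        Set (Module.End k ↥W)ˣ)) := by
    apply Nat.pos_of_ne_zero
    intro h0
    rw [Submodule.finrank_eq_zero] at h0
    have h1 : (1 : Module.End k ↥W) ∈ grossComm
        ((grossResSub W Q : Subgroup (Module.End k ↥W)ˣ) : Set (Module.End k ↥W)ˣ) :=
      fun x _ => by rw [mul_one, one_mul]
    rw [h0, Submodule.mem_bot] at h1
    exact one_ne_zero h1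
  rw [← hm2eq] at hG3
  generalize Module.finrank k (Module.End k ↥W) = m2 at hG1' hG2 hG3
  generalize Module.finrank k
      ↥(grossComm ((grossResSub W Q : Subgroup (Module.End k ↥W)ˣ) :
        Set (Module.End k ↥W)ˣ)) = eC at hG1' hG2 heCpos
  generalize Module.finrank k ↥(grossComm ({t} : Set (Module.End k ↥W)ˣ)) = eD at hG2 hG3
  obtain ⟨b, hb⟩ : ∃ b, a = b + 1 := ⟨a - 1, by omega⟩
  have hb' : a - 1 = b := by omega
  rw [hb'] at hG3 ⊢
  rw [hb] at hG2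
  have h1 : eD ≤ b * eC := by nlinarith
  have h2 : m2 ≤ b ^ 2 * eC := by
    calc m2 ≤ b * eD := hG3
      _ ≤ b * (b * eC) := Nat.mul_le_mul_left b h1
      _ = b ^ 2 * eC := by ring
  have hQ₁le : Nat.card ↥(grossResSub W Q) ≤ b ^ 2 *
      Nat.card ↥(grossResSub W Q ⊓ Subgroup.centralizer
        ((grossResSub W Q : Subgroup (Module.End k ↥W)ˣ) : Set (Module.End k ↥W)ˣ)) := by
    apply Nat.le_of_mul_le_mul_right _ heCpos
    rw [← hG1']
    calc m2 * _ ≤ (b ^ 2 * eC) * _ := Nat.mul_le_mul_right _ h2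
      _ = _ := by ring
  have hZ₁R₁ : grossResSub W Q ⊓ Subgroup.centralizer
      ((grossResSub W Q : Subgroup (Module.End k ↥W)ˣ) : Set (Module.End k ↥W)ˣ) ≤
      (R.subgroupOf (grossStab W)).map (grossRes W) := by
    intro z hz
    obtain ⟨x', hx', rfl⟩ := (hQ₁mem z).mp hz.1
    have hxR := K2 x' hx' (fun w hw => (Subgroup.mem_centralizer_iff.mp hz.2 w hw).symm)
    exact ⟨x', Subgroup.mem_subgroupOf.mpr hxR, rfl⟩
  have hcZ := Subgroup.card_le_of_le hZ₁R₁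
  have hker : (Q.subgroupOf (grossStab W)) ⊓ (grossRes W).ker ≤
      (R.subgroupOf (grossStab W)) ⊓ (grossRes W).ker := by
    intro x' hx'
    refine ⟨Subgroup.mem_subgroupOf.mpr (K2 x' (Subgroup.mem_subgroupOf.mp hx'.1)
      (fun w _ => ?_)), hx'.2⟩
    rw [MonoidHom.mem_ker.mp hx'.2, one_mul, mul_one]
  have hcK := Subgroup.card_le_of_le hker
  have e1 := frob_card_map_ker (grossRes W) (Q.subgroupOf (grossStab W))
  have e2 := frob_card_map_ker (grossRes W) (R.subgroupOf (grossStab W))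
  have e3 : Nat.card (Q.subgroupOf (grossStab W)) = Nat.card Q :=
    Cfsg.Agent.Lib.Helper1.card_subgroupOf_of_le (fun x hx => hQS x hx)
  have e4 : Nat.card (R.subgroupOf (grossStab W)) = Nat.card R :=
    Cfsg.Agent.Lib.Helper1.card_subgroupOf_of_le (fun x hx => hQS x (hW.hχ.le hx))
  have e1' : Nat.card ↥(grossResSub W Q) *
      Nat.card ↥((Q.subgroupOf (grossStab W)) ⊓ (grossRes W).ker) = Nat.card Q := by
    rw [← e3, ← e1]
    rfl
  calc Nat.card Q = Nat.card ↥(grossResSub W Q) *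
        Nat.card ↥((Q.subgroupOf (grossStab W)) ⊓ (grossRes W).ker) := e1'.symm
    _ ≤ (b ^ 2 * Nat.card ↥((R.subgroupOf (grossStab W)).map (grossRes W))) *
        Nat.card ↥((R.subgroupOf (grossStab W)) ⊓ (grossRes W).ker) :=
      Nat.mul_le_mul (hQ₁le.trans (Nat.mul_le_mul_left _ hcZ)) hcK
    _ = b ^ 2 * Nat.card R := by rw [mul_assoc, e2, e4]

/-- **The inequality `|Q| ≤ (a - 1) ^ 2 |R|` in the irreducible nonabelian configuration.** -/
theorem gross_irr_le (hD : GrossData k p q n M₀) (h : GrossKP k p q n M₀ V Q φ)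
    (hmin : GrossMin p q n Q φ) {χ θ : (Module.End k V)ˣ → k}
    {R : Subgroup (Module.End k V)ˣ} {W : Submodule k V} (hW : GrossW Q χ θ R W)
    (N a : ℕ) (hNa : N * a = p ^ (n + 1)) (ha : 1 < a) (hWN : ∀ v ∈ W, (φ ^ N).1 v ∈ W)
    (hfix : ∀ v ∈ W, (φ ^ N).1 v = v → v = 0)
    (hinv : ∀ z ∈ Q ⊓ Subgroup.centralizer (Q : Set (Module.End k V)ˣ),
      χ (φ ^ N * z * (φ ^ N)⁻¹) = χ z) :
    Nat.card Q ≤ (a - 1) ^ 2 * Nat.card R := by
  haveI : Nontrivial ↥W := (Submodule.nontrivial_iff_ne_bot).mpr hW.hW0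
  exact gross_irr_le_of_G1 hD h hmin hW N a hNa ha hWN hfix hinv
    (fun Q' hfin hc2 hsc hcard => by
      haveI := hfin
      exact Cfsg.Agent.Lib.Helper86.gross_hh_G1 Q' hc2 hsc hcard)

end

end Cfsg.Agent.Lib.Helper67.GrossIrrHH
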