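import Mathlib
import Cfsg.Agent.Lib.Helper26.GrossDefs
import Cfsg.Agent.Lib.Helper1.Coprime

set_option autoImplicit false
set_option linter.style.haveILetI false
set_option linter.unusedSectionVars false

open scoped commutatorElement

namespace Cfsg.Agent.Lib.Helper67.GrossRedP

universe u

open Cfsg.Agent.Lib.Helper26

/-- conjugation by natural powers keeps a conjugation-stable subgroup -/
theorem pow_conj_mem {G : Type*} [Group G] (φ : G) (D : Subgroup G)
    (hD : ∀ x ∈ D, φ * x * φ⁻¹ ∈ D) (i : ℕ) : ∀ x ∈ D, φ ^ i * x * (φ ^ i)⁻¹ ∈ D := by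
  induction i with
  | zero =>
    intro x hx
    simpa using hx
  | succ i ih =>
    intro x hx
    have e : φ ^ (i + 1) * x * (φ ^ (i + 1))⁻¹ = φ ^ i * (φ * x * φ⁻¹) * (φ ^ i)⁻¹ := by
      rw [pow_succ]
      group
    rw [e]
    exact ih _ (hD x hx)

theorem zpowers_conj_mem {G : Type*} [Group G] (φ : G) {m : ℕ} (hm : 0 < m) (hφ : φ ^ m = 1)
    (D : Subgroup G) (hD : ∀ x ∈ D, φ * x * φ⁻¹ ∈ D) :
    ∀ a ∈ Subgroup.zpowers φ, ∀ x ∈ D, a * x * a⁻¹ ∈ D := by
  intro a ha x hx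
  obtain ⟨z, rfl⟩ := Subgroup.mem_zpowers_iff.mp ha
  have hm' : (m : ℤ) ≠ 0 := by exact_mod_cast hm.ne'
  have e : φ ^ z = φ ^ (z % (m : ℤ)).toNat := by
    rw [← zpow_natCast, Int.toNat_of_nonneg (Int.emod_nonneg _ hm')]
    exact zpow_eq_zpow_emod' z hφ
  rw [e]
  exact pow_conj_mem φ D hD _ x hx

theorem zpowers_le_normalizer {G : Type*} [Group G] (φ : G) {m : ℕ} (hm : 0 < m)
    (hφ : φ ^ m = 1) (D : Subgroup G) (hD : ∀ x ∈ D, φ * x * φ⁻¹ ∈ D) :
    Subgroup.zpowers φ ≤ Subgroup.normalizer (D : Set G) := by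
  intro a ha
  rw [Subgroup.mem_normalizer_iff]
  intro x
  constructor
  · exact zpowers_conj_mem φ hm hφ D hD a ha x
  · intro hx
    have h1 := zpowers_conj_mem φ hm hφ D hD a⁻¹ (Subgroup.inv_mem _ ha) _ hx
    simpa [mul_assoc] using h1

/-- the units acting trivially on a subspace -/
def trivOn {k : Type*} [Field k] {V : Type*} [AddCommGroup V] [Module k V] (X : Submodule k V) :
    Subgroup (Module.End k V)ˣ where
  carrier := {g | ∀ u ∈ X, (g : Module.End k V) u = u}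
  mul_mem' := by
    intro a b ha hb u hu
    rw [Units.val_mul, Module.End.mul_apply, hb u hu, ha u hu]
  one_mem' := by
    intro u _
    simp
  inv_mem' := by
    intro a ha u hu
    have h1 : ((a⁻¹ : (Module.End k V)ˣ) : Module.End k V) ((a : Module.End k V) u) = u := by
      rw [← Module.End.mul_apply, ← Units.val_mul, inv_mul_cancel, Units.val_one,
        Module.End.one_apply]
    rw [ha u hu] at h1
    exact h1

theorem mem_trivOn {k : Type*} [Field k] {V : Type*} [AddCommGroup V] [Module k V]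
    (X : Submodule k V) (g : (Module.End k V)ˣ) :
    g ∈ trivOn X ↔ ∀ u ∈ X, (g : Module.End k V) u = u := Iff.rfl

/-- the coset condition propagates to all powers -/
theorem coset_pow {G : Type*} [Group G] (φ x : G) (D : Subgroup G)
    (hD : ∀ i : ℕ, ∀ y ∈ D, φ ^ i * y * (φ ^ i)⁻¹ ∈ D)
    (h1 : x⁻¹ * (φ * x * φ⁻¹) ∈ D) (i : ℕ) : x⁻¹ * (φ ^ i * x * (φ ^ i)⁻¹) ∈ D := by
  induction i with
  | zero => simp
  | succ i ih =>
    have e : x⁻¹ * (φ ^ (i + 1) * x * (φ ^ (i + 1))⁻¹) =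
        (x⁻¹ * (φ ^ i * x * (φ ^ i)⁻¹)) * (φ ^ i * (x⁻¹ * (φ * x * φ⁻¹)) * (φ ^ i)⁻¹) := by
      rw [pow_succ]
      group
    rw [e]
    exact D.mul_mem ih (hD i _ h1)

theorem coset_zpowers {G : Type*} [Group G] (φ x : G) {m : ℕ} (hm : 0 < m) (hφ : φ ^ m = 1)
    (D : Subgroup G) (hD : ∀ y ∈ D, φ * y * φ⁻¹ ∈ D)
    (h1 : x⁻¹ * (φ * x * φ⁻¹) ∈ D) :
    ∀ a ∈ Subgroup.zpowers φ, x⁻¹ * (a * x * a⁻¹) ∈ D := by
  intro a ha
  obtain ⟨z, rfl⟩ := Subgroup.mem_zpowers_iff.mp ha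
  have hm' : (m : ℤ) ≠ 0 := by exact_mod_cast hm.ne'
  have e : φ ^ z = φ ^ (z % (m : ℤ)).toNat := by
    rw [← zpow_natCast, Int.toNat_of_nonneg (Int.emod_nonneg _ hm')]
    exact zpow_eq_zpow_emod' z hφ
  rw [e]
  exact coset_pow φ x D (pow_conj_mem φ D hD) h1 _

/-- the hypotheses of the key proposition pass to an invariant subspace -/
theorem red_kp {k : Type*} [Field k] [Finite k] {p q n M₀ : ℕ} (hD : GrossData k p q n M₀)
    (V : Type u) [AddCommGroup V] [Module k V] [Module.Finite k V]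
    (Q : Subgroup (Module.End k V)ˣ) (φ : (Module.End k V)ˣ)
    (h : GrossKP k p q n M₀ V Q φ) (X : Submodule k V)
    (hφs : φ ∈ grossStab X) :
    GrossKP k p q n M₀ ↥X (grossResSub X Q) (grossRes X ⟨φ, hφs⟩) := by
  haveI : Finite (Module.End k V)ˣ := gross_finite_units
  haveI : Fact p.Prime := ⟨hD.hp⟩
  haveI : Fact q.Prime := ⟨hD.hq⟩
  have hm : 0 < p ^ (n + 1) := pow_pos hD.hp.pos _
  refine ⟨?_, ?_, ?_, ?_, ?_, ?_⟩
  · exact (h.hQ.comap_subtype).map _
  · exact (card_grossResSub_dvd X Q).trans h.hcard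
  · rw [← map_pow]
    have h1 : (⟨φ, hφs⟩ : ↥(grossStab X)) ^ p ^ (n + 1) = 1 := Subtype.ext (by simpa using h.hφ)
    rw [h1, map_one]
  · intro y hy
    obtain ⟨x, hx, rfl⟩ := (mem_grossResSub X Q y).mp hy
    rw [← map_inv, ← map_mul, ← map_mul]
    exact (mem_grossResSub X Q _).mpr ⟨_, h.hnorm _ hx, rfl⟩
  · intro y hy hcomm
    obtain ⟨x, hx, rfl⟩ := (mem_grossResSub X Q y).mp hy
    rw [grossRes_eq_one_iff]
    have key : ∀ u ∈ X, (φ : Module.End k V) (((x : (Module.End k V)ˣ) : Module.End k V) u) =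
        ((x : (Module.End k V)ˣ) : Module.End k V) ((φ : Module.End k V) u) := by
      intro u hu
      have h1 := congrArg
        (fun g : (Module.End k ↥X)ˣ => (((g : Module.End k ↥X) ⟨u, hu⟩ : ↥X) : V)) hcomm
      simp only [Units.val_mul, Module.End.mul_apply, grossRes_apply] at h1
      exact h1
    set D : Subgroup (Module.End k V)ˣ := Q ⊓ trivOn X with hDdef
    have hDφ : ∀ y ∈ D, φ * y * φ⁻¹ ∈ D := by
      intro y hy
      refine ⟨h.hnorm y hy.1, (mem_trivOn X _).mpr ?_⟩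
      intro u hu
      have hy2 := (mem_trivOn X y).mp hy.2
      rw [Units.val_mul, Units.val_mul, Module.End.mul_apply, Module.End.mul_apply,
        hy2 _ (hφs.2 u hu), ← Module.End.mul_apply, ← Units.val_mul, mul_inv_cancel,
        Units.val_one, Module.End.one_apply]
    have hx1 : (x : (Module.End k V)ˣ)⁻¹ * (φ * (x : (Module.End k V)ˣ) * φ⁻¹) ∈ D := by
      refine ⟨Q.mul_mem (Q.inv_mem hx) (h.hnorm _ hx), (mem_trivOn X _).mpr ?_⟩
      intro u hu
      rw [Units.val_mul, Units.val_mul, Units.val_mul, Module.End.mul_apply,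
        Module.End.mul_apply, Module.End.mul_apply, key _ (hφs.2 u hu)]
      rw [← Module.End.mul_apply (φ : Module.End k V), ← Units.val_mul, mul_inv_cancel,
        Units.val_one, Module.End.one_apply, ← Module.End.mul_apply, ← Units.val_mul,
        inv_mul_cancel, Units.val_one, Module.End.one_apply]
    have hAD : Subgroup.zpowers φ ≤ Subgroup.normalizer (D : Set (Module.End k V)ˣ) :=
      zpowers_le_normalizer φ hm h.hφ D hDφ
    have hcop : (Nat.card (Subgroup.zpowers φ)).Coprime (Nat.card D) := by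
      have hA : Nat.card (Subgroup.zpowers φ) ∣ p ^ (n + 1) := by
        rw [Nat.card_zpowers]
        exact orderOf_dvd_of_pow_eq_one h.hφ
      obtain ⟨a, _, ha⟩ := (Nat.dvd_prime_pow hD.hp).mp hA
      have hDp : IsPGroup q D := h.hQ.to_le inf_le_left
      obtain ⟨b, hb⟩ := IsPGroup.iff_card.mp hDp
      rw [ha, hb]
      exact Nat.Coprime.pow _ _ ((Nat.coprime_primes hD.hp hD.hq).mpr (Ne.symm hD.hqp))
    have hsolv : Group.IsSolvable (Subgroup.zpowers φ) ∨ Group.IsSolvable D := by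
      left
      apply Group.isSolvable_of_comm
      rintro ⟨a, ha⟩ ⟨b, hb⟩
      obtain ⟨i, rfl⟩ := Subgroup.mem_zpowers_iff.mp ha
      obtain ⟨j, rfl⟩ := Subgroup.mem_zpowers_iff.mp hb
      apply Subtype.ext
      show φ ^ i * φ ^ j = φ ^ j * φ ^ i
      rw [← zpow_add, ← zpow_add, add_comm]
    obtain ⟨d, hd, hxd⟩ := Cfsg.Agent.Lib.Helper1.coprime_coset_fixed hAD hcop hsolv
      (x : (Module.End k V)ˣ) (coset_zpowers φ _ hm h.hφ D hDφ hx1)
    have h2 : φ * ((x : (Module.End k V)ˣ) * d) = (x : (Module.End k V)ˣ) * d * φ :=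
      Subgroup.mem_centralizer_iff.mp hxd φ (Subgroup.mem_zpowers φ)
    have h3 : (x : (Module.End k V)ˣ) * d = 1 := h.hCQ _ (Q.mul_mem hx hd.1) h2
    have h4 : (x : (Module.End k V)ˣ) = d⁻¹ := eq_inv_of_mul_eq_one_left h3
    have h5 : (x : (Module.End k V)ˣ) ∈ trivOn X := by
      rw [h4]
      exact (trivOn X).inv_mem hd.2
    exact (mem_trivOn X _).mp h5
  · intro v hv
    apply Subtype.ext
    have h1 := congrArg (fun w : ↥X => (w : V)) hv
    simp only [grossRes_apply] at h1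
    exact h.hCV _ h1

/-- by induction, `φ ^ p ^ n` commutes with `Q` on a proper invariant subspace -/
theorem red_agree {k : Type*} [Field k] [Finite k] {p q n M₀ : ℕ} (hD : GrossData k p q n M₀)
    (d : ℕ)
    (ih : ∀ d' < d, ∀ (V : Type u) [AddCommGroup V] [Module k V] [Module.Finite k V]
      (Q : Subgroup (Module.End k V)ˣ) (φ : (Module.End k V)ˣ),
      Module.finrank k V + Nat.card Q = d' → GrossKP k p q n M₀ V Q φ →
      ∀ x ∈ Q, φ ^ p ^ n * x = x * φ ^ p ^ n)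
    (V : Type u) [AddCommGroup V] [Module k V] [Module.Finite k V]
    (Q : Subgroup (Module.End k V)ˣ) (φ : (Module.End k V)ˣ)
    (hd : Module.finrank k V + Nat.card Q = d) (h : GrossKP k p q n M₀ V Q φ)
    (X : Submodule k V) (hX1 : X ≠ ⊤)
    (hQX : ∀ x ∈ Q, ∀ u ∈ X, (x : Module.End k V) u ∈ X)
    (hφX : ∀ u ∈ X, (φ : Module.End k V) u ∈ X) :
    ∀ x ∈ Q, ∀ u ∈ X, ((φ ^ p ^ n * x : (Module.End k V)ˣ) : Module.End k V) u =
      ((x * φ ^ p ^ n : (Module.End k V)ˣ) : Module.End k V) u := by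
  haveI : Finite (Module.End k V)ˣ := gross_finite_units
  have hm : 0 < p ^ (n + 1) := pow_pos hD.hp.pos _
  have hφs : φ ∈ grossStab X := mem_grossStab_of_pow X hm h.hφ hφX
  have hQs : ∀ x ∈ Q, x ∈ grossStab X := by
    intro x hx
    exact mem_grossStab_of_pow X (orderOf_pos x) (pow_orderOf_eq_one x) (hQX x hx)
  have hKP := red_kp hD V Q φ h X hφs
  have hlt : Module.finrank k ↥X + Nat.card ↥(grossResSub X Q) < d := by
    have h1 : Module.finrank k ↥X < Module.finrank k V := Submodule.finrank_lt hX1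
    have h2 : Nat.card ↥(grossResSub X Q) ≤ Nat.card Q :=
      Nat.le_of_dvd Nat.card_pos (card_grossResSub_dvd X Q)
    omega
  have hres := ih _ hlt ↥X (grossResSub X Q) (grossRes X ⟨φ, hφs⟩) rfl hKP
  intro x hx u hu
  have h1 := hres (grossRes X ⟨x, hQs x hx⟩) ((mem_grossResSub X Q _).mpr ⟨_, hx, rfl⟩)
  rw [← map_pow, ← map_mul, ← map_mul] at h1
  have h2 := congrArg
    (fun g : (Module.End k ↥X)ˣ => (((g : Module.End k ↥X) ⟨u, hu⟩ : ↥X) : V)) h1
  simp only [grossRes_apply] at h2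
  exact h2

/-- **Reduction step of the linear key proposition**: a proper nonzero invariant subspace. -/
theorem gross_kp_red {k : Type*} [Field k] [Finite k] {p q n M₀ : ℕ} (hD : GrossData k p q n M₀)
    (d : ℕ)
    (ih : ∀ d' < d, ∀ (V : Type u) [AddCommGroup V] [Module k V] [Module.Finite k V]
      (Q : Subgroup (Module.End k V)ˣ) (φ : (Module.End k V)ˣ),
      Module.finrank k V + Nat.card Q = d' → GrossKP k p q n M₀ V Q φ →
      ∀ x ∈ Q, φ ^ p ^ n * x = x * φ ^ p ^ n)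
    (V : Type u) [AddCommGroup V] [Module k V] [Module.Finite k V]
    (Q : Subgroup (Module.End k V)ˣ) (φ : (Module.End k V)ˣ)
    (hd : Module.finrank k V + Nat.card Q = d) (h : GrossKP k p q n M₀ V Q φ)
    (U : Submodule k V) (hU0 : U ≠ ⊥) (hU1 : U ≠ ⊤)
    (hQU : ∀ x ∈ Q, ∀ u ∈ U, (x : Module.End k V) u ∈ U)
    (hφU : ∀ u ∈ U, (φ : Module.End k V) u ∈ U) :
    ∀ x ∈ Q, φ ^ p ^ n * x = x * φ ^ p ^ n := by
  haveI : Finite (Module.End k V)ˣ := gross_finite_units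
  have hm : 0 < p ^ (n + 1) := pow_pos hD.hp.pos _
  have hQk : (Nat.card Q : k) ≠ 0 :=
    gross_cast_ne_zero (Nat.Coprime.coprime_dvd_left h.hcard hD.hcop)
  have hAk : (Nat.card (Subgroup.zpowers φ) : k) ≠ 0 := by
    apply gross_cast_ne_zero
    have hA : Nat.card (Subgroup.zpowers φ) ∣ p ^ (n + 1) := by
      rw [Nat.card_zpowers]
      exact orderOf_dvd_of_pow_eq_one h.hφ
    exact Nat.Coprime.coprime_dvd_left (hA.trans hD.hM) hD.hcop
  obtain ⟨g, hg⟩ := LinearMap.exists_leftInverse_of_injective U.subtype (Submodule.ker_subtype U)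
  let π₀ : Module.End k V := U.subtype ∘ₗ g
  have hπ₀U : ∀ v, π₀ v ∈ U := fun v => (g v).2
  have hπ₀ : ∀ u ∈ U, π₀ u = u := by
    intro u hu
    have h1 := congrArg (fun f : ↥U →ₗ[k] ↥U => ((f ⟨u, hu⟩ : ↥U) : V)) hg
    simpa [π₀] using h1
  let ρ : (Module.End k V)ˣ →* Module.End k V := Units.coeHom (Module.End k V)
  have hρ : ∀ x : (Module.End k V)ˣ, ρ x = (x : Module.End k V) := fun x => rfl
  obtain ⟨π₁, hπ₁U, hπ₁, hπ₁Q, -⟩ := gross_avg ρ Q ⊥ hQk U
    (fun b hb u hu => hQU b hb u hu) π₀ hπ₀U hπ₀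
    (fun b _ x hx => by
      rw [Subgroup.mem_bot] at hx ⊢
      rw [hx]
      group)
    (fun x hx v => by
      rw [Subgroup.mem_bot] at hx
      rw [hx, map_one]
      rfl)
  have hzQ : ∀ b ∈ Subgroup.zpowers φ, ∀ x ∈ Q, b⁻¹ * x * b ∈ Q := by
    intro b hb x hx
    have h1 := zpowers_conj_mem φ hm h.hφ Q h.hnorm b⁻¹ (Subgroup.inv_mem _ hb) x hx
    simpa using h1
  have hφsU : φ ∈ grossStab U := mem_grossStab_of_pow U hm h.hφ hφU
  have hzU : ∀ b ∈ Subgroup.zpowers φ, ∀ u ∈ U, ρ b u ∈ U :=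
    fun b hb u hu => ((Subgroup.zpowers_le.mpr hφsU) hb).1 u hu
  obtain ⟨π', hπ'U, hπ', hπ'φ, hπ'Q⟩ :=
    gross_avg ρ (Subgroup.zpowers φ) Q hAk U hzU π₁ hπ₁U hπ₁ hzQ hπ₁Q
  have hc : IsCompl U (LinearMap.ker π') := gross_isCompl_ker π' U hπ'U hπ'
  have hU'1 : LinearMap.ker π' ≠ ⊤ := by
    intro htop
    apply hU0
    have h1 := hc.disjoint
    rw [htop] at h1
    exact disjoint_top.mp h1
  have hQU' : ∀ x ∈ Q, ∀ u ∈ LinearMap.ker π', (x : Module.End k V) u ∈ LinearMap.ker π' := by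
    intro x hx u hu
    rw [LinearMap.mem_ker] at hu ⊢
    have h1 := hπ'Q x hx u
    rw [hρ] at h1
    rw [h1, hu, map_zero]
  have hφU' : ∀ u ∈ LinearMap.ker π', (φ : Module.End k V) u ∈ LinearMap.ker π' := by
    intro u hu
    rw [LinearMap.mem_ker] at hu ⊢
    have h1 := hπ'φ φ (Subgroup.mem_zpowers φ) u
    rw [hρ] at h1
    rw [h1, hu, map_zero]
  have hA := red_agree hD d ih V Q φ hd h U hU1 hQU hφU
  have hB := red_agree hD d ih V Q φ hd h (LinearMap.ker π') hU'1 hQU' hφU'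
  intro x hx
  apply Units.ext
  apply LinearMap.ext
  intro v
  have hv : v ∈ U ⊔ LinearMap.ker π' := by
    rw [hc.sup_eq_top]
    trivial
  obtain ⟨u, hu, u', hu', rfl⟩ := Submodule.mem_sup.mp hv
  rw [map_add, map_add, hA x hx u hu, hB x hx u' hu']

end Cfsg.Agent.Lib.Helper67.GrossRedP
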