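import Mathlib
import Cfsg.Agent.Lib.Helper33.BFOne2
import Cfsg.Agent.Lib.Helper22.DOne2
import Cfsg.Agent.Lib.Helper22.TGDefs
import Cfsg.Agent.Lib.Helper22.IndCent2
import Cfsg.Agent.Lib.Helper57.DOCL1

/-!
# DG piece GD (for helper79): the rank one structure of a subsection of a block of defect one,
with the canonical character given (copy of `Helper33.BF.exists_gendec`)
-/

set_option autoImplicit false
set_option linter.style.haveILetI false
set_option maxHeartbeats 1600000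

namespace Cfsg.Agent.Lib.Helper67.DG

open Cfsg Cfsg.Agent.Lib.Helper80.GenDec Cfsg.Agent.Lib.Helper80.Contrib
open Cfsg.Agent.Lib.Helper4 Cfsg.Agent.Lib.Helper21 Cfsg.Agent.Lib.Helper22
open Cfsg.Agent.Lib.Helper80.K2 Cfsg.Agent.Lib.Helper80.Major Cfsg.Agent.Lib.Helper81
open Cfsg.Agent.Lib.Helper33.BF
open scoped ComplexConjugate

section GD

variable {G : Type*} [Group G] [Fintype G] {p : ℕ} [Fact p.Prime] {M : Ideal AlgInt}
variable (H : Subgroup G) [Fintype H] [Fintype (IrrCharacter H)]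

open scoped Classical in
/-- the common set-up: the canonical character, its uniqueness and the kernel formula -/
theorem gd_setup (hM : IsPModular p M) (z : H) (hz : z ∈ Subgroup.center H)
    (hn : orderOf (z : G) = p) (hCH : Subgroup.centralizer ({(z : G)} : Set G) ≤ H)
    (c : Set (IrrCharacter H)) (β : Set (IrrCharacter G)) (hind : IsInducedBlock M H c β)
    (hβ1 : blockDefect p β = 1) :
    ∃ ξ₀ : IrrCharacter H, ξ₀ ∈ c ∧ (∀ k : ℕ, ξ₀.1 (z ^ k) = ξ₀.1 1) ∧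
      (∀ ξ ∈ c, (∀ k : ℕ, ξ.1 (z ^ k) = ξ.1 1) → ξ = ξ₀) ∧
      (∀ s t : H, ¬ p ∣ orderOf s → ¬ p ∣ orderOf t →
        ∑ ξ : IrrCharacter H, (if ξ ∈ c then ξ.1 s * conj (ξ.1 t) else 0) =
          (p : ℂ) * (ξ₀.1 s * conj (ξ₀.1 t))) ∧
      blockDefect p c = 1 := by
  have hp : p.Prime := Fact.out
  have hpc : (p : ℂ) ≠ 0 := Nat.cast_ne_zero.mpr hp.ne_zero
  have hc : IsPBlock M c := hind.1
  have hzp : z ^ p = 1 := by
    apply Subtype.ext
    rw [Subgroup.coe_pow, ← hn]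
    exact pow_orderOf_eq_one _
  obtain ⟨D, hD⟩ : ∃ D : Subgroup H, D = Subgroup.zpowers z := ⟨_, rfl⟩
  have hDZ : D ≤ Subgroup.center H := by
    rw [hD, Subgroup.zpowers_le]; exact hz
  have hDcard : Nat.card D = p ^ 1 := by
    rw [hD, Nat.card_zpowers, pow_one, ← hn, Subgroup.orderOf_coe]
  have hDp : IsPGroup p D := IsPGroup.of_card hDcard
  haveI hDn : D.Normal := by
    constructor
    intro n hn' g
    have := Subgroup.mem_center_iff.mp (hDZ hn') g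
    rw [this, mul_inv_cancel_right]
    exact hn'
  letI : Fintype (H ⧸ D) := Fintype.ofFinite _
  haveI := irr_finite (G := H ⧸ D)
  letI := Fintype.ofFinite (IrrCharacter (H ⧸ D))
  have hC : ∃ k : ℕ, (Subgroup.centralizer (D : Set H)).index = p ^ k :=
    ⟨0, by rw [Subgroup.centralizer_eq_top_iff_subset.mpr hDZ]; simp⟩
  obtain ⟨c', hc'def⟩ : ∃ c' : Set (IrrCharacter (H ⧸ D)),
      c' = {θ | Cfsg.Agent.Lib.Helper83.inflate D θ ∈ c} := ⟨_, rfl⟩
  have hmemc' : ∀ θ : IrrCharacter (H ⧸ D), θ ∈ c' ↔ Cfsg.Agent.Lib.Helper83.inflate D θ ∈ c := by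
    intro θ; rw [hc'def]; rfl
  have hc' : IsPBlock M c' := by
    rw [hc'def]; exact isPBlock_deflate hM D hDp hC c hc
  have hle1 := blockDefect_deflate_le hM c hc D hDp 1 hDcard
  have hle2 := Cfsg.Agent.Lib.Helper82.blockDefect_le_of_induced hM H c β hind
  rw [← hc'def] at hle1
  have hdc : blockDefect p c = 1 := by omega
  have hdc' : blockDefect p c' = 0 := by omega
  have hcard' : Nat.card c' = 1 := ((Cfsg.Agent.S4733.result p M hM c' hc').2.1.mp hdc').1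
  obtain ⟨θ₀, hθ₀⟩ := id hc'
  have hθ₀c' : θ₀ ∈ c' := by
    rw [hθ₀]; exact Cfsg.Agent.Lib.Helper79.mem_blockOf_self hM θ₀
  have huniq : ∀ θ ∈ c', θ = θ₀ := by
    intro θ hθ
    have := Finite.card_le_one_iff_subsingleton.mp hcard'.le
    have h1 := @Subsingleton.elim _ this (⟨θ, hθ⟩ : c') ⟨θ₀, hθ₀c'⟩
    exact congrArg Subtype.val h1
  refine ⟨Cfsg.Agent.Lib.Helper83.inflate D θ₀, (hmemc' θ₀).mp hθ₀c', ?_, ?_, ?_, hdc⟩
  · intro k
    have hk : z ^ k ∈ D := by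
      rw [hD]; exact Subgroup.pow_mem _ (Subgroup.mem_zpowers z) k
    rw [Cfsg.Agent.Lib.Helper83.inflate_apply, Cfsg.Agent.Lib.Helper83.inflate_apply,
      (QuotientGroup.eq_one_iff _).mpr hk, QuotientGroup.mk_one]
  · intro ξ hξ hξz
    have hξD : ∀ x ∈ D, (ξ : H → ℂ) x = (ξ : H → ℂ) 1 := by
      intro x hx
      rw [hD, ← mem_powers_iff_mem_zpowers] at hx
      obtain ⟨k, rfl⟩ := hx
      exact hξz k
    obtain ⟨θ', hθ'⟩ := Cfsg.Agent.Lib.Helper83.exists_inflate_eq D ξ hξD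
    have hθ'c : θ' ∈ c' := by
      rw [hmemc', hθ']; exact hξ
    rw [← hθ', huniq θ' hθ'c]
  · intro s t hs ht
    rw [block_kernel_deflate hM c hc D hDZ hDp s t hs ht, hDcard, pow_one]
    congr 1
    rw [Finset.sum_eq_single θ₀]
    · rw [if_pos ((hmemc' θ₀).mp hθ₀c')]
      rfl
    · intro θ _ hne
      rw [if_neg]
      intro h
      exact hne (huniq θ ((hmemc' θ).mpr h))
    · intro h; exact absurd (Finset.mem_univ _) h

open scoped Classical in
/-- PIECE GD -/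
theorem exists_gendec' (hM : IsPModular p M) (z : H) (hz : z ∈ Subgroup.center H)
    (hn : orderOf (z : G) = p) (hCH : Subgroup.centralizer ({(z : G)} : Set G) ≤ H)
    (c : Set (IrrCharacter H)) (β : Set (IrrCharacter G)) (hind : IsInducedBlock M H c β)
    (hβ1 : blockDefect p β = 1) (ζ : ℂ) (hζ : IsPrimitiveRoot ζ p)
    (ξ₀ : IrrCharacter H) (hξ₀ : ξ₀ ∈ c) (hξ₀z : ∀ k : ℕ, ξ₀.1 (z ^ k) = ξ₀.1 1) :
    (∀ ξ ∈ c, (∀ k : ℕ, ξ.1 (z ^ k) = ξ.1 1) → ξ = ξ₀) ∧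
    ∃ (v : ZMod p → IrrCharacter G → ℤ),
      (∀ a θ, θ ∉ β → v a θ = 0) ∧
      (∑ ξ : IrrCharacter H, (if ξ ∈ c then conj (ξ.1 1) * ξ.1 1 else 0) =
        (p : ℂ) * (conj (ξ₀.1 1) * ξ₀.1 1)) ∧
      (∀ (t : ZMod p) (θ : IrrCharacter G), θ ∈ β → ∀ s : H, ¬ p ∣ orderOf s →
        X H c ((z ^ t.val : H) : G) θ s =
          (∑ a : ZMod p, (v a θ : ℂ) * ζ ^ (a * t).val) * ξ₀.1 s) := by
  obtain ⟨ξ₁, -, -, huq, hker, hdc⟩ := gd_setup H hM z hz hn hCH c β hind hβ1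
  have hξ01 : ξ₀ = ξ₁ := huq ξ₀ hξ₀ hξ₀z
  subst hξ01
  refine ⟨huq, ?_⟩
  have hp : p.Prime := Fact.out
  have hpc : (p : ℂ) ≠ 0 := Nat.cast_ne_zero.mpr hp.ne_zero
  have hc : IsPBlock M c := hind.1
  have hzp : z ^ p = 1 := by
    apply Subtype.ext
    rw [Subgroup.coe_pow, ← hn]
    exact pow_orderOf_eq_one _
  obtain ⟨w, hw⟩ : ∃ w : IrrCharacter H → ℤ, ∀ ξ, w ξ = cc H p c ξ ξ₀ := ⟨_, fun _ => rfl⟩
  have hκ : (Nat.card H : ℂ) = ((kap H p c : ℝ) : ℂ) * (p : ℂ) := by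
    have h2 := card_eq_split (p := p) H c
    rw [← kap_cast, hdc] at h2
    rw [h2]
    push_cast
    ring
  have hκ0 : ((kap H p c : ℝ) : ℂ) ≠ 0 := by
    exact_mod_cast (kap_pos H c).ne'
  have hwreg : ∀ ξ ∈ c, ∀ t : H, ¬ p ∣ orderOf t → ξ.1 t = (w ξ : ℂ) * ξ₀.1 t := by
    intro ξ hξ t ht
    have h2 := kernel_repro hM c hc ξ.1 t ht
    rw [blockPart_irr, if_pos hξ] at h2
    have h3 : ∀ s' : H, (if p ∣ orderOf s' then (0 : ℂ) else conj (ξ.1 s') *
        ∑ ξ' : IrrCharacter H, (if ξ' ∈ c then conj (ξ'.1 t) * ξ'.1 s' else 0)) =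
        (p : ℂ) * conj (ξ₀.1 t) *
          conj (if p ∣ orderOf s' then 0 else ξ.1 s' * conj (ξ₀.1 s')) := by
      intro s'
      by_cases hs' : p ∣ orderOf s'
      · simp [hs']
      · simp only [if_neg hs']
        have h5 : ∑ ξ' : IrrCharacter H, (if ξ' ∈ c then conj (ξ'.1 t) * ξ'.1 s' else 0) =
            ∑ ξ' : IrrCharacter H, (if ξ' ∈ c then ξ'.1 s' * conj (ξ'.1 t) else 0) :=
          Finset.sum_congr rfl fun ξ' _ => by rw [mul_comm]
        rw [h5, hker s' t hs' ht, map_mul, Complex.conj_conj]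
        ring
    rw [Finset.sum_congr rfl (fun s' _ => h3 s'), ← Finset.mul_sum, ← map_sum, ← Q_def,
      ← cc_gram H hM c hc ξ hξ ξ₀, ← kap_cast, hκ] at h2
    rw [hw]
    have h4 : conj (ξ.1 t) = conj ((cc H p c ξ ξ₀ : ℂ) * ξ₀.1 t) := by
      apply mul_left_cancel₀ (mul_ne_zero hκ0 hpc)
      rw [← h2, map_mul, map_mul, map_intCast, Complex.conj_ofReal]
      ring
    exact (starRingEnd ℂ).injective h4
  have hexp : ∀ ξ : IrrCharacter H, ∃ a : ZMod p, eps H z ξ = ζ ^ a.val := by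
    intro ξ
    obtain ⟨i, hi, hie⟩ := hζ.eq_pow_of_pow_eq_one (eps_pow_eq_one H z hz ξ p hzp)
    refine ⟨(i : ZMod p), ?_⟩
    rw [ZMod.val_natCast, Nat.mod_eq_of_lt hi, hie]
  choose κ hκe using hexp
  have hζpow : ∀ a b : ZMod p, (ζ ^ a.val) ^ b.val = ζ ^ (a * b).val := by
    intro a b
    rw [← pow_mul, ZMod.val_mul]
    conv_lhs => rw [← Nat.mod_add_div (a.val * b.val) p]
    rw [pow_add, pow_mul, hζ.pow_eq_one, one_pow, mul_one]
  obtain ⟨v, hv⟩ : ∃ v : ZMod p → IrrCharacter G → ℤ, ∀ a θ, v a θ =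
      if θ ∈ β then ∑ ξ : IrrCharacter H,
        (if ξ ∈ c ∧ κ ξ = a then (resMult H θ ξ : ℤ) * w ξ else 0) else 0 :=
    ⟨_, fun _ _ => rfl⟩
  have h1reg : ¬ p ∣ orderOf (1 : H) := by
    rw [orderOf_one]; exact hp.not_dvd_one
  refine ⟨v, ?_, ?_, ?_⟩
  · intro a θ hθ
    rw [hv, if_neg hθ]
  · have h2 := hker 1 1 h1reg h1reg
    rw [mul_comm (conj (ξ₀.1 1)), ← h2]
    refine Finset.sum_congr rfl fun ξ _ => ?_
    by_cases hξ : ξ ∈ c
    · rw [if_pos hξ, if_pos hξ, mul_comm]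
    · rw [if_neg hξ, if_neg hξ]
  · intro t θ hθ s hs
    have hz' : z ^ t.val ∈ Subgroup.center H := Subgroup.pow_mem _ hz _
    rw [X_expand H c θ (z ^ t.val) hz']
    have e1 : ∑ a : ZMod p, (v a θ : ℂ) * ζ ^ (a * t).val =
        ∑ ξ : IrrCharacter H, (if ξ ∈ c then
          (resMult H θ ξ : ℂ) * (w ξ : ℂ) * ζ ^ (κ ξ * t).val else 0) := by
      simp only [hv, if_pos hθ]
      push_cast
      simp only [Finset.sum_mul]
      rw [Finset.sum_comm]
      refine Finset.sum_congr rfl fun ξ _ => ?_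
      by_cases hξ : ξ ∈ c
      · rw [if_pos hξ, Finset.sum_eq_single (κ ξ)]
        · rw [if_pos ⟨hξ, rfl⟩]
        · intro a _ hne
          rw [if_neg (fun h => hne h.2.symm), zero_mul]
        · intro h; exact absurd (Finset.mem_univ _) h
      · rw [if_neg hξ]
        refine Finset.sum_eq_zero fun a _ => ?_
        rw [if_neg (fun h => hξ h.1), zero_mul]
    rw [e1, Finset.sum_mul]
    refine Finset.sum_congr rfl fun ξ _ => ?_
    by_cases hξ : ξ ∈ c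
    · rw [if_pos hξ, if_pos hξ, eps_pow H z hz, hκe ξ, hζpow, hwreg ξ hξ s hs]
      ring
    · rw [if_neg hξ, if_neg hξ, zero_mul, zero_mul]

/-- PIECE GD (second part): the canonical character exists -/
theorem exists_canon (hM : IsPModular p M) (z : H) (hz : z ∈ Subgroup.center H)
    (hn : orderOf (z : G) = p) (hCH : Subgroup.centralizer ({(z : G)} : Set G) ≤ H)
    (c : Set (IrrCharacter H)) (β : Set (IrrCharacter G)) (hind : IsInducedBlock M H c β)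
    (hβ1 : blockDefect p β = 1) :
    ∃ ξ₀ : IrrCharacter H, ξ₀ ∈ c ∧ ∀ k : ℕ, ξ₀.1 (z ^ k) = ξ₀.1 1 := by
  obtain ⟨ξ₀, h1, h2, -⟩ := gd_setup H hM z hz hn hCH c β hind hβ1
  exact ⟨ξ₀, h1, h2⟩

end GD

end Cfsg.Agent.Lib.Helper67.DG
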