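import Mathlib
import Cfsg.Prelude.Def_GeometricClasses
import Cfsg.Prelude.Def_LieClassical
import Cfsg.Agent.Lib.Helper71.Asch0
import Cfsg.Agent.Lib.Helper71.Asch5
import Cfsg.Agent.Lib.Helper71.Asch8
import Cfsg.Agent.Lib.Helper4.Burnside

/-! Project SPG (helper71), sub-project TIF, piece T5 (helper67): over the field with three
elements the tensor factors cannot have dimension 2, because `L` is perfect and `GL_2(3)` is
solvable. -/

set_option autoImplicit false

namespace Cfsg.Agent.Lib.Helper67.TIFT5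

open Matrix Cfsg.Geo Cfsg.Agent.Lib.Helper71.Asch

variable {n : ℕ} {F : Type*} [Field F] [Fintype F]

omit [Fintype F] in
theorem T5_prod {k : ℕ} (P : Matrix (Fin n) (Fin k → Fin 2) F)
    (Q : Matrix (Fin k → Fin 2) (Fin n) F) (hQP : Q * P = 1)
    (cs ds : Fin k → Matrix (Fin 2) (Fin 2) F) :
    (P * pt cs * Q) * (P * pt ds * Q) = P * pt (fun i => cs i * ds i) * Q := by
  calc (P * pt cs * Q) * (P * pt ds * Q) = P * (pt cs * (Q * P) * pt ds) * Q := by
        simp only [Matrix.mul_assoc]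
    _ = P * pt (fun i => cs i * ds i) * Q := by rw [hQP, Matrix.mul_one, pt_mul]

/-- the homomorphism `(A_i) ↦ P (⊗ A_i) Q` -/
def T5_Phi {k : ℕ} (P : Matrix (Fin n) (Fin k → Fin 2) F)
    (Q : Matrix (Fin k → Fin 2) (Fin n) F) (hPQ : P * Q = 1) (hQP : Q * P = 1) :
    (Fin k → GL (Fin 2) F) →* GL (Fin n) F where
  toFun As := ⟨P * pt (fun i => (As i).1) * Q,
    P * pt (fun i => ((As i)⁻¹ : GL (Fin 2) F).1) * Q,
    by rw [T5_prod P Q hQP]; simp [pt_one, hPQ],
    by rw [T5_prod P Q hQP]; simp [pt_one, hPQ]⟩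
  map_one' := by
    apply Units.ext
    simp [pt_one, hPQ]
  map_mul' As Bs := by
    apply Units.ext
    simp only [Units.val_mul, Pi.mul_apply]
    rw [T5_prod P Q hQP]

omit [Fintype F] in
theorem T5_Phi_val {k : ℕ} (P : Matrix (Fin n) (Fin k → Fin 2) F)
    (Q : Matrix (Fin k → Fin 2) (Fin n) F) (hPQ : P * Q = 1) (hQP : Q * P = 1)
    (As : Fin k → GL (Fin 2) F) :
    (T5_Phi P Q hPQ hQP As).1 = P * pt (fun i => (As i).1) * Q := rfl

/-- T5: over the field with three elements the factors cannot have dimension 2 (`L` is perfect,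
and `GL_2(3)` is solvable). -/
theorem T5 (hq3 : Fintype.card F = 3) (L : Subgroup (GL (Fin n) F)) (hc : ⁅L, L⁆ = L)
    (k : ℕ) (Ps : Fin k → Subgroup (GL (Fin n) F)) (hk : 2 ≤ k)
    (hns : ∀ i, ¬ Ps i ≤ scalars (Fin n) F)
    (hsup : L = ⨆ i, Ps i)
    (P : Matrix (Fin n) (Fin k → Fin 2) F) (Q : Matrix (Fin k → Fin 2) (Fin n) F)
    (hPQ : P * Q = 1) (hQP : Q * P = 1)
    (hPs : ∀ i, ∀ x ∈ Ps i, ∃ A : GL (Fin 2) F, x.1 = P * iota i A.1 * Q) : False := by
  classical
  have hcard : Nat.card (GL (Fin 2) F) = 2 ^ 4 * 3 ^ 1 := by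
    rw [Matrix.card_GL_field, hq3]
    simp [Fin.prod_univ_two]
  haveI hsolv : Group.IsSolvable (GL (Fin 2) F) :=
    Cfsg.Agent.Lib.Helper4.burnside 2 3 4 1 Nat.prime_two Nat.prime_three hcard
  obtain ⟨j, hj⟩ := (Group.isSolvable_def (GL (Fin 2) F)).1 hsolv
  have hrange : L ≤ (T5_Phi P Q hPQ hQP).range := by
    rw [hsup]
    apply iSup_le
    intro i x hx
    obtain ⟨A, hA⟩ := hPs i x hx
    refine ⟨Function.update (fun _ => (1 : GL (Fin 2) F)) i A, ?_⟩
    apply Units.ext
    have e : (fun j' => ((Function.update (fun _ => (1 : GL (Fin 2) F)) i A j' : GL (Fin 2) F) :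
        Matrix (Fin 2) (Fin 2) F)) =
        Function.update (fun _ => (1 : Matrix (Fin 2) (Fin 2) F)) i A.1 := by
      funext j'
      by_cases hji : j' = i
      · subst hji
        simp
      · simp [Function.update_of_ne hji]
    rw [T5_Phi_val, hA, iota_eq_pt, e]
  have hstep : ∀ j : ℕ, L ≤ (Subgroup.pi Set.univ
      (fun _ : Fin k => derivedSeries (GL (Fin 2) F) j)).map (T5_Phi P Q hPQ hQP) := by
    intro j
    induction j with
    | zero =>
      rw [derivedSeries_zero, Subgroup.pi_top, ← MonoidHom.range_eq_map]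
      exact hrange
    | succ j ih =>
      rw [derivedSeries_succ]
      calc L = ⁅L, L⁆ := hc.symm
        _ ≤ ⁅(Subgroup.pi Set.univ
              (fun _ : Fin k => derivedSeries (GL (Fin 2) F) j)).map (T5_Phi P Q hPQ hQP),
            (Subgroup.pi Set.univ
              (fun _ : Fin k => derivedSeries (GL (Fin 2) F) j)).map (T5_Phi P Q hPQ hQP)⁆ :=
          Subgroup.commutator_mono ih ih
        _ = (⁅Subgroup.pi Set.univ (fun _ : Fin k => derivedSeries (GL (Fin 2) F) j),
            Subgroup.pi Set.univ (fun _ : Fin k => derivedSeries (GL (Fin 2) F) j)⁆).map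
              (T5_Phi P Q hPQ hQP) := (Subgroup.map_commutator _ _ _).symm
        _ ≤ _ := Subgroup.map_mono (Subgroup.commutator_pi_pi_le _ _)
  have hbot : L ≤ ⊥ := by
    have h := hstep j
    rw [hj, Subgroup.pi_bot, Subgroup.map_bot] at h
    exact h
  have h0 : Ps ⟨0, by omega⟩ ≤ L := by
    rw [hsup]
    exact le_iSup Ps _
  exact hns ⟨0, by omega⟩ (h0.trans (hbot.trans bot_le))

end Cfsg.Agent.Lib.Helper67.TIFT5
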