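import Mathlib
import Cfsg.Prelude.Def_KGroupFacts
import Cfsg.Agent.Lib.Helper70.SchurTwoE

set_option autoImplicit false

/-!
# Reduction of a stem extension with kernel of even order to one with kernel of order two (helper67)

* `exists_index_two`: a finite group with commuting elements and even order has a subgroup of index 2;
* `exists_stem_ker_two`: a stem extension whose kernel has even order has a quotient which is a stem
  extension with kernel `{1, z}` of order two.
-/

open scoped commutatorElement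

universe u v

namespace Cfsg.Agent.Lib.Helper67.J3MRED2

/-- A finite abelian group of even order has a subgroup of index two. -/
theorem exists_index_two {A : Type u} [Group A] [Finite A] (hc : ∀ a b : A, a * b = b * a)
    (h2 : 2 ∣ Nat.card A) : ∃ H : Subgroup A, H.index = 2 := by
  classical
  obtain ⟨M, hM⟩ := (Set.toFinite {M : Subgroup A | 2 ∣ M.index}).exists_maximal
    ⟨⊥, by simpa [Subgroup.index_bot] using h2⟩
  have hM2 : 2 ∣ M.index := hM.1
  have hmax : ∀ N : Subgroup A, 2 ∣ N.index → M ≤ N → N ≤ M := fun N hN hle => hM.2 hN hle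
  haveI hMn : M.Normal := ⟨fun n hn g => by rw [hc g n, mul_inv_cancel_right]; exact hn⟩
  have hcardQ : Nat.card (A ⧸ M) = M.index := (Subgroup.index_eq_card M).symm
  have key : ∀ (p : ℕ) (w : A ⧸ M), p.Prime → orderOf w = p → ¬ 2 ∣ M.index / p := by
    intro p w hp hw h2'
    have hidx : ((Subgroup.zpowers w).comap (QuotientGroup.mk' M)).index
        = (Subgroup.zpowers w).index :=
      Subgroup.index_comap_of_surjective _ (QuotientGroup.mk'_surjective M)
    have hmul : (Subgroup.zpowers w).index * p = M.index := by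
      rw [← hw, ← Nat.card_zpowers, Subgroup.index_mul_card, hcardQ]
    have hidx' : ((Subgroup.zpowers w).comap (QuotientGroup.mk' M)).index = M.index / p := by
      rw [hidx, ← hmul, Nat.mul_div_cancel _ hp.pos]
    have hle : M ≤ (Subgroup.zpowers w).comap (QuotientGroup.mk' M) := by
      intro x hx
      rw [Subgroup.mem_comap]
      have h1 : (QuotientGroup.mk' M) x = 1 := (QuotientGroup.eq_one_iff x).mpr hx
      rw [h1]; exact Subgroup.one_mem _
    have hle' : (Subgroup.zpowers w).comap (QuotientGroup.mk' M) ≤ M :=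
      hmax _ (by rw [hidx']; exact h2') hle
    obtain ⟨x, rfl⟩ := QuotientGroup.mk_surjective w
    have hx : x ∈ (Subgroup.zpowers (QuotientGroup.mk x : A ⧸ M)).comap (QuotientGroup.mk' M) := by
      rw [Subgroup.mem_comap]; exact Subgroup.mem_zpowers _
    have h1 : (QuotientGroup.mk x : A ⧸ M) = 1 := (QuotientGroup.eq_one_iff x).mpr (hle' hx)
    rw [h1, orderOf_one] at hw
    exact hp.one_lt.ne hw
  obtain ⟨r, hr⟩ := hM2
  haveI : Fact (Nat.Prime 2) := ⟨Nat.prime_two⟩
  obtain ⟨w, hw⟩ := exists_prime_orderOf_dvd_card' (G := A ⧸ M) 2 (by rw [hcardQ]; exact hM.1)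
  have h1 := key 2 w Nat.prime_two hw
  rw [hr, Nat.mul_div_cancel_left _ (by norm_num : 0 < 2)] at h1
  by_cases hr1 : r = 1
  · exact ⟨M, by rw [hr, hr1]⟩
  · exfalso
    obtain ⟨p, hp, hpr⟩ := Nat.exists_prime_and_dvd hr1
    haveI : Fact p.Prime := ⟨hp⟩
    obtain ⟨w', hw'⟩ := exists_prime_orderOf_dvd_card' (G := A ⧸ M) p
      (by rw [hcardQ, hr]; exact Dvd.dvd.mul_left hpr 2)
    apply key p w' hp hw'
    obtain ⟨s, hs⟩ := hpr
    rw [hr, hs, ← mul_assoc, mul_comm 2 p, mul_assoc, Nat.mul_div_cancel_left _ hp.pos]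
    exact dvd_mul_right 2 s

open Cfsg.Agent.Lib.Helper70 in
/-- A stem extension whose kernel has even order has a quotient that is a stem extension with
kernel of order two. -/
theorem exists_stem_ker_two {Γ : Type u} {G : Type v} [Group Γ] [Group G] [Finite Γ] (σ : Γ →* G)
    (hσ : Cfsg.IsStemExtension σ) (h2 : 2 ∣ Nat.card σ.ker) :
    ∃ (Γ₁ : Type u) (_ : Group Γ₁) (_ : Finite Γ₁) (σ₁ : Γ₁ →* G) (z : Γ₁),
      Cfsg.IsStemExtension σ₁ ∧ z ≠ 1 ∧ z * z = 1 ∧ ∀ k : Γ₁, k ∈ σ₁.ker ↔ (k = 1 ∨ k = z) := by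
  classical
  have hc : ∀ a b : ↥σ.ker, a * b = b * a := fun a b => Subtype.ext (by
    have h := Subgroup.mem_center_iff.mp (hσ.2.1 a.2) b.1
    simpa using h.symm)
  obtain ⟨H, hH⟩ := exists_index_two hc h2
  have hZ₀K : H.map σ.ker.subtype ≤ σ.ker := by
    rintro _ ⟨y, -, rfl⟩; exact y.2
  haveI hZ₀n : (H.map σ.ker.subtype).Normal :=
    normal_of_le_center _ (hZ₀K.trans hσ.2.1)
  have hmem : ∀ (y : Γ) (hy : y ∈ σ.ker), y ∈ H.map σ.ker.subtype ↔ (⟨y, hy⟩ : σ.ker) ∈ H := by
    intro y hy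
    constructor
    · rintro ⟨w, hw, hwy⟩
      have h1 : w = ⟨y, hy⟩ := Subtype.ext hwy
      rw [← h1]; exact hw
    · intro h; exact ⟨⟨y, hy⟩, h, rfl⟩
  obtain ⟨x, hx⟩ : ∃ x : σ.ker, x ∉ H := by
    by_contra hcon
    push Not at hcon
    have h1 : H = ⊤ := (Subgroup.eq_top_iff' H).mpr hcon
    rw [h1, Subgroup.index_top] at hH
    omega
  refine ⟨Γ ⧸ H.map σ.ker.subtype, inferInstance, inferInstance, quotMap σ _ hZ₀K,
    QuotientGroup.mk x.1, isStemExtension_quotMap σ hσ _ hZ₀K, ?_, ?_, ?_⟩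
  · intro h
    have h1 := (QuotientGroup.eq_one_iff (N := H.map σ.ker.subtype) x.1).mp h
    exact hx ((hmem x.1 x.2).mp h1)
  · rw [← QuotientGroup.mk_mul, QuotientGroup.eq_one_iff]
    have h1 := Subgroup.mul_self_mem_of_index_two hH x
    exact (hmem _ (σ.ker.mul_mem x.2 x.2)).mpr h1
  · intro k
    obtain ⟨y, rfl⟩ := QuotientGroup.mk_surjective k
    rw [mem_ker_quotMap]
    constructor
    · intro hy
      by_cases hyH : (⟨y, hy⟩ : σ.ker) ∈ H
      · left; exact (QuotientGroup.eq_one_iff y).mpr ((hmem y hy).mpr hyH)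
      · right
        rw [QuotientGroup.eq]
        have h1 : (⟨y, hy⟩ : σ.ker)⁻¹ * x ∈ H := by
          rw [Subgroup.mul_mem_iff_of_index_two hH, inv_mem_iff]
          exact ⟨fun h => absurd h hyH, fun h => absurd h hx⟩
        exact (hmem _ (σ.ker.mul_mem (σ.ker.inv_mem hy) x.2)).mpr h1
    · rintro (h | h)
      · have h1 := (QuotientGroup.eq_one_iff (N := H.map σ.ker.subtype) y).mp h
        exact hZ₀K h1
      · rw [QuotientGroup.eq] at h
        have h1 := hZ₀K h
        have h3 : y = x.1 * (y⁻¹ * x.1)⁻¹ := by group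
        rw [h3]; exact σ.ker.mul_mem x.2 (σ.ker.inv_mem h1)

end Cfsg.Agent.Lib.Helper67.J3MRED2
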