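import Mathlib
import Cfsg.Agent.Lib.Helper17.HHb

/-! Representations of `Q ⋊ ⟨x⟩` with `Q` acting irreducibly and `x` acting freely on `Q / Z`
(helper67): the dimension is `|Q : Z|^(1/2)`, the commutant of `ρ x` is small, and the resulting
numerical restrictions. -/

set_option autoImplicit false

namespace Cfsg.Agent.Lib.Helper67

open Module

universe u v w

section Comm

variable {K : Type w} [Field K] {U : Type v} [AddCommGroup U] [Module K U]

/-- the commutant of an operator, as a subspace of `End K U` -/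
def commSub (ξ : Module.End K U) : Submodule K (Module.End K U) where
  carrier := {T | T * ξ = ξ * T}
  add_mem' := by
    intro a b ha hb
    show (a + b) * ξ = ξ * (a + b)
    rw [add_mul, mul_add, ha, hb]
  zero_mem' := by show (0 : Module.End K U) * ξ = ξ * 0; simp
  smul_mem' := by
    intro c a ha
    show (c • a) * ξ = ξ * (c • a)
    rw [smul_mul_assoc, mul_smul_comm, ha]

theorem mem_commSub (ξ T : Module.End K U) : T ∈ commSub ξ ↔ T * ξ = ξ * T := Iff.rfl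

end Comm

section Eigen

variable {K : Type w} [Field K] [IsAlgClosed K] {U : Type v} [AddCommGroup U] [Module K U]
  [FiniteDimensional K U]

/-- an operator of finite order prime to the characteristic has an eigenbasis; the number of
pairs of basis vectors with equal eigenvalues bounds the dimension of the commutant from below -/
theorem exists_eigen_data (ξ : Module.End K U) (h : ℕ) (hhK : (h : K) ≠ 0) (hξ : ξ ^ h = 1) :
    ∃ (ι : Type w) (_ : Fintype ι) (μ : ι → K), Fintype.card ι = finrank K U ∧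
      (∀ i, μ i ^ h = 1) ∧ (∀ i, ∃ w : U, w ≠ 0 ∧ ξ w = μ i • w) ∧
      Nat.card {p : ι × ι // μ p.1 = μ p.2} ≤ finrank K (commSub ξ) := by
  classical
  have hss : ξ.IsSemisimple := by
    apply Module.End.isSemisimple_of_squarefree_aeval_eq_zero
      (p := (Polynomial.X ^ h - 1 : Polynomial K))
    · exact (Polynomial.X_pow_sub_one_separable_iff.2 hhK).squarefree
    · simp [hξ]
  have hsup := hss.iSup_eigenspace_eq_top
  have hint : DirectSum.IsInternal (fun μ : K => ξ.eigenspace μ) :=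
    DirectSum.isInternal_submodule_of_iSupIndep_of_iSup_eq_top (Module.End.eigenspaces_iSupIndep ξ)
      hsup
  let e := hint.collectedBasis (fun μ => Module.finBasis K (ξ.eigenspace μ))
  haveI : Fintype (Σ μ : K, Fin (finrank K (ξ.eigenspace μ))) :=
    FiniteDimensional.fintypeBasisIndex e
  have he : ∀ a, ξ (e a) = a.1 • e a := by
    intro a
    have := hint.collectedBasis_mem (fun μ => Module.finBasis K (ξ.eigenspace μ)) a
    exact Module.End.mem_eigenspace_iff.1 this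
  refine ⟨Σ μ : K, Fin (finrank K (ξ.eigenspace μ)), inferInstance, fun a => a.1, ?_, ?_, ?_, ?_⟩
  · exact (Module.finrank_eq_card_basis e).symm
  · intro a
    have h1 : (ξ ^ h) (e a) = a.1 ^ h • e a := by
      have : ∀ k : ℕ, (ξ ^ k) (e a) = a.1 ^ k • e a := by
        intro k
        induction k with
        | zero => simp
        | succ k ih =>
          rw [pow_succ, Module.End.mul_apply, he, map_smul, ih, smul_smul, pow_succ, mul_comm]
      exact this h
    rw [hξ, Module.End.one_apply] at h1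
    have h2 : (a.1 ^ h - 1) • e a = 0 := by rw [sub_smul, one_smul, ← h1, sub_self]
    rcases smul_eq_zero.1 h2 with h3 | h3
    · exact sub_eq_zero.1 h3
    · exact absurd h3 (e.ne_zero a)
  · intro a
    exact ⟨e a, e.ne_zero a, he a⟩
  · let F : {p : (Σ μ : K, Fin (finrank K (ξ.eigenspace μ))) ×
        (Σ μ : K, Fin (finrank K (ξ.eigenspace μ))) // p.1.1 = p.2.1} → commSub ξ :=
      fun p => ⟨(e.coord p.1.2).smulRight (e p.1.1), by
        rw [mem_commSub]
        apply e.ext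
        intro k
        simp only [Module.End.mul_apply, LinearMap.smulRight_apply, he, map_smul, Basis.coord_apply,
          Basis.repr_self]
        by_cases hk : k = p.1.2
        · subst hk
          simp [p.2, smul_smul, mul_comm]
        · simp [Finsupp.single_eq_of_ne (Ne.symm hk)]⟩
    have hF : LinearIndependent K F := by
      apply LinearIndependent.of_comp (commSub ξ).subtype
      rw [Fintype.linearIndependent_iff]
      intro g hg p₀
      have h1 := congrArg (fun T : Module.End K U => e.coord p₀.1.1 (T (e p₀.1.2))) hg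
      simp only [Function.comp_apply, Submodule.subtype_apply, LinearMap.sum_apply,
        LinearMap.smul_apply, map_sum, map_smul, LinearMap.zero_apply, map_zero] at h1
      rw [Finset.sum_eq_single p₀] at h1
      · simpa [F] using h1
      · intro p _ hp
        simp only [F, LinearMap.smulRight_apply, Basis.coord_apply, Basis.repr_self, map_smul,
          smul_eq_mul]
        by_cases h2 : p₀.1.2 = p.1.2
        · by_cases h3 : p.1.1 = p₀.1.1
          · exfalso; apply hp; apply Subtype.ext; exact Prod.ext h3 h2.symm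
          · simp [Finsupp.single_eq_of_ne (Ne.symm h3)]
        · simp [Finsupp.single_eq_of_ne (Ne.symm h2)]
      · intro hp; exact absurd (Finset.mem_univ _) hp
    rw [Nat.card_eq_fintype_card]
    exact hF.fintype_card_le_finrank

end Eigen

section Numerics

variable {ι : Type*} [Fintype ι] {α : Type*}

theorem pairs_eq_sum [DecidableEq α] (μ : ι → α) (R : Finset α) (hR : ∀ i, μ i ∈ R) :
    Nat.card {p : ι × ι // μ p.1 = μ p.2}
        = ∑ v ∈ R, (Finset.univ.filter (fun i => μ i = v)).card ^ 2 ∧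
      Fintype.card ι = ∑ v ∈ R, (Finset.univ.filter (fun i => μ i = v)).card := by
  classical
  constructor
  · rw [Nat.card_eq_fintype_card, Fintype.card_subtype,
      Finset.card_eq_sum_card_fiberwise (f := fun p : ι × ι => μ p.1) (t := R)
        (fun p _ => hR p.1)]
    refine Finset.sum_congr rfl (fun v _ => ?_)
    have : (Finset.univ.filter (fun p : ι × ι => μ p.1 = μ p.2)).filter (fun p => μ p.1 = v)
        = (Finset.univ.filter (fun i => μ i = v)) ×ˢ (Finset.univ.filter (fun i => μ i = v)) := by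
      ext ⟨i, j⟩
      simp only [Finset.mem_filter, Finset.mem_univ, true_and, Finset.mem_product]
      constructor
      · rintro ⟨h1, h2⟩; exact ⟨h2, by rw [← h1]; exact h2⟩
      · rintro ⟨h1, h2⟩; exact ⟨by rw [h1, h2], h1⟩
    rw [this, Finset.card_product, sq]
  · rw [← Finset.card_univ,
      Finset.card_eq_sum_card_fiberwise (f := μ) (t := R) (fun i _ => hR i)]

theorem card_le_pairs (μ : ι → α) : Fintype.card ι ≤ Nat.card {p : ι × ι // μ p.1 = μ p.2} := by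
  rw [← Nat.card_eq_fintype_card]
  apply Nat.card_le_card_of_injective (fun i => (⟨(i, i), rfl⟩ : {p : ι × ι // μ p.1 = μ p.2}))
  intro i j hij
  have := congrArg (fun p : {p : ι × ι // μ p.1 = μ p.2} => p.1.1) hij
  exact this

theorem sq_le_mul_pairs [DecidableEq α] (μ : ι → α) (R : Finset α) (hR : ∀ i, μ i ∈ R) :
    Fintype.card ι ^ 2 ≤ R.card * Nat.card {p : ι × ι // μ p.1 = μ p.2} := by
  obtain ⟨h1, h2⟩ := pairs_eq_sum μ R hR
  rw [h1, h2]
  exact sq_sum_le_card_mul_sum_sq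

theorem pairs_convex [DecidableEq α] (μ : ι → α) (R : Finset α) (hR : ∀ i, μ i ∈ R) (a : ℕ) :
    (2 * a + 1) * Fintype.card ι
      ≤ Nat.card {p : ι × ι // μ p.1 = μ p.2} + R.card * (a * (a + 1)) := by
  obtain ⟨h1, h2⟩ := pairs_eq_sum μ R hR
  rw [h1, h2, Finset.mul_sum]
  have key : ∀ b : ℕ, (2 * a + 1) * b ≤ b ^ 2 + a * (a + 1) := by
    intro b
    rcases le_or_gt b a with hb | hb
    · obtain ⟨d, rfl⟩ := Nat.exists_eq_add_of_le hb
      have : b ^ 2 + (b + d) * (b + d + 1) = (2 * (b + d) + 1) * b + (d ^ 2 + d) := by ring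
      rw [this]; exact Nat.le_add_right _ _
    · obtain ⟨d, rfl⟩ := Nat.exists_eq_add_of_le (Nat.succ_le_of_lt hb)
      have : (a.succ + d) ^ 2 + a * (a + 1) = (2 * a + 1) * (a.succ + d) + (d ^ 2 + d) := by
        simp only [Nat.succ_eq_add_one]; ring
      rw [this]; exact Nat.le_add_right _ _
  calc ∑ v ∈ R, (2 * a + 1) * (Finset.univ.filter (fun i => μ i = v)).card
      ≤ ∑ v ∈ R, ((Finset.univ.filter (fun i => μ i = v)).card ^ 2 + a * (a + 1)) :=
        Finset.sum_le_sum (fun v _ => key _)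
    _ = _ := by rw [Finset.sum_add_distrib, Finset.sum_const, smul_eq_mul]

theorem eq_pred_of_no_fixed (n h S P : ℕ) (hn : 2 ≤ n) (hh : 0 < h) (hPS : P ≤ S) (hnP : n ≤ P)
    (hCS : n ^ 2 ≤ (h - 1) * P) (hS : h * S ≤ n ^ 2 + h - 1) : n = h - 1 := by
  obtain ⟨k, rfl⟩ : ∃ k, h = k + 1 := ⟨h - 1, by omega⟩
  simp only [Nat.add_sub_cancel] at hCS hS ⊢
  have h1 : (k + 1) * n ≤ n ^ 2 + k := le_trans (Nat.mul_le_mul_left _ (hnP.trans hPS)) hS
  have h2 : n ^ 2 ≤ k * S := hCS.trans (Nat.mul_le_mul_left _ hPS)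
  have h3 : k ≤ n := by
    by_contra hcon
    push Not at hcon
    obtain ⟨e, rfl⟩ := Nat.exists_eq_add_of_lt hcon
    nlinarith
  have h4 : n ≤ k := by
    have h5 : (k + 1) * n ^ 2 ≤ k * (n ^ 2 + k) := by
      calc (k + 1) * n ^ 2 ≤ (k + 1) * (k * S) := Nat.mul_le_mul_left _ h2
        _ = k * ((k + 1) * S) := by ring
        _ ≤ k * (n ^ 2 + k) := Nat.mul_le_mul_left _ hS
    have h6 : n ^ 2 ≤ k ^ 2 := by nlinarith
    exact (Nat.pow_le_pow_iff_left (by norm_num)).1 h6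
  omega

theorem residue_cases (n h S P a c : ℕ) (hh : 0 < h) (hn : n = a * h + c) (hPS : P ≤ S)
    (hconv : (2 * a + 1) * n ≤ P + h * (a * (a + 1))) (hS : h * S ≤ n ^ 2 + h - 1) :
    c = 0 ∨ c = 1 ∨ h ≤ c + 1 := by
  by_contra hcon
  push Not at hcon
  obtain ⟨hc0, hc1, hc2⟩ := hcon
  obtain ⟨e, rfl⟩ : ∃ e, h = c + 2 + e := ⟨h - c - 2, by omega⟩
  obtain ⟨c', rfl⟩ : ∃ c', c = c' + 2 := ⟨c - 2, by omega⟩
  have hS' : (c' + 2 + 2 + e) * S + 1 ≤ n ^ 2 + (c' + 2 + 2 + e) := by omega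
  have h1 : (c' + 2 + 2 + e) * ((2 * a + 1) * n)
      ≤ (c' + 2 + 2 + e) * (S + (c' + 2 + 2 + e) * (a * (a + 1))) :=
    Nat.mul_le_mul_left _ (hconv.trans (Nat.add_le_add_right hPS _))
  subst hn
  nlinarith

end Numerics

section Core

open Cfsg.Agent.Lib.Helper17

variable {K : Type w} [Field K] [IsAlgClosed K] {U : Type v} [AddCommGroup U] [Module K U]
  [FiniteDimensional K U] [Nontrivial U] {Γ : Type u} [Group Γ] [Finite Γ]

omit [IsAlgClosed K] [FiniteDimensional K U] [Nontrivial U] [Finite Γ] in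
/-- an operator commuting with `ρ Q` and `ρ x` commutes with `ρ (Q ⊔ ⟨x⟩)` -/
theorem comm_of_gen (ρ : Γ →* Module.End K U) (Q : Subgroup Γ) (x : Γ)
    (hgen : Q ⊔ Subgroup.zpowers x = ⊤) (T : Module.End K U)
    (hQ : ∀ g ∈ Q, T * ρ g = ρ g * T) (hx : T * ρ x = ρ x * T) : ∀ g, T * ρ g = ρ g * T := by
  let C : Subgroup Γ :=
    { carrier := {g | T * ρ g = ρ g * T}
      mul_mem' := by
        intro a b ha hb
        show T * ρ (a * b) = ρ (a * b) * T
        rw [map_mul, ← mul_assoc, ha, mul_assoc, hb, mul_assoc]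
      one_mem' := by show T * ρ 1 = ρ 1 * T; simp
      inv_mem' := by
        intro a ha
        show T * ρ a⁻¹ = ρ a⁻¹ * T
        have h1 : ρ a⁻¹ * ρ a = 1 := by rw [← map_mul, inv_mul_cancel, map_one]
        have h2 : ρ a * ρ a⁻¹ = 1 := by rw [← map_mul, mul_inv_cancel, map_one]
        calc T * ρ a⁻¹ = ρ a⁻¹ * (ρ a * T) * ρ a⁻¹ := by rw [← mul_assoc, h1, one_mul]
          _ = ρ a⁻¹ * (T * ρ a) * ρ a⁻¹ := by rw [ha]
          _ = ρ a⁻¹ * T := by rw [mul_assoc, mul_assoc, h2, mul_one] }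
  have hC : (⊤ : Subgroup Γ) ≤ C := by
    rw [← hgen]
    exact sup_le (fun g hg => hQ g hg) ((Subgroup.zpowers_le).2 hx)
  intro g
  exact hC (Subgroup.mem_top g)

omit [IsAlgClosed K] [FiniteDimensional K U] [Nontrivial U] in
/-- a subspace invariant under `ρ Q` and `ρ x` is invariant under `ρ (Q ⊔ ⟨x⟩)` -/
theorem inv_of_gen (ρ : Γ →* Module.End K U) (Q : Subgroup Γ) (x : Γ)
    (hgen : Q ⊔ Subgroup.zpowers x = ⊤) (W : Submodule K U)
    (hQ : ∀ g ∈ Q, ∀ w ∈ W, ρ g w ∈ W) (hx : ∀ w ∈ W, ρ x w ∈ W) :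
    ∀ g, ∀ w ∈ W, ρ g w ∈ W := by
  let C : Subgroup Γ :=
    { carrier := {g | ∀ w ∈ W, ρ g w ∈ W}
      mul_mem' := by
        intro a b ha hb w hw
        rw [map_mul, Module.End.mul_apply]
        exact ha _ (hb w hw)
      one_mem' := by intro w hw; simpa using hw
      inv_mem' := by
        intro a ha
        have hpow : ∀ k : ℕ, ∀ w ∈ W, ρ (a ^ k) w ∈ W := by
          intro k
          induction k with
          | zero => intro w hw; simpa using hw
          | succ k ih =>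
            intro w hw
            rw [pow_succ, map_mul, Module.End.mul_apply]
            exact ih _ (ha w hw)
        have h1 : a⁻¹ = a ^ (orderOf a - 1) := by
          rw [inv_eq_iff_mul_eq_one, ← pow_succ',
            Nat.sub_add_cancel (orderOf_pos a), pow_orderOf_eq_one]
        intro w hw
        show ρ a⁻¹ w ∈ W
        rw [h1]; exact hpow _ w hw }
  have hC : (⊤ : Subgroup Γ) ≤ C := by
    rw [← hgen]
    exact sup_le (fun g hg => hQ g hg) ((Subgroup.zpowers_le).2 hx)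
  intro g
  exact hC (Subgroup.mem_top g)

omit [IsAlgClosed K] [FiniteDimensional K U] [Nontrivial U] in
theorem eq_of_smul_eq {ι : Type*} {M : Type*} [AddCommGroup M] [Module K M] {f : ι → M}
    (hf : LinearIndependent K f) (i j : ι) (a a' : K) (ha : a ≠ 0) (h : a • f i = a' • f j) :
    i = j := by
  classical
  by_contra hij
  have h1 := linearIndependent_iff.1 hf (Finsupp.single i a - Finsupp.single j a')
    (by simp [Finsupp.linearCombination_single, h])
  have h2 := DFunLike.congr_fun h1 i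
  simp [Finsupp.single_apply, hij, Ne.symm hij] at h2
  exact ha h2

/-- **Core.** -/
theorem core_rep (ρ : Γ →* Module.End K U) (Q Z : Subgroup Γ) (x : Γ) (h : ℕ)
    (hirr : ∀ W : Submodule K U, (∀ g, Submodule.map (ρ g) W ≤ W) → W = ⊥ ∨ W = ⊤)
    (hgen : Q ⊔ Subgroup.zpowers x = ⊤)
    (hΓK : (Nat.card Γ : K) ≠ 0)
    (hZQ : Z ≤ Q) (hZc : ∀ z ∈ Z, ∀ g ∈ Q, z * g = g * z) (hxZ : ∀ z ∈ Z, x * z = z * x)
    (hxQ : ∀ g ∈ Q, x * g * x⁻¹ ∈ Q)
    (hh : 2 ≤ h) (hhK : (h : K) ≠ 0) (hxh : x ^ h = 1)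
    (hfree : ∀ g ∈ Q, g ∉ Z → ∀ i : ℕ, (x ^ i * g * (x ^ i)⁻¹) * g⁻¹ ∈ Z → h ∣ i)
    (hnc : ∀ u ∈ Q, u ∉ Z → ∃ g ∈ Q, g * u * g⁻¹ * u⁻¹ ∈ Z ∧ g * u * g⁻¹ * u⁻¹ ≠ 1)
    (hZfix : ∀ z ∈ Z, z ≠ 1 → ∀ w : U, ρ z w = w → w = 0) :
    finrank K U ^ 2 * Nat.card Z = Nat.card Q ∧
      h * finrank K (commSub (ρ x)) ≤ finrank K U ^ 2 + h - 1 := by
  classical
  have hQK : (Nat.card Q : K) ≠ 0 := by
    intro h0
    apply hΓK
    obtain ⟨k, hk⟩ := Subgroup.card_subgroup_dvd_card Q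
    rw [hk, Nat.cast_mul, h0, zero_mul]
  have hZK : (Nat.card Z : K) ≠ 0 := by
    intro h0
    apply hΓK
    obtain ⟨k, hk⟩ := Subgroup.card_subgroup_dvd_card Z
    rw [hk, Nat.cast_mul, h0, zero_mul]
  have hρinv : ∀ g : Γ, ρ g * ρ g⁻¹ = 1 := fun g => by rw [← map_mul, mul_inv_cancel, map_one]
  have hρinv' : ∀ g : Γ, ρ g⁻¹ * ρ g = 1 := fun g => by rw [← map_mul, inv_mul_cancel, map_one]
  have hirrT : ∀ W : Submodule K U,
      (∀ g ∈ (⊤ : Subgroup Γ), Submodule.map (ρ g) W ≤ W) → W = ⊥ ∨ W = ⊤ :=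
    fun W hW => hirr W (fun g => hW g (Subgroup.mem_top g))
  obtain ⟨w₀, hw₀⟩ := exists_ne (0 : U)
  have hxQpow : ∀ k : ℕ, ∀ g ∈ Q, x ^ k * g * (x ^ k)⁻¹ ∈ Q := by
    intro k
    induction k with
    | zero => intro g hg; simpa using hg
    | succ k ih =>
      intro g hg
      have e : x ^ (k + 1) * g * (x ^ (k + 1))⁻¹ = x * (x ^ k * g * (x ^ k)⁻¹) * x⁻¹ := by
        rw [pow_succ']; group
      rw [e]; exact hxQ _ (ih g hg)
  have hxZpow : ∀ k : ℕ, ∀ z ∈ Z, x ^ k * z = z * x ^ k := by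
    intro k z hz
    exact ((show Commute x z from hxZ z hz).pow_left k).eq
  have hxQ' : ∀ g ∈ Q, x⁻¹ * g * x ∈ Q := by
    intro g hg
    have h1 : x ^ (h - 1) = x⁻¹ := by
      rw [eq_inv_iff_mul_eq_one, ← pow_succ, Nat.sub_add_cancel (by omega), hxh]
    have h2 := hxQpow (h - 1) g hg
    rwa [h1, inv_inv] at h2
  have hcommQ : ∀ g ∈ Q, g * x * g⁻¹ * x⁻¹ ∈ Q := by
    intro g hg
    have : g * x * g⁻¹ * x⁻¹ = g * (x * g⁻¹ * x⁻¹) := by group
    rw [this]; exact Q.mul_mem hg (hxQ _ (Q.inv_mem hg))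
  -- central elements act as scalars
  have hZsc : ∀ z ∈ Z, ∃ κ : K, ρ z = κ • 1 := by
    intro z hz
    apply hh_schurQ ρ ⊤ hirrT
    intro g _
    apply comm_of_gen ρ Q x hgen (ρ z)
    · intro g hg; rw [← map_mul, ← map_mul, hZc z hz g hg]
    · rw [← map_mul, ← map_mul, hxZ z hz]
  have hZsc1 : ∀ z ∈ Z, z ≠ 1 → ∀ κ : K, ρ z = κ • 1 → κ ≠ 1 := by
    intro z hz hz1 κ hκ h1
    apply hw₀
    apply hZfix z hz hz1 w₀
    rw [hκ, h1, one_smul, Module.End.one_apply]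
  have hZsc0 : ∀ z : Γ, ∀ κ : K, ρ z = κ • 1 → κ ≠ 0 := by
    intro z κ hκ h0
    apply hw₀
    have h1 := congrArg (fun T : Module.End K U => T w₀) (hρinv' z)
    simp only [Module.End.mul_apply, hκ, h0, zero_smul, LinearMap.zero_apply, map_zero,
      Module.End.one_apply] at h1
    exact h1.symm
  have hnK : (finrank K U : K) ≠ 0 := by
    intro h0
    have h1 := hh_fourier ρ ⊤ hirrT (1 : Module.End K U)
    rw [h0, zero_smul, Subgroup.card_top] at h1
    have h2 := congrArg (fun T : Module.End K U => T w₀) h1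
    simp only [LinearMap.smul_apply, Module.End.one_apply, LinearMap.zero_apply] at h2
    rcases smul_eq_zero.1 h2 with h3 | h3
    · exact hΓK h3
    · exact hw₀ h3
  have htr0 : ∀ u ∈ Q, u ∉ Z → LinearMap.trace K U (ρ u) = 0 := by
    intro u hu huZ
    obtain ⟨g, hg, hgZ, hg1⟩ := hnc u hu huZ
    obtain ⟨κ, hκ⟩ := hZsc _ hgZ
    have hκ1 := hZsc1 _ hgZ hg1 κ hκ
    have h1 : ρ g * ρ u * ρ g⁻¹ = κ • ρ u := by
      have : g * u * g⁻¹ = (g * u * g⁻¹ * u⁻¹) * u := by group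
      rw [← map_mul, ← map_mul, this, map_mul, hκ, smul_mul_assoc, one_mul]
    have h2 : LinearMap.trace K U (ρ g * ρ u * ρ g⁻¹) = LinearMap.trace K U (ρ u) := by
      rw [mul_assoc, LinearMap.trace_mul_comm, mul_assoc, hρinv', mul_one]
    rw [h1, map_smul, smul_eq_mul] at h2
    have h3 : (κ - 1) * LinearMap.trace K U (ρ u) = 0 := by rw [sub_mul, one_mul, h2, sub_self]
    rcases mul_eq_zero.1 h3 with h4 | h4
    · exact absurd (sub_eq_zero.1 h4) hκ1
    · exact h4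
  -- the `Q`-average of `ρ x`
  set A : Module.End K U := ∑ g ∈ hhQs Q, ρ (g * x * g⁻¹ * x⁻¹) with hA
  have hAc : A * ρ x = ∑ g ∈ hhQs Q, ρ g * ρ x * ρ g⁻¹ := by
    rw [hA, Finset.sum_mul]
    refine Finset.sum_congr rfl (fun g _ => ?_)
    rw [← map_mul, ← map_mul, ← map_mul]; congr 1; group
  have hcQ : ∀ k ∈ Q, (A * ρ x) * ρ k = ρ k * (A * ρ x) := by
    intro k hk
    rw [hAc, Finset.sum_mul, Finset.mul_sum]
    refine Finset.sum_nbij' (fun g => k⁻¹ * g) (fun g => k * g) ?_ ?_ ?_ ?_ ?_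
    · intro g hg
      rw [hh_mem_Qs] at hg ⊢
      exact Q.mul_mem (Q.inv_mem hk) hg
    · intro g hg
      rw [hh_mem_Qs] at hg ⊢
      exact Q.mul_mem hk hg
    · intro g _; group
    · intro g _; group
    · intro g _
      simp only [← map_mul]; congr 1; group
  have hcx : (A * ρ x) * ρ x = ρ x * (A * ρ x) := by
    rw [hAc, Finset.sum_mul, Finset.mul_sum]
    refine Finset.sum_nbij' (fun g => x⁻¹ * g * x) (fun g => x * g * x⁻¹) ?_ ?_ ?_ ?_ ?_
    · intro g hg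
      rw [hh_mem_Qs] at hg ⊢
      exact hxQ' g hg
    · intro g hg
      rw [hh_mem_Qs] at hg ⊢
      exact hxQ g hg
    · intro g _; group
    · intro g _; group
    · intro g _
      simp only [← map_mul]; congr 1; group
  obtain ⟨γ, hγ⟩ := hh_schurQ ρ ⊤ hirrT (A * ρ x)
    (fun g _ => comm_of_gen ρ Q x hgen (A * ρ x) hcQ hcx g)
  have htrA : LinearMap.trace K U A = (Nat.card Z : K) * (finrank K U : K) := by
    rw [hA, map_sum]
    have hterm : ∀ g ∈ hhQs Q, LinearMap.trace K U (ρ (g * x * g⁻¹ * x⁻¹))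
        = if g ∈ Z then (finrank K U : K) else 0 := by
      intro g hg
      rw [hh_mem_Qs] at hg
      by_cases hgZ : g ∈ Z
      · rw [if_pos hgZ]
        have h1 := hxZ g hgZ
        have h2 : g * x * g⁻¹ * x⁻¹ = 1 := by
          calc g * x * g⁻¹ * x⁻¹ = (g * x) * g⁻¹ * x⁻¹ := by group
            _ = (x * g) * g⁻¹ * x⁻¹ := by rw [h1]
            _ = 1 := by group
        rw [h2, map_one, LinearMap.trace_one]
      · rw [if_neg hgZ]
        apply htr0 _ (hcommQ g hg)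
        intro hc
        have h1 : (x ^ 1 * g⁻¹ * (x ^ 1)⁻¹) * (g⁻¹)⁻¹ ∈ Z := by
          have e1 : (x ^ 1 * g⁻¹ * (x ^ 1)⁻¹) * (g⁻¹)⁻¹ = g⁻¹ * ((g * x * g⁻¹ * x⁻¹) * g) := by
            rw [pow_one]; group
          rw [e1, hZc _ hc g hg]
          have e2 : g⁻¹ * (g * (g * x * g⁻¹ * x⁻¹)) = g * x * g⁻¹ * x⁻¹ := by group
          rw [e2]; exact hc
        have h2 := hfree g⁻¹ (Q.inv_mem hg) (fun h => hgZ (by simpa using Z.inv_mem h)) 1 h1
        have := Nat.le_of_dvd one_pos h2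
        omega
    rw [Finset.sum_congr rfl hterm, ← Finset.sum_filter, Finset.sum_const, nsmul_eq_mul]
    congr 2
    have : (hhQs Q).filter (fun g => g ∈ Z) = hhQs Z := by
      ext g
      simp only [Finset.mem_filter, hh_mem_Qs]
      exact ⟨fun h => h.2, fun h => ⟨hZQ h, h⟩⟩
    rw [this, hh_card_Qs]
  have hγ0 : γ ≠ 0 := by
    intro h0
    rw [h0, zero_smul] at hγ
    have h1 : A = 0 := by
      calc A = (A * ρ x) * ρ x⁻¹ := by rw [mul_assoc, hρinv, mul_one]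
        _ = 0 := by rw [hγ, zero_mul]
    rw [h1, map_zero] at htrA
    exact (mul_ne_zero hZK hnK) htrA.symm
  have hxinv : ρ x⁻¹ = γ⁻¹ • A := by
    have h1 : A = γ • ρ x⁻¹ := by
      calc A = (A * ρ x) * ρ x⁻¹ := by rw [mul_assoc, hρinv, mul_one]
        _ = γ • ρ x⁻¹ := by rw [hγ, smul_mul_assoc, one_mul]
    rw [h1, smul_smul, inv_mul_cancel₀ hγ0, one_smul]
  -- `Q` is irreducible
  have hirrQ : ∀ W : Submodule K U, (∀ g ∈ Q, Submodule.map (ρ g) W ≤ W) → W = ⊥ ∨ W = ⊤ := by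
    intro W hW
    apply hirr W
    have hW' : ∀ g ∈ Q, ∀ w ∈ W, ρ g w ∈ W :=
      fun g hg w hw => hW g hg (Submodule.mem_map_of_mem hw)
    have hAW : ∀ w ∈ W, A w ∈ W := by
      intro w hw
      rw [hA, LinearMap.sum_apply]
      apply Submodule.sum_mem
      intro g hg
      rw [hh_mem_Qs] at hg
      exact hW' _ (hcommQ g hg) w hw
    have hxinvW : ∀ w ∈ W, ρ x⁻¹ w ∈ W := by
      intro w hw
      rw [hxinv]
      exact W.smul_mem _ (hAW w hw)
    have hxW : ∀ w ∈ W, ρ x w ∈ W := by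
      have hpow : ∀ k : ℕ, ∀ w ∈ W, ρ (x⁻¹ ^ k) w ∈ W := by
        intro k
        induction k with
        | zero => intro w hw; simpa using hw
        | succ k ih =>
          intro w hw
          rw [pow_succ, map_mul, Module.End.mul_apply]
          exact ih _ (hxinvW w hw)
      have hx' : x = x⁻¹ ^ (h - 1) := by
        rw [inv_pow, eq_inv_iff_mul_eq_one, ← pow_succ', Nat.sub_add_cancel (by omega), hxh]
      intro w hw
      rw [hx']; exact hpow _ w hw
    intro g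
    rw [Submodule.map_le_iff_le_comap]
    exact fun w hw => inv_of_gen ρ Q x hgen W hW' hxW g w hw
  -- Fourier: the `ρ g`, `g ∈ Q`, span `End U`
  have hfour : ∀ T : Module.End K U, T = ((Nat.card Q : K)⁻¹ * (finrank K U : K)) •
      ∑ g ∈ hhQs Q, (LinearMap.trace K U (T * ρ g⁻¹)) • ρ g := by
    intro T
    have h1 := hh_fourier ρ Q hirrQ T
    rw [mul_smul, ← h1, smul_smul, inv_mul_cancel₀ hQK, one_smul]
  set s : Set (Module.End K U) := Set.range (fun g : Q => ρ (g : Γ)) with hs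
  have hspan : Submodule.span K s = ⊤ := by
    rw [eq_top_iff]
    intro T _
    rw [hfour T]
    apply Submodule.smul_mem
    apply Submodule.sum_mem
    intro g hg
    rw [hh_mem_Qs] at hg
    exact Submodule.smul_mem _ _ (Submodule.subset_span ⟨⟨g, hg⟩, rfl⟩)
  obtain ⟨b, hbs, hbspan, hbli⟩ := exists_linearIndependent K s
  haveI : Finite b := ((Set.finite_range _).subset hbs).to_subtype
  haveI : Fintype b := Fintype.ofFinite b
  let B : Basis b K (Module.End K U) :=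
    Basis.mk hbli (by rw [Subtype.range_coe, hbspan, hspan])
  have hB : ∀ β : b, B β = (β : Module.End K U) := fun β => Basis.mk_apply _ _ β
  have hBcard : Fintype.card b = finrank K U ^ 2 := by
    rw [← Module.finrank_eq_card_basis B, Module.finrank_linearMap, sq]
  choose gb hgb₀ using (fun β : b => hbs β.2)
  have hgb : ∀ β : b, ρ (gb β : Γ) = (β : Module.End K U) := hgb₀
  have hcardQ : finrank K U ^ 2 * Nat.card Z = Nat.card Q := by
    rw [← hBcard, ← Nat.card_eq_fintype_card, ← Nat.card_prod]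
    apply Nat.card_eq_of_bijective (fun p : b × Z =>
      (⟨(gb p.1 : Γ) * (p.2 : Γ), Q.mul_mem (gb p.1).2 (hZQ p.2.2)⟩ : Q))
    constructor
    · rintro ⟨β, z⟩ ⟨β', z'⟩ heq
      have h1 : (gb β : Γ) * (z : Γ) = (gb β' : Γ) * (z' : Γ) := congrArg Subtype.val heq
      obtain ⟨κ, hκ⟩ := hZsc z z.2
      obtain ⟨κ', hκ'⟩ := hZsc z' z'.2
      have h2 : κ • (β : Module.End K U) = κ' • (β' : Module.End K U) := by
        have h3 := congrArg ρ h1
        rw [map_mul, map_mul, hgb, hgb, hκ, hκ', mul_smul_comm, mul_smul_comm, mul_one,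
          mul_one] at h3
        exact h3
      have h3 : β = β' := eq_of_smul_eq hbli β β' κ κ' (hZsc0 _ κ hκ) h2
      subst h3
      have h4 : (z : Γ) = z' := mul_left_cancel h1
      exact Prod.ext rfl (Subtype.ext h4)
    · intro g
      have h1 := B.sum_repr (ρ (g : Γ))
      have h2 : ∃ β : b, (g : Γ)⁻¹ * (gb β : Γ) ∈ Z := by
        by_contra hcon
        push Not at hcon
        have h3 : LinearMap.trace K U (ρ (g : Γ)⁻¹ * ρ (g : Γ)) = 0 := by
          rw [← h1, Finset.mul_sum, map_sum]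
          apply Finset.sum_eq_zero
          intro β _
          rw [mul_smul_comm, map_smul, hB, ← hgb β, ← map_mul,
            htr0 _ (Q.mul_mem (Q.inv_mem g.2) (gb β).2) (hcon β), smul_zero]
        rw [hρinv', LinearMap.trace_one] at h3
        exact hnK h3
      obtain ⟨β, hβ⟩ := h2
      refine ⟨(β, ⟨(gb β : Γ)⁻¹ * (g : Γ), ?_⟩), ?_⟩
      · have : (gb β : Γ)⁻¹ * (g : Γ) = ((g : Γ)⁻¹ * (gb β : Γ))⁻¹ := by group
        rw [this]; exact Z.inv_mem hβ
      · apply Subtype.ext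
        show (gb β : Γ) * ((gb β : Γ)⁻¹ * (g : Γ)) = g
        group
  refine ⟨hcardQ, ?_⟩
  -- the commutant of `ρ x`
  set NmL : Module.End K U →ₗ[K] Module.End K U :=
    ∑ i ∈ Finset.range h,
      (LinearMap.mulLeft K (ρ (x ^ i))).comp (LinearMap.mulRight K (ρ (x ^ i)⁻¹)) with hNmL
  have hNm : ∀ T, NmL T = ∑ i ∈ Finset.range h, ρ (x ^ i) * T * ρ (x ^ i)⁻¹ := by
    intro T
    rw [hNmL, LinearMap.sum_apply]
    refine Finset.sum_congr rfl (fun i _ => ?_)
    simp [mul_assoc]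
  have hNmshift : ∀ T, NmL (ρ x * T * ρ x⁻¹) = NmL T := by
    intro T
    rw [hNm, hNm]
    have e : ∀ i : ℕ, ρ (x ^ i) * (ρ x * T * ρ x⁻¹) * ρ (x ^ i)⁻¹
        = ρ (x ^ (i + 1)) * T * ρ (x ^ (i + 1))⁻¹ := by
      intro i
      have h1 : ρ (x ^ (i + 1)) = ρ (x ^ i) * ρ x := by rw [pow_succ, map_mul]
      have h2 : ρ (x ^ (i + 1))⁻¹ = ρ x⁻¹ * ρ (x ^ i)⁻¹ := by
        rw [pow_succ, mul_inv_rev, map_mul]
      rw [h1, h2]; simp only [mul_assoc]
    rw [Finset.sum_congr rfl (fun i _ => e i)]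
    have h3 := Finset.sum_range_succ' (fun i => ρ (x ^ i) * T * ρ (x ^ i)⁻¹) h
    have h4 := Finset.sum_range_succ (fun i => ρ (x ^ i) * T * ρ (x ^ i)⁻¹) h
    rw [h4] at h3
    simp only [hxh, pow_zero] at h3
    exact (add_right_cancel h3).symm
  have hNmconj : ∀ (j : ℕ) T, NmL (ρ (x ^ j) * T * ρ (x ^ j)⁻¹) = NmL T := by
    intro j
    induction j with
    | zero => intro T; simp
    | succ j ih =>
      intro T
      have e : ρ (x ^ (j + 1)) * T * ρ (x ^ (j + 1))⁻¹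
          = ρ x * (ρ (x ^ j) * T * ρ (x ^ j)⁻¹) * ρ x⁻¹ := by
        rw [pow_succ', map_mul, mul_inv_rev, map_mul]; simp only [mul_assoc]
      rw [e, hNmshift, ih]
  have hNmcomm : ∀ T ∈ commSub (ρ x), NmL T = (h : K) • T := by
    intro T hT
    rw [hNm]
    have h1 : ∀ i : ℕ, ρ (x ^ i) * T * ρ (x ^ i)⁻¹ = T := by
      intro i
      have h2 : T * ρ (x ^ i) = ρ (x ^ i) * T := by
        rw [map_pow]
        exact ((show Commute T (ρ x) from hT).pow_right i).eq
      rw [← h2, mul_assoc, hρinv, mul_one]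
    rw [Finset.sum_congr rfl (fun i _ => h1 i), Finset.sum_const, Finset.card_range,
      ← Nat.cast_smul_eq_nsmul K]
  set s₂ : Set (Module.End K U) :=
    Set.range (fun g : {g : Q // (g : Γ) ∉ Z} => NmL (ρ ((g : Q) : Γ))) with hs₂
  have hcomm_le : commSub (ρ x)
      ≤ Submodule.span K {(1 : Module.End K U)} ⊔ Submodule.span K s₂ := by
    intro T hT
    have h1 : T = (h : K)⁻¹ • NmL T := by
      rw [hNmcomm T hT, smul_smul, inv_mul_cancel₀ hhK, one_smul]
    rw [h1]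
    apply Submodule.smul_mem
    have h2 : NmL T = ((Nat.card Q : K)⁻¹ * (finrank K U : K)) •
        ∑ g ∈ hhQs Q, (LinearMap.trace K U (T * ρ g⁻¹)) • NmL (ρ g) := by
      conv_lhs => rw [hfour T]
      rw [map_smul, map_sum]
      congr 1
      refine Finset.sum_congr rfl (fun g _ => ?_)
      rw [map_smul]
    rw [h2]
    apply Submodule.smul_mem
    apply Submodule.sum_mem
    intro g hg
    rw [hh_mem_Qs] at hg
    apply Submodule.smul_mem
    by_cases hgZ : g ∈ Z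
    · apply Submodule.mem_sup_left
      obtain ⟨κ, hκ⟩ := hZsc g hgZ
      have h3 : NmL 1 = (h : K) • 1 := hNmcomm 1 (by rw [mem_commSub, one_mul, mul_one])
      rw [hκ, map_smul, h3]
      exact Submodule.smul_mem _ _ (Submodule.smul_mem _ _ (Submodule.mem_span_singleton_self 1))
    · apply Submodule.mem_sup_right
      exact Submodule.subset_span ⟨⟨⟨g, hg⟩, hgZ⟩, rfl⟩
  obtain ⟨b₂, hb₂s, hb₂span, hb₂li⟩ := exists_linearIndependent K s₂
  haveI : Finite b₂ := ((Set.finite_range _).subset hb₂s).to_subtype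
  haveI : Fintype b₂ := Fintype.ofFinite b₂
  have hb₂card : finrank K (Submodule.span K s₂) = Fintype.card b₂ := by
    rw [← hb₂span]
    have := finrank_span_eq_card hb₂li
    rwa [Subtype.range_coe] at this
  choose g₂ hg₂₀ using (fun β : b₂ => hb₂s β.2)
  have hg₂ : ∀ β : b₂, NmL (ρ ((g₂ β : Q) : Γ)) = (β : Module.End K U) := hg₂₀
  have hNmelt : ∀ (β : b₂) (i : ℕ) (z : Γ) (κ : K), ρ z = κ • 1 →
      NmL (ρ (x ^ i * ((g₂ β : Q) : Γ) * (x ^ i)⁻¹ * z)) = κ • (β : Module.End K U) := by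
    intro β i z κ hκ
    rw [ρ.map_mul, hκ, mul_smul_comm, mul_one, map_smul, ρ.map_mul, ρ.map_mul, hNmconj, hg₂]
  have hinvZ : ∀ (i : ℕ), ∀ z ∈ Z, (x ^ i)⁻¹ * z = z * (x ^ i)⁻¹ := by
    intro i z hz
    have h1 := hxZpow i z hz
    calc (x ^ i)⁻¹ * z = (x ^ i)⁻¹ * (z * x ^ i) * (x ^ i)⁻¹ := by group
      _ = (x ^ i)⁻¹ * (x ^ i * z) * (x ^ i)⁻¹ := by rw [h1]
      _ = z * (x ^ i)⁻¹ := by group
  have hshift : ∀ g ∈ Q, g ∉ Z → ∀ (i i' : ℕ), ∀ z ∈ Z, ∀ z' ∈ Z, i ≤ i' → i' < h →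
      x ^ i * g * (x ^ i)⁻¹ * z = x ^ i' * g * (x ^ i')⁻¹ * z' → i = i' ∧ z = z' := by
    intro g hg hgZ i i' z hz z' hz' hii hi' heq
    obtain ⟨d, rfl⟩ := Nat.exists_eq_add_of_le hii
    have hc1 := hinvZ i z hz
    have hc1' := hinvZ i z' hz'
    have key : g * z = x ^ d * g * (x ^ d)⁻¹ * z' := by
      have e1 : g * z = (x ^ i)⁻¹ * (x ^ i * g * (x ^ i)⁻¹ * z) * x ^ i := by
        calc g * z = g * (z * (x ^ i)⁻¹) * x ^ i := by group
          _ = g * ((x ^ i)⁻¹ * z) * x ^ i := by rw [hc1]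
          _ = _ := by group
      rw [e1, heq, pow_add]
      calc (x ^ i)⁻¹ * (x ^ i * x ^ d * g * (x ^ i * x ^ d)⁻¹ * z') * x ^ i
          = x ^ d * g * (x ^ d)⁻¹ * ((x ^ i)⁻¹ * z') * x ^ i := by group
        _ = x ^ d * g * (x ^ d)⁻¹ * (z' * (x ^ i)⁻¹) * x ^ i := by rw [hc1']
        _ = _ := by group
    have hZmem : x ^ d * g * (x ^ d)⁻¹ * g⁻¹ ∈ Z := by
      have e2 : x ^ d * g * (x ^ d)⁻¹ * g⁻¹ = g * (z * z'⁻¹) * g⁻¹ := by
        have e3 : x ^ d * g * (x ^ d)⁻¹ = g * z * z'⁻¹ := by rw [key]; group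
        rw [e3]; group
      rw [e2, ← hZc _ (Z.mul_mem hz (Z.inv_mem hz')) g hg]
      have e4 : z * z'⁻¹ * g * g⁻¹ = z * z'⁻¹ := by group
      rw [e4]; exact Z.mul_mem hz (Z.inv_mem hz')
    have hd := hfree g hg hgZ d hZmem
    have hd0 : d = 0 := Nat.eq_zero_of_dvd_of_lt hd (by omega)
    subst hd0
    refine ⟨by omega, ?_⟩
    simp only [pow_zero, one_mul, inv_one, mul_one] at key
    exact mul_left_cancel key
  have hcount : Fintype.card b₂ * h * Nat.card Z + Nat.card Z ≤ Nat.card Q := by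
    have e1 : Fintype.card b₂ * h * Nat.card Z + Nat.card Z
        = Nat.card ((b₂ × Fin h × Z) ⊕ Z) := by
      rw [Nat.card_sum, Nat.card_prod, Nat.card_prod, Nat.card_eq_fintype_card (α := b₂),
        Nat.card_fin, mul_assoc]
    rw [e1]
    apply Nat.card_le_card_of_injective (fun t : (b₂ × Fin h × Z) ⊕ Z =>
      Sum.elim (fun p : b₂ × Fin h × Z =>
        (⟨x ^ (p.2.1 : ℕ) * ((g₂ p.1 : Q) : Γ) * (x ^ (p.2.1 : ℕ))⁻¹ * (p.2.2 : Γ),
          Q.mul_mem (hxQpow _ _ (g₂ p.1).1.2) (hZQ p.2.2.2)⟩ : Q))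
        (fun z : Z => (⟨(z : Γ), hZQ z.2⟩ : Q)) t)
    rintro (⟨β, i, z⟩ | z₁) (⟨β', i', z'⟩ | z₂) heq
    · have h1 : x ^ (i : ℕ) * ((g₂ β : Q) : Γ) * (x ^ (i : ℕ))⁻¹ * (z : Γ)
          = x ^ (i' : ℕ) * ((g₂ β' : Q) : Γ) * (x ^ (i' : ℕ))⁻¹ * (z' : Γ) :=
        congrArg (fun q : Q => (q : Γ)) heq
      obtain ⟨κ, hκ⟩ := hZsc z z.2
      obtain ⟨κ', hκ'⟩ := hZsc z' z'.2
      have h2 : κ • (β : Module.End K U) = κ' • (β' : Module.End K U) := by
        rw [← hNmelt β i z κ hκ, ← hNmelt β' i' z' κ' hκ', h1]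
      have h3 : β = β' := eq_of_smul_eq hb₂li β β' κ κ' (hZsc0 _ κ hκ) h2
      subst h3
      rcases le_total (i : ℕ) (i' : ℕ) with hle | hle
      · obtain ⟨h4, h5⟩ := hshift _ (g₂ β).1.2 (g₂ β).2 i i' z z.2 z' z'.2 hle i'.2 h1
        have h6 : i = i' := Fin.ext h4
        have h7 : z = z' := Subtype.ext h5
        rw [h6, h7]
      · obtain ⟨h4, h5⟩ := hshift _ (g₂ β).1.2 (g₂ β).2 i' i z' z'.2 z z.2 hle i.2 h1.symm
        have h6 : i = i' := Fin.ext h4.symm
        have h7 : z = z' := Subtype.ext h5.symm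
        rw [h6, h7]
    · exfalso
      have h1 : x ^ (i : ℕ) * ((g₂ β : Q) : Γ) * (x ^ (i : ℕ))⁻¹ * (z : Γ) = (z₂ : Γ) :=
        congrArg (fun q : Q => (q : Γ)) heq
      apply (g₂ β).2
      have hzz : (z₂ : Γ) * (z : Γ)⁻¹ ∈ Z := Z.mul_mem z₂.2 (Z.inv_mem z.2)
      have h2 : ((g₂ β : Q) : Γ) = (x ^ (i : ℕ))⁻¹ * ((z₂ : Γ) * (z : Γ)⁻¹) * x ^ (i : ℕ) := by
        rw [← h1]; group
      rw [h2, hinvZ i _ hzz]
      have e : (z₂ : Γ) * (z : Γ)⁻¹ * (x ^ (i : ℕ))⁻¹ * x ^ (i : ℕ) = (z₂ : Γ) * (z : Γ)⁻¹ := by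
        group
      rw [e]; exact hzz
    · exfalso
      have h1 : (z₁ : Γ) = x ^ (i' : ℕ) * ((g₂ β' : Q) : Γ) * (x ^ (i' : ℕ))⁻¹ * (z' : Γ) :=
        congrArg (fun q : Q => (q : Γ)) heq
      apply (g₂ β').2
      have hzz : (z₁ : Γ) * (z' : Γ)⁻¹ ∈ Z := Z.mul_mem z₁.2 (Z.inv_mem z'.2)
      have h2 : ((g₂ β' : Q) : Γ)
          = (x ^ (i' : ℕ))⁻¹ * ((z₁ : Γ) * (z' : Γ)⁻¹) * x ^ (i' : ℕ) := by
        rw [h1]; group
      rw [h2, hinvZ i' _ hzz]
      have e : (z₁ : Γ) * (z' : Γ)⁻¹ * (x ^ (i' : ℕ))⁻¹ * x ^ (i' : ℕ)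
          = (z₁ : Γ) * (z' : Γ)⁻¹ := by
        group
      rw [e]; exact hzz
    · have h1 : (z₁ : Γ) = (z₂ : Γ) := congrArg (fun q : Q => (q : Γ)) heq
      rw [Subtype.ext h1]
  have hfr : finrank K (commSub (ρ x)) ≤ 1 + Fintype.card b₂ := by
    calc finrank K (commSub (ρ x))
        ≤ finrank K ↥(Submodule.span K {(1 : Module.End K U)} ⊔ Submodule.span K s₂) :=
          Submodule.finrank_mono hcomm_le
      _ ≤ finrank K (Submodule.span K {(1 : Module.End K U)})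
            + finrank K (Submodule.span K s₂) :=
          Submodule.finrank_add_le_finrank_add_finrank _ _
      _ ≤ 1 + Fintype.card b₂ := by
          rw [hb₂card, finrank_span_singleton (one_ne_zero)]
  have hZpos : 0 < Nat.card Z := Nat.card_pos
  have hfin : Fintype.card b₂ * h + 1 ≤ finrank K U ^ 2 := by
    have h1 : (Fintype.card b₂ * h + 1) * Nat.card Z ≤ finrank K U ^ 2 * Nat.card Z := by
      rw [hcardQ, add_mul, one_mul]; exact hcount
    exact Nat.le_of_mul_le_mul_right h1 hZpos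
  calc h * finrank K (commSub (ρ x)) ≤ h * (1 + Fintype.card b₂) := Nat.mul_le_mul_left _ hfr
    _ = Fintype.card b₂ * h + 1 + h - 1 := by
        have : h * (1 + Fintype.card b₂) = Fintype.card b₂ * h + h := by ring
        omega
    _ ≤ finrank K U ^ 2 + h - 1 := by omega

end Core

section Wrapper

theorem card_sup_zpowers_dvd {Γ : Type*} [Group Γ] [Finite Γ] (Q : Subgroup Γ) (x : Γ) (h : ℕ)
    (hxQ : ∀ g ∈ Q, x * g * x⁻¹ ∈ Q) (hxh : x ^ h = 1) :
    Nat.card ↥(Q ⊔ Subgroup.zpowers x) ∣ Nat.card Q * h := by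
  set L := Q ⊔ Subgroup.zpowers x with hL
  have hQL : Q ≤ L := le_sup_left
  have hxL : Subgroup.zpowers x ≤ L := le_sup_right
  have hnorm : L ≤ Subgroup.normalizer (Q : Set Γ) := by
    apply sup_le Subgroup.le_normalizer
    rw [Subgroup.zpowers_le]
    exact Subgroup.mem_normalizer_fintype (fun n hn => hxQ n hn)
  haveI : (Q.subgroupOf L).Normal := Subgroup.normal_subgroupOf_of_le_normalizer hnorm
  have h1 : (Q.subgroupOf L) ⊔ ((Subgroup.zpowers x).subgroupOf L) = ⊤ := by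
    rw [← Subgroup.subgroupOf_sup hQL hxL, ← hL, Subgroup.subgroupOf_self]
  have h2 : (Q.subgroupOf L).index
      = (Q.subgroupOf L).relIndex ((Subgroup.zpowers x).subgroupOf L) := by
    rw [← Subgroup.relIndex_sup_left, h1, Subgroup.relIndex_top_right]
  have h3 : (Q.subgroupOf L).index ∣ h := by
    rw [h2]
    refine (Subgroup.relIndex_dvd_card _ _).trans ?_
    rw [Nat.card_congr (Subgroup.subgroupOfEquivOfLe hxL).toEquiv, Nat.card_zpowers]
    exact orderOf_dvd_of_pow_eq_one hxh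
  rw [← Subgroup.card_mul_index (Q.subgroupOf L),
    Nat.card_congr (Subgroup.subgroupOfEquivOfLe hQL).toEquiv]
  exact Nat.mul_dvd_mul_left _ h3

variable {K : Type w} [Field K] {W₀ : Type v} [AddCommGroup W₀] [Module K W₀]
  {Γ : Type u} [Group Γ]

/-- the restriction of a representation to a subgroup and an invariant subspace -/
def restrictHom (ρ : Γ →* Module.End K W₀) (L : Subgroup Γ) (U : Submodule K W₀)
    (hU : ∀ g ∈ L, ∀ w ∈ U, ρ g w ∈ U) : L →* Module.End K U where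
  toFun g := (ρ (g : Γ)).restrict (hU g g.2)
  map_one' := by ext w; simp
  map_mul' := by intro a b; ext w; simp

theorem inv_of_sup [Finite Γ] (ρ : Γ →* Module.End K W₀) (Q : Subgroup Γ) (x : Γ)
    (W : Submodule K W₀)
    (hQ : ∀ g ∈ Q, ∀ w ∈ W, ρ g w ∈ W) (hx : ∀ w ∈ W, ρ x w ∈ W) :
    ∀ g ∈ Q ⊔ Subgroup.zpowers x, ∀ w ∈ W, ρ g w ∈ W := by
  let C : Subgroup Γ :=
    { carrier := {g | ∀ w ∈ W, ρ g w ∈ W}
      mul_mem' := by
        intro a b ha hb w hw
        rw [map_mul, Module.End.mul_apply]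
        exact ha _ (hb w hw)
      one_mem' := by intro w hw; simpa using hw
      inv_mem' := by
        intro a ha
        have hpow : ∀ k : ℕ, ∀ w ∈ W, ρ (a ^ k) w ∈ W := by
          intro k
          induction k with
          | zero => intro w hw; simpa using hw
          | succ k ih =>
            intro w hw
            rw [pow_succ, map_mul, Module.End.mul_apply]
            exact ih _ (ha w hw)
        have h1 : a⁻¹ = a ^ (orderOf a - 1) := by
          rw [inv_eq_iff_mul_eq_one, ← pow_succ',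
            Nat.sub_add_cancel (orderOf_pos a), pow_orderOf_eq_one]
        intro w hw
        show ρ a⁻¹ w ∈ W
        rw [h1]; exact hpow _ w hw }
  have hC : Q ⊔ Subgroup.zpowers x ≤ C :=
    sup_le (fun g hg => hQ g hg) ((Subgroup.zpowers_le).2 hx)
  intro g hg
  exact hC hg

/-- **Wrapper.** A group `Q ⋊ ⟨x⟩` of the kind treated by `core_rep`, acting on a nonzero
invariant subspace on which the centre acts without fixed points. -/
theorem exists_rep_data [IsAlgClosed K] [FiniteDimensional K W₀] [Finite Γ]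
    (ρ : Γ →* Module.End K W₀) (W₁ : Submodule K W₀) (hW₁ : W₁ ≠ ⊥)
    (Q Z : Subgroup Γ) (x : Γ) (h : ℕ)
    (hW₁Q : ∀ g ∈ Q, ∀ w ∈ W₁, ρ g w ∈ W₁) (hW₁x : ∀ w ∈ W₁, ρ x w ∈ W₁)
    (hQK : (Nat.card Q : K) ≠ 0)
    (hZQ : Z ≤ Q) (hZc : ∀ z ∈ Z, ∀ g ∈ Q, z * g = g * z) (hxZ : ∀ z ∈ Z, x * z = z * x)
    (hxQ : ∀ g ∈ Q, x * g * x⁻¹ ∈ Q)
    (hh : 2 ≤ h) (hhK : (h : K) ≠ 0) (hxh : x ^ h = 1)
    (hfree : ∀ g ∈ Q, g ∉ Z → ∀ i : ℕ, (x ^ i * g * (x ^ i)⁻¹) * g⁻¹ ∈ Z → h ∣ i)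
    (hnc : ∀ u ∈ Q, u ∉ Z → ∃ g ∈ Q, g * u * g⁻¹ * u⁻¹ ∈ Z ∧ g * u * g⁻¹ * u⁻¹ ≠ 1)
    (hZfix : ∀ z ∈ Z, z ≠ 1 → ∀ w ∈ W₁, ρ z w = w → w = 0) :
    ∃ (n : ℕ) (ι : Type w) (_ : Fintype ι) (μ : ι → K), n ^ 2 * Nat.card Z = Nat.card Q ∧
      Fintype.card ι = n ∧ (∀ i, μ i ^ h = 1) ∧
      (∀ i, ∃ w ∈ W₁, w ≠ 0 ∧ ρ x w = μ i • w) ∧
      h * Nat.card {p : ι × ι // μ p.1 = μ p.2} ≤ n ^ 2 + h - 1 := by
  classical
  set L := Q ⊔ Subgroup.zpowers x with hL
  have hQL : Q ≤ L := le_sup_left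
  have hxL : x ∈ L := (le_sup_right : Subgroup.zpowers x ≤ L) (Subgroup.mem_zpowers x)
  have hW₁L := inv_of_sup ρ Q x W₁ hW₁Q hW₁x
  let S : Set (Submodule K W₀) := {U | U ≠ ⊥ ∧ U ≤ W₁ ∧ ∀ g ∈ L, ∀ w ∈ U, ρ g w ∈ U}
  have hSne : S.Nonempty := ⟨W₁, hW₁, le_rfl, hW₁L⟩
  obtain ⟨U, ⟨hU0, hUW, hUinv⟩, hUmin⟩ :=
    WellFounded.has_min (wellFounded_lt (α := Submodule K W₀)) S hSne
  haveI : Nontrivial U := Submodule.nontrivial_iff_ne_bot.2 hU0
  let ρ₁ := restrictHom ρ L U hUinv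
  let x₁ : L := ⟨x, hxL⟩
  have hρ₁ : ∀ (g : L) (w : U), ((ρ₁ g w : U) : W₀) = ρ (g : Γ) (w : W₀) := fun g w => rfl
  have hxh₁ : x₁ ^ h = 1 := Subtype.ext (by rw [Subgroup.coe_pow]; exact hxh)
  have hirr : ∀ W : Submodule K U, (∀ g, Submodule.map (ρ₁ g) W ≤ W) → W = ⊥ ∨ W = ⊤ := by
    intro W hW
    by_cases hW0 : W = ⊥
    · exact Or.inl hW0
    · right
      have hVS : W.map U.subtype ∈ S := by
        refine ⟨?_, ?_, ?_⟩
        · obtain ⟨w, hw, hw0⟩ := (Submodule.ne_bot_iff W).1 hW0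
          intro hc
          have h1 : (w : W₀) ∈ W.map U.subtype := ⟨w, hw, rfl⟩
          rw [hc, Submodule.mem_bot] at h1
          exact hw0 (Subtype.ext h1)
        · rintro v ⟨w, _, rfl⟩
          exact hUW w.2
        · rintro g hg v ⟨w, hw, rfl⟩
          refine ⟨ρ₁ ⟨g, hg⟩ w, hW ⟨g, hg⟩ (Submodule.mem_map_of_mem hw), ?_⟩
          rfl
      have hVU : W.map U.subtype = U :=
        eq_of_le_of_not_lt (Submodule.map_subtype_le U W) (hUmin _ hVS)
      rw [eq_top_iff]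
      intro u _
      have h1 : (u : W₀) ∈ W.map U.subtype := by rw [hVU]; exact u.2
      obtain ⟨w, hw, hwu⟩ := h1
      have h2 : w = u := Subtype.ext hwu
      rw [← h2]; exact hw
  have hgen : Q.subgroupOf L ⊔ Subgroup.zpowers x₁ = ⊤ := by
    apply Subgroup.map_injective L.subtype_injective
    rw [Subgroup.map_sup, Subgroup.subgroupOf_map_subtype, MonoidHom.map_zpowers,
      ← MonoidHom.range_eq_map, Subgroup.range_subtype, inf_eq_left.2 hQL]
    rfl
  have hΓK : (Nat.card L : K) ≠ 0 := by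
    obtain ⟨k, hk⟩ := card_sup_zpowers_dvd Q x h hxQ hxh
    intro h0
    have h1 : ((Nat.card Q * h : ℕ) : K) = 0 := by
      rw [hk, Nat.cast_mul]
      rw [show (Nat.card ↥(Q ⊔ Subgroup.zpowers x) : K) = 0 from h0, zero_mul]
    rw [Nat.cast_mul] at h1
    exact (mul_ne_zero hQK hhK) h1
  have hcore := core_rep ρ₁ (Q.subgroupOf L) (Z.subgroupOf L) x₁ h hirr hgen hΓK
    (fun z hz => hZQ hz)
    (fun z hz g hg => Subtype.ext (hZc (z : Γ) hz (g : Γ) hg))
    (fun z hz => Subtype.ext (hxZ (z : Γ) hz))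
    (fun g hg => hxQ (g : Γ) hg)
    hh hhK hxh₁
    (fun g hg hgZ i hi => hfree (g : Γ) hg hgZ i hi)
    (fun u hu huZ => by
      obtain ⟨g, hg, h1, h2⟩ := hnc (u : Γ) hu huZ
      exact ⟨⟨g, hQL hg⟩, hg, h1, fun hc => h2 (congrArg Subtype.val hc)⟩)
    (fun z hz hz1 w hw => by
      have h1 : (w : W₀) = 0 :=
        hZfix (z : Γ) hz (fun hc => hz1 (Subtype.ext hc)) (w : W₀) (hUW w.2)
          (by rw [← hρ₁, hw])
      exact Subtype.ext h1)
  obtain ⟨hc1, hc2⟩ := hcore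
  rw [Nat.card_congr (Subgroup.subgroupOfEquivOfLe hQL).toEquiv,
    Nat.card_congr (Subgroup.subgroupOfEquivOfLe (hZQ.trans hQL)).toEquiv] at hc1
  obtain ⟨ι, hι, μ, hcard, hμ, hev, hpairs⟩ := exists_eigen_data (ρ₁ x₁) h hhK
    (by rw [← map_pow, hxh₁, map_one])
  refine ⟨finrank K U, ι, hι, μ, hc1, hcard, hμ, ?_, ?_⟩
  · intro i
    obtain ⟨w, hw0, hw⟩ := hev i
    refine ⟨(w : W₀), hUW w.2, fun hc => hw0 (Subtype.ext hc), ?_⟩
    have h1 := congrArg (fun u : U => (u : W₀)) hw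
    exact h1
  · exact le_trans (Nat.mul_le_mul_left _ hpairs) hc2

end Wrapper

end Cfsg.Agent.Lib.Helper67
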