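import Mathlib
import Cfsg.Agent.Lib.Helper67.ExtraRep

/-! Glue between `ExtraRep` and statements about extraspecial groups (helper67). -/

set_option autoImplicit false

namespace Cfsg.Agent.Lib.Helper67

open Module
open Cfsg.Agent.Lib.Helper17

universe u v w

section Glue

variable {K : Type w} [Field K] [IsAlgClosed K] {W₀ : Type v} [AddCommGroup W₀] [Module K W₀]
  [FiniteDimensional K W₀] {Γ : Type u} [Group Γ] [Finite Γ]

/-- `exists_rep_data` for the part of an invariant subspace `A` killed by the norm of a central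
subgroup `Z` of prime order acting nontrivially on `A`. -/
theorem exists_rep_data' (ρ : Γ →* Module.End K W₀) (A : Submodule K W₀)
    (Q Z : Subgroup Γ) (x : Γ) (h q : ℕ)
    (hAQ : ∀ g ∈ Q, ∀ w ∈ A, ρ g w ∈ A) (hAx : ∀ w ∈ A, ρ x w ∈ A)
    (hQK : (Nat.card Q : K) ≠ 0)
    (hq : q.Prime) (hcardZ : Nat.card Z = q) (hqK : (q : K) ≠ 0)
    (hex : ∃ z₀ ∈ Z, ∃ f₀ ∈ A, ρ z₀ f₀ ≠ f₀)
    (hZQ : Z ≤ Q) (hZc : ∀ z ∈ Z, ∀ g ∈ Q, z * g = g * z) (hxZ : ∀ z ∈ Z, x * z = z * x)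
    (hxQ : ∀ g ∈ Q, x * g * x⁻¹ ∈ Q)
    (hh : 2 ≤ h) (hhK : (h : K) ≠ 0) (hxh : x ^ h = 1)
    (hfree : ∀ g ∈ Q, g ∉ Z → ∀ i : ℕ, (x ^ i * g * (x ^ i)⁻¹) * g⁻¹ ∈ Z → h ∣ i)
    (hnc : ∀ u ∈ Q, u ∉ Z → ∃ g ∈ Q, g * u * g⁻¹ * u⁻¹ ∈ Z ∧ g * u * g⁻¹ * u⁻¹ ≠ 1) :
    ∃ (n : ℕ) (ι : Type w) (_ : Fintype ι) (μ : ι → K), n ^ 2 * q = Nat.card Q ∧
      Fintype.card ι = n ∧ (∀ i, μ i ^ h = 1) ∧
      (∀ i, ∃ w ∈ A, w ≠ 0 ∧ ρ x w = μ i • w) ∧
      h * Nat.card {p : ι × ι // μ p.1 = μ p.2} ≤ n ^ 2 + h - 1 := by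
  classical
  set N : Module.End K W₀ := ∑ z ∈ hhQs Z, ρ z with hN
  have hNcomm : ∀ g : Γ, (∀ z ∈ Z, g * z = z * g) → ρ g * N = N * ρ g := by
    intro g hg
    rw [hN, Finset.mul_sum, Finset.sum_mul]
    refine Finset.sum_congr rfl (fun z hz => ?_)
    rw [hh_mem_Qs] at hz
    rw [← map_mul, ← map_mul, hg z hz]
  let W₁ : Submodule K W₀ := A ⊓ LinearMap.ker N
  have hW₁inv : ∀ g : Γ, (∀ z ∈ Z, g * z = z * g) → (∀ w ∈ A, ρ g w ∈ A) →
      ∀ w ∈ W₁, ρ g w ∈ W₁ := by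
    intro g hg hgA w hw
    refine ⟨hgA w hw.1, ?_⟩
    show N (ρ g w) = 0
    have h1 : N (ρ g w) = (N * ρ g) w := rfl
    rw [h1, ← hNcomm g hg, Module.End.mul_apply, LinearMap.mem_ker.1 hw.2, map_zero]
  have hW₁ : W₁ ≠ ⊥ := by
    obtain ⟨z₀, hz₀, f₀, hf₀, hne⟩ := hex
    have hmem : f₀ - ρ z₀ f₀ ∈ W₁ := by
      refine ⟨A.sub_mem hf₀ (hAQ z₀ (hZQ hz₀) f₀ hf₀), ?_⟩
      show N (f₀ - ρ z₀ f₀) = 0
      rw [map_sub, sub_eq_zero, hN, LinearMap.sum_apply, LinearMap.sum_apply]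
      refine Finset.sum_nbij' (fun z => z * z₀⁻¹) (fun z => z * z₀) ?_ ?_ ?_ ?_ ?_
      · intro z hz; rw [hh_mem_Qs] at hz ⊢; exact Z.mul_mem hz (Z.inv_mem hz₀)
      · intro z hz; rw [hh_mem_Qs] at hz ⊢; exact Z.mul_mem hz hz₀
      · intro z _; group
      · intro z _; group
      · intro z _
        rw [← Module.End.mul_apply, ← map_mul]
        congr 2; group
    intro hbot
    rw [hbot, Submodule.mem_bot, sub_eq_zero] at hmem
    exact hne hmem.symm
  have hZfix : ∀ z ∈ Z, z ≠ 1 → ∀ w ∈ W₁, ρ z w = w → w = 0 := by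
    intro z hz hz1 w hw hzw
    let F : Subgroup Γ :=
      { carrier := {g | ρ g w = w}
        mul_mem' := by
          intro a b ha hb
          show ρ (a * b) w = w
          rw [map_mul, Module.End.mul_apply, hb, ha]
        one_mem' := by show ρ 1 w = w; simp
        inv_mem' := by
          intro a ha
          show ρ a⁻¹ w = w
          have h1 : ρ a⁻¹ (ρ a w) = w := by
            rw [← Module.End.mul_apply, ← map_mul, inv_mul_cancel, map_one, Module.End.one_apply]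
          rwa [ha] at h1 }
    have hZF : Z ≤ F := by
      have h1 : Z ⊓ F = Z := by
        apply Subgroup.eq_of_le_of_card_ge inf_le_left
        have h2 : Nat.card ↥(Z ⊓ F) ∣ q := hcardZ ▸ Subgroup.card_dvd_of_le inf_le_left
        rcases (Nat.dvd_prime hq).1 h2 with h3 | h3
        · exfalso
          have h4 : Z ⊓ F = ⊥ := Subgroup.card_eq_one.1 h3
          have h5 : z ∈ Z ⊓ F := ⟨hz, hzw⟩
          rw [h4, Subgroup.mem_bot] at h5
          exact hz1 h5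
        · rw [h3, hcardZ]
      rw [← h1]; exact inf_le_right
    have h1 : N w = (q : K) • w := by
      rw [hN, LinearMap.sum_apply,
        Finset.sum_congr rfl (fun z' hz' => hZF ((hh_mem_Qs Z z').1 hz')), Finset.sum_const,
        hh_card_Qs, hcardZ, Nat.cast_smul_eq_nsmul]
    have h2 := LinearMap.mem_ker.1 hw.2
    rw [h1] at h2
    rcases smul_eq_zero.1 h2 with h3 | h3
    · exact absurd h3 hqK
    · exact h3
  obtain ⟨n, ι, hι, μ, h1, h2, h3, h4, h5⟩ := exists_rep_data ρ W₁ hW₁ Q Z x h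
    (fun g hg => hW₁inv g (fun z hz => (hZc z hz g hg).symm) (hAQ g hg))
    (hW₁inv x hxZ hAx) hQK hZQ hZc hxZ hxQ hh hhK hxh hfree hnc hZfix
  refine ⟨n, ι, hι, μ, hcardZ ▸ h1, h2, h3, ?_, h5⟩
  intro i
  obtain ⟨w, hw, hw0, hwx⟩ := h4 i
  exact ⟨w, hw.1, hw0, hwx⟩

end Glue

section Extra

/-- the group-theoretic hypotheses of `core_rep` for an extraspecial group `P` and an element
`x` of order dividing `h` whose nontrivial powers centralize exactly the centre in `P` -/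
theorem extra_hyps {G : Type*} [Group G] [Finite G] {p : ℕ} (P : Subgroup G)
    (hcomm : commutator P = Subgroup.center P) (hcard : Nat.card (Subgroup.center P) = p)
    (x : G) (h : ℕ) (hcop : h.Coprime p) (hxh : x ^ h = 1)
    (hZx : ∀ z ∈ (Subgroup.center P).map P.subtype, x * z = z * x)
    (hfix : ∀ i : ℕ, ¬ h ∣ i → ∀ g ∈ P, x ^ i * g = g * x ^ i →
      g ∈ (Subgroup.center P).map P.subtype) :
    (Subgroup.center P).map P.subtype ≤ P ∧
    (∀ z ∈ (Subgroup.center P).map P.subtype, ∀ g ∈ P, z * g = g * z) ∧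
    (∀ g ∈ P, g ∉ (Subgroup.center P).map P.subtype → ∀ i : ℕ,
      (x ^ i * g * (x ^ i)⁻¹) * g⁻¹ ∈ (Subgroup.center P).map P.subtype → h ∣ i) ∧
    (∀ u ∈ P, u ∉ (Subgroup.center P).map P.subtype → ∃ g ∈ P,
      g * u * g⁻¹ * u⁻¹ ∈ (Subgroup.center P).map P.subtype ∧ g * u * g⁻¹ * u⁻¹ ≠ 1) ∧
    Nat.card ((Subgroup.center P).map P.subtype) = p := by
  set Z := (Subgroup.center P).map P.subtype with hZ
  have hZP : Z ≤ P := Subgroup.map_subtype_le _
  have hmemZ : ∀ g : G, g ∈ Z ↔ ∃ hg : g ∈ P, (⟨g, hg⟩ : P) ∈ Subgroup.center P := by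
    intro g
    constructor
    · rintro ⟨c, hc, rfl⟩; exact ⟨c.2, hc⟩
    · rintro ⟨hg, hc⟩; exact ⟨⟨g, hg⟩, hc, rfl⟩
  have hZc : ∀ z ∈ Z, ∀ g ∈ P, z * g = g * z := by
    intro z hz g hg
    obtain ⟨hzP, hc⟩ := (hmemZ z).1 hz
    have h1 := Subgroup.mem_center_iff.1 hc ⟨g, hg⟩
    exact (congrArg Subtype.val h1).symm
  have hcardZ : Nat.card Z = p := by
    rw [← hcard]
    exact Nat.card_congr
      ((Subgroup.center P).equivMapOfInjective P.subtype P.subtype_injective).toEquiv.symm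
  have hZpow : ∀ z ∈ Z, z ^ p = 1 := by
    intro z hz
    have h1 := pow_card_eq_one' (G := Z) (x := ⟨z, hz⟩)
    rw [hcardZ] at h1
    exact congrArg Subtype.val h1
  refine ⟨hZP, hZc, ?_, ?_, hcardZ⟩
  · intro g hg hgZ i hi
    by_contra hdvd
    set y := x ^ i with hy
    set z := y * g * y⁻¹ * g⁻¹ with hz
    have hyz : y * z = z * y := ((show Commute x z from hZx z hi).pow_left i).eq
    have hzg : z * g = g * z := hZc z hi g hg
    have hconj : ∀ k : ℕ, y ^ k * g * (y ^ k)⁻¹ = z ^ k * g := by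
      intro k
      induction k with
      | zero => simp
      | succ k ih =>
        have e1 : y ^ (k + 1) * g * (y ^ (k + 1))⁻¹ = y * (y ^ k * g * (y ^ k)⁻¹) * y⁻¹ := by
          rw [pow_succ']; group
        rw [e1, ih]
        have e2 : y * z ^ k = z ^ k * y := ((show Commute y z from hyz).pow_right k).eq
        have e3 : y * g * y⁻¹ = z * g := by rw [hz]; group
        calc y * (z ^ k * g) * y⁻¹ = (y * z ^ k) * g * y⁻¹ := by group
          _ = z ^ k * (y * g * y⁻¹) := by rw [e2]; group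
          _ = z ^ (k + 1) * g := by rw [e3, pow_succ]; group
    have hyh : y ^ h = 1 := by rw [hy, ← pow_mul, mul_comm, pow_mul, hxh, one_pow]
    have h1 := hconj h
    rw [hyh] at h1
    have hzh : z ^ h = 1 := by
      have h2 : z ^ h * g = 1 * g := by rw [← h1]; group
      exact mul_right_cancel h2
    have hz1 : z = 1 := by
      have h2 := pow_gcd_eq_one.2 ⟨hzh, hZpow z hi⟩
      rwa [Nat.Coprime.gcd_eq_one hcop, pow_one] at h2
    apply hgZ
    apply hfix i hdvd g hg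
    have h3 : y * g * y⁻¹ * g⁻¹ = 1 := hz1
    calc y * g = (y * g * y⁻¹ * g⁻¹) * g * y := by group
      _ = g * y := by rw [h3, one_mul]
  · intro u hu huZ
    have hnc : ¬ (⟨u, hu⟩ : P) ∈ Subgroup.center P := fun hc => huZ ((hmemZ u).2 ⟨hu, hc⟩)
    rw [Subgroup.mem_center_iff] at hnc
    push Not at hnc
    obtain ⟨g, hg⟩ := hnc
    refine ⟨(g : G), g.2, ?_, ?_⟩
    · have h1 : g * (⟨u, hu⟩ : P) * g⁻¹ * (⟨u, hu⟩ : P)⁻¹ ∈ commutator P := by
        rw [commutator_def]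
        exact Subgroup.commutator_mem_commutator (Subgroup.mem_top g) (Subgroup.mem_top _)
      rw [hcomm] at h1
      exact ⟨_, h1, rfl⟩
    · intro hc
      apply hg
      apply Subtype.ext
      show (g : G) * u = u * g
      calc (g : G) * u = ((g : G) * u * (g : G)⁻¹ * u⁻¹) * u * g := by group
        _ = u * g := by rw [hc, one_mul]

end Extra

end Cfsg.Agent.Lib.Helper67
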