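import Cfsg.Agent.Lib.Helper98.H74Defs

/-! Project H74 (S5974, helper98), piece EXC (helper67): typed nondegenerate subspaces of every
smaller dimension and type inside a typed space. -/

set_option autoImplicit false

namespace Cfsg.Agent.Lib.Helper98.H74

open Cfsg.Agent.Lib.Helper47 Cfsg.Agent.Lib.Helper98.T73 Module Polynomial

universe u

variable {F : Type u} [Field F] [Fintype F] {V : Type u} [AddCommGroup V] [Module F V]
  [FiniteDimensional F V] {Q : V → F} {B : V → V → F}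

/-- EXC -/
theorem subtyp_sub (hf : QFacts F) (hQ : IsQuad Q B) (K : Submodule F V) (e : ℕ) (η : ℤ)
    (hK : SubTyp Q B K e η) (k : ℕ) (τ : ℤ) (hτ : τ = 1 ∨ τ = -1)
    (hk : k < e ∨ (k = e ∧ τ = η)) : ∃ W : Submodule F V, W ≤ K ∧ SubTyp Q B W k τ := by
  rcases hk with hk | ⟨rfl, rfl⟩
  swap
  · exact ⟨K, le_refl _, hK⟩
  obtain ⟨hKnd, hKdim, hKtyp⟩ := hK
  have hQK : IsQuad (fun w : K => Q (w : V)) (resForm B K) := hQ.res K
  have hη : η = 1 ∨ η = -1 := by
    rcases hf.typ_exists e K (fun w : K => Q (w : V)) (resForm B K) hQK hKnd hKdim with h | h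
    · exact Or.inl (hKtyp.unique h)
    · exact Or.inr (hKtyp.unique h)
  have hητ : η * τ = 1 ∨ η * τ = -1 := by
    rcases hη with rfl | rfl <;> rcases hτ with rfl | rfl <;> simp
  obtain ⟨M₁, i1, i2, i3, Q₁, B₁, hQ₁, hnd₁, hdim₁, htyp₁⟩ := hf.space k τ hτ
  obtain ⟨M₂, j1, j2, j3, Q₂, B₂, hQ₂, hnd₂, hdim₂, htyp₂⟩ :=
    hf.space (e - k - 1) (η * τ) hητ
  haveI : Finite M₁ := Module.finite_of_finite F
  haveI : Finite M₂ := Module.finite_of_finite F
  have hQP := hQ₁.prod hQ₂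
  have hndP := nondeg_prod hQ₁.form hQ₂.form hnd₁ hnd₂
  have hdimP : finrank F (M₁ × M₂) = 2 * e + 2 := by
    rw [Module.finrank_prod, hdim₁, hdim₂]; omega
  have htypP : IsTyp (fun x : M₁ × M₂ => Q₁ x.1 + Q₂ x.2) e η := by
    have h := hf.typ_prod Q₁ Q₂ htyp₁ htyp₂
    have e1 : k + (e - k - 1) + 1 = e := by omega
    have e2 : τ * (η * τ) = η := by
      rcases hτ with rfl | rfl <;> ring
    rw [e1, e2] at h
    exact h
  obtain ⟨φ, hφ⟩ := hf.isometric e η (M₁ × M₂) K _ _ (fun w : K => Q (w : V)) (resForm B K)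
    hQP hndP hdimP hQK hKnd hKdim htypP hKtyp
  set ψ : M₁ →ₗ[F] V := K.subtype ∘ₗ φ.toLinearMap ∘ₗ LinearMap.inl F M₁ M₂ with hψdef
  have hψapp : ∀ m, ψ m = ((φ (m, 0) : K) : V) := fun m => rfl
  have hψinj : Function.Injective ψ := by
    intro a b hab
    rw [hψapp, hψapp] at hab
    have h1 := φ.injective (Subtype.ext hab)
    exact (Prod.mk.inj h1).1
  have hψQ : ∀ m, Q (ψ m) = Q₁ m := by
    intro m
    have h1 := hφ (m, 0)
    simp only [hQ₂.map_zero, add_zero] at h1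
    rw [hψapp]
    exact h1
  have hψB : ∀ m m', B (ψ m) (ψ m') = B₁ m m' := hQ₁.isometry hQ ψ hψQ
  refine ⟨LinearMap.range ψ, ?_, ?_, ?_, ?_⟩
  · rintro _ ⟨m, rfl⟩
    rw [hψapp]
    exact (φ (m, 0)).2
  · rintro ⟨x, m, rfl⟩ hx
    have hm : m = 0 := hnd₁ m (fun m' => by
      rw [← hψB]
      exact hx ⟨ψ m', m', rfl⟩)
    subst hm
    apply Subtype.ext
    simp
  · rw [← hdim₁]
    exact (LinearEquiv.ofInjective ψ hψinj).finrank_eq.symm
  · exact IsTyp.of_equiv (LinearEquiv.ofInjective ψ hψinj).toEquiv (fun m => by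
      show Q ((LinearEquiv.ofInjective ψ hψinj m : LinearMap.range ψ) : V) = Q₁ m
      rw [LinearEquiv.ofInjective_apply]
      exact hψQ m) htyp₁

end Cfsg.Agent.Lib.Helper98.H74
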