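import Mathlib
import Cfsg.Prelude.Def_GeometricClasses
import Cfsg.Prelude.Def_LieClassical

/-! Project O9 (helper44), piece NO3L (helper67): a non-identity `g` with `rank (g - 1) ≤ 2` in
dimension at least 5 does not normalise a field subalgebra of degree at least 3. -/

set_option autoImplicit false

namespace Cfsg.Agent.Lib.Helper44.O9

open Matrix Cfsg.Geo
open scoped Kronecker

variable {n : ℕ} {F : Type*} [Field F] [Fintype F]

section Transport

variable {κ : Type} [Fintype κ] [DecidableEq κ]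

omit [Fintype F] in
theorem NO3L_ker (hk : 5 ≤ Fintype.card κ) (N : Matrix κ κ F) (hrk : N.rank ≤ 2) :
    3 ≤ Module.finrank F (LinearMap.ker N.mulVecLin) := by
  have h1 := LinearMap.finrank_range_add_finrank_ker N.mulVecLin
  rw [Module.finrank_fintype_fun_eq_card] at h1
  have h2 : Module.finrank F (LinearMap.range N.mulVecLin) ≤ 2 := hrk
  omega

omit [Fintype F] in
theorem NO3L_inj (A y : Matrix κ κ F) (h : A * y = 1) :
    Function.Injective A.mulVecLin := by
  have h' : y * A = 1 := mul_eq_one_comm.1 h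
  intro u v huv
  have huv' : A *ᵥ u = A *ᵥ v := huv
  have := congrArg (fun w => y *ᵥ w) huv'
  simpa [Matrix.mulVec_mulVec, h'] using this

omit [Fintype F] in
theorem NO3L_comm (hk : 5 ≤ Fintype.card κ) (r : ℕ) (K : Subalgebra F (Matrix κ κ F))
    (hK : IsFieldSubalgebra r K) (g : GL κ F) (hrk : (g.1 - 1).rank ≤ 2)
    (hgK : g ∈ subalgebraNormalizer K) (k : Matrix κ κ F) (hk' : k ∈ K) :
    g.1 * k * ((g⁻¹ : GL κ F) : Matrix κ κ F) = k := by
  by_contra hne
  have hmem : g.1 * k * ((g⁻¹ : GL κ F) : Matrix κ κ F) ∈ K := (hgK k).1 hk'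
  have hd : g.1 * k * ((g⁻¹ : GL κ F) : Matrix κ κ F) - k ∈ K := K.sub_mem hmem hk'
  have hd0 : g.1 * k * ((g⁻¹ : GL κ F) : Matrix κ κ F) - k ≠ 0 := fun h => hne (sub_eq_zero.1 h)
  obtain ⟨y, -, hy⟩ := hK.inv _ hd hd0
  have hinj := NO3L_inj _ y hy
  have hker := NO3L_ker hk (g.1 - 1) hrk
  have hle : (LinearMap.ker (g.1 - 1).mulVecLin).map
      (g.1 * k * ((g⁻¹ : GL κ F) : Matrix κ κ F) - k).mulVecLin ≤
      LinearMap.range (g.1 - 1).mulVecLin := by
    rintro _ ⟨x, hx, rfl⟩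
    have hx' : (g.1 - 1) *ᵥ x = 0 := hx
    have hgx : g.1 *ᵥ x = x := by
      rw [Matrix.sub_mulVec, Matrix.one_mulVec] at hx'
      exact sub_eq_zero.1 hx'
    refine ⟨k *ᵥ x, ?_⟩
    simp only [Matrix.mulVecLin_apply]
    have e1 : (g.1 * k * ((g⁻¹ : GL κ F) : Matrix κ κ F)) *ᵥ x = g.1 *ᵥ (k *ᵥ x) := by
      conv_lhs => rw [← hgx]
      rw [Matrix.mulVec_mulVec, mul_assoc, Units.inv_mul, mul_one, Matrix.mulVec_mulVec]
    rw [Matrix.sub_mulVec, Matrix.sub_mulVec, Matrix.one_mulVec, e1]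
  have h1 : Module.finrank F ((LinearMap.ker (g.1 - 1).mulVecLin).map
      (g.1 * k * ((g⁻¹ : GL κ F) : Matrix κ κ F) - k).mulVecLin) =
      Module.finrank F (LinearMap.ker (g.1 - 1).mulVecLin) :=
    (Submodule.equivMapOfInjective _ hinj _).finrank_eq.symm
  have h2 := Submodule.finrank_mono hle
  have h3 : Module.finrank F (LinearMap.range (g.1 - 1).mulVecLin) ≤ 2 := hrk
  omega

theorem NO3L (hk : 5 ≤ Fintype.card κ) (r : ℕ) (hr : 3 ≤ r) (K : Subalgebra F (Matrix κ κ F))
    (hK : IsFieldSubalgebra r K) (g : GL κ F) (hg1 : g ≠ 1) (hrk : (g.1 - 1).rank ≤ 2)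
    (hgK : g ∈ subalgebraNormalizer K) : False := by
  have hcomm : ∀ k ∈ K, (g.1 - 1) * k = k * (g.1 - 1) := by
    intro k hk'
    have h := NO3L_comm hk r K hK g hrk hgK k hk'
    have h2 : g.1 * k = k * g.1 := by
      have := congrArg (fun M => M * g.1) h
      simp only [mul_assoc, Units.inv_mul, mul_one] at this
      exact this
    rw [sub_mul, mul_sub, h2, one_mul, mul_one]
  have hN0 : g.1 - 1 ≠ 0 := by
    intro h
    apply hg1
    apply Units.ext
    simpa using sub_eq_zero.1 h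
  have hx0 : ∃ x₀ : κ → F, (g.1 - 1) *ᵥ x₀ ≠ 0 := by
    by_contra hcon
    push Not at hcon
    apply hN0
    apply Matrix.toLin'.injective
    apply LinearMap.ext
    intro v
    rw [Matrix.toLin'_apply, hcon v]
    simp
  obtain ⟨x₀, hx₀⟩ := hx0
  let φ : ↥K →ₗ[F] (κ → F) :=
    { toFun := fun k => k.1 *ᵥ ((g.1 - 1) *ᵥ x₀)
      map_add' := by
        intro a b
        exact Matrix.add_mulVec a.1 b.1 _
      map_smul' := by
        intro c a
        exact Matrix.smul_mulVec c a.1 _ }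
  have hφ : ∀ k : ↥K, φ k = k.1 *ᵥ ((g.1 - 1) *ᵥ x₀) := fun _ => rfl
  have hφinj : Function.Injective φ := by
    rw [injective_iff_map_eq_zero]
    intro k hk0
    by_contra hkne
    have hk1 : k.1 ≠ 0 := fun h => hkne (Subtype.ext h)
    obtain ⟨y, -, hy⟩ := hK.inv k.1 k.2 hk1
    have hy' : y * k.1 = 1 := mul_eq_one_comm.1 hy
    rw [hφ] at hk0
    have := congrArg (fun w => y *ᵥ w) hk0
    simp only [Matrix.mulVec_mulVec, Matrix.mulVec_zero] at this
    rw [← mul_assoc, hy', one_mul] at this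
    exact hx₀ this
  have hle : LinearMap.range φ ≤ LinearMap.range (g.1 - 1).mulVecLin := by
    rintro _ ⟨k, rfl⟩
    refine ⟨k.1 *ᵥ x₀, ?_⟩
    rw [hφ]
    simp only [Matrix.mulVecLin_apply, Matrix.mulVec_mulVec]
    rw [hcomm k.1 k.2]
  have h1 : Module.finrank F (LinearMap.range φ) = Module.finrank F ↥K :=
    LinearMap.finrank_range_of_inj hφinj
  have h2 := Submodule.finrank_mono hle
  have h3 : Module.finrank F (LinearMap.range (g.1 - 1).mulVecLin) ≤ 2 := hrk
  have h4 := hK.finrank_eq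
  omega

end Transport

end Cfsg.Agent.Lib.Helper44.O9
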