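import Mathlib
import Cfsg.Agent.Lib.Helper51.GFDefs2
import Cfsg.Agent.Lib.Helper52.LangPlus
import Cfsg.Agent.Lib.Helper53.MFCENTO
import Cfsg.Agent.Lib.Helper53.OddFE
import Cfsg.Agent.Lib.Helper54.OrthInnPlus
import Cfsg.Agent.Lib.Helper21.MFISO

/-!
# S2717 piece GF-TR (for helper51): transport of semilinearly induced automorphisms of `PΩ`
along an isometry between forms on two index types
-/

set_option autoImplicit false
set_option linter.unusedSectionVars false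
set_option linter.unusedVariables false

namespace Cfsg.Agent.Lib.Helper67.GFTR

open Module QuadraticMap Matrix
open Cfsg Cfsg.Agent.Lib.Helper51 Cfsg.Agent.Lib.Helper51.GammaO Cfsg.Agent.Lib.Helper52
  Cfsg.Agent.Lib.Helper52.OU Cfsg.Agent.Lib.Helper53.OddF
  Cfsg.Agent.Lib.Helper53.MinusF Cfsg.Agent.Lib.Helper54 Cfsg.Agent.Lib.Helper51.GF
  Cfsg.Agent.Lib.Helper53.MFCENTO

universe u

section Transport

variable {ι κ : Type} [Fintype ι] [DecidableEq ι] [Fintype κ] [DecidableEq κ]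
  {F : Type u} [Field F]

theorem cancelL {T : Matrix κ ι F} {T' : Matrix ι κ F} (hT'T : T' * T = 1) {n : Type*}
    (X : Matrix ι n F) : T' * (T * X) = X := by
  rw [← Matrix.mul_assoc, hT'T, Matrix.one_mul]

theorem map_mul_equiv {l m n : Type*} [Fintype m] (τ : F ≃+* F) (L : Matrix l m F)
    (N : Matrix m n F) : (L * N).map τ = L.map τ * N.map τ :=
  Matrix.map_mul (f := (τ : F →+* F))

theorem map_one_equiv {n : Type*} [DecidableEq n] (τ : F ≃+* F) :
    (1 : Matrix n n F).map τ = 1 :=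
  Matrix.map_one _ (map_zero τ) (map_one τ)

theorem map_mulVec_equiv {m n : Type*} [Fintype n] (τ : F ≃+* F) (L : Matrix m n F)
    (v : n → F) : (fun i => τ ((L *ᵥ v) i)) = (L.map τ) *ᵥ (fun j => τ (v j)) := by
  funext i
  simp only [Matrix.mulVec, dotProduct, map_sum, map_mul, Matrix.map_apply]

/-- the reversed isometry -/
theorem rev_isom (Q : (ι → F) → F) (Q' : (κ → F) → F) (T : Matrix κ ι F) (T' : Matrix ι κ F)
    (hTT' : T * T' = 1) (hT : ∀ v, Q' (T *ᵥ v) = Q v) (w : κ → F) : Q (T' *ᵥ w) = Q' w := by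
  have h := hT (T' *ᵥ w)
  rw [Matrix.mulVec_mulVec, hTT', Matrix.one_mulVec] at h
  exact h.symm

/-- the element `T s T'` of `GL κ F` -/
def trGL (T : Matrix κ ι F) (T' : Matrix ι κ F) (hTT' : T * T' = 1) (hT'T : T' * T = 1)
    (s : GL ι F) : GL κ F :=
  ⟨T * (s : Matrix ι ι F) * T', T * ((s⁻¹ : GL ι F) : Matrix ι ι F) * T', by
    simp only [Matrix.mul_assoc, cancelL hT'T]
    rw [← Matrix.mul_assoc (s : Matrix ι ι F), Units.mul_inv, Matrix.one_mul, hTT'], by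
    simp only [Matrix.mul_assoc, cancelL hT'T]
    rw [← Matrix.mul_assoc ((s⁻¹ : GL ι F) : Matrix ι ι F), Units.inv_mul, Matrix.one_mul, hTT']⟩

theorem trGL_val (T : Matrix κ ι F) (T' : Matrix ι κ F) (hTT' : T * T' = 1) (hT'T : T' * T = 1)
    (s : GL ι F) :
    ((trGL T T' hTT' hT'T s : GL κ F) : Matrix κ κ F) = T * (s : Matrix ι ι F) * T' := rfl

theorem trGL_mem (Q : (ι → F) → F) (Q' : (κ → F) → F) (T : Matrix κ ι F) (T' : Matrix ι κ F)
    (hTT' : T * T' = 1) (hT'T : T' * T = 1) (hT : ∀ v, Q' (T *ᵥ v) = Q v) (s : GL ι F)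
    (hs : s ∈ Cfsg.isometryGroup F Q) : trGL T T' hTT' hT'T s ∈ Cfsg.isometryGroup F Q' := by
  rw [Cfsg.Agent.Lib.Helper21.MFISO.mem_iso_iff] at hs ⊢
  intro u
  have e : ((trGL T T' hTT' hT'T s : GL κ F) : Matrix κ κ F) *ᵥ u
      = T *ᵥ ((s : Matrix ι ι F) *ᵥ (T' *ᵥ u)) := by
    rw [trGL_val, Matrix.mulVec_mulVec, Matrix.mulVec_mulVec]
  rw [e, hT, hs, rev_isom Q Q' T T' hTT' hT]

/-- `s ↦ T s T'` as an isomorphism of isometry groups -/
def isoConj (Q : (ι → F) → F) (Q' : (κ → F) → F) (T : Matrix κ ι F) (T' : Matrix ι κ F)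
    (hTT' : T * T' = 1) (hT'T : T' * T = 1) (hT : ∀ v, Q' (T *ᵥ v) = Q v) :
    ↥(Cfsg.isometryGroup F Q) ≃* ↥(Cfsg.isometryGroup F Q') where
  toFun g := ⟨trGL T T' hTT' hT'T g.1, trGL_mem Q Q' T T' hTT' hT'T hT g.1 g.2⟩
  invFun g := ⟨trGL T' T hT'T hTT' g.1,
    trGL_mem Q' Q T' T hT'T hTT' (rev_isom Q Q' T T' hTT' hT) g.1 g.2⟩
  left_inv g := by
    apply Subtype.ext
    apply Units.ext
    show T' * (T * ((g.1 : GL ι F) : Matrix ι ι F) * T') * T = ((g.1 : GL ι F) : Matrix ι ι F)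
    simp only [Matrix.mul_assoc, cancelL hT'T, hT'T, Matrix.mul_one]
  right_inv g := by
    apply Subtype.ext
    apply Units.ext
    show T * (T' * ((g.1 : GL κ F) : Matrix κ κ F) * T) * T' = ((g.1 : GL κ F) : Matrix κ κ F)
    simp only [Matrix.mul_assoc, cancelL hTT', hTT', Matrix.mul_one]
  map_mul' g h := by
    apply Subtype.ext
    apply Units.ext
    show T * (((g.1 * h.1 : GL ι F)) : Matrix ι ι F) * T'
      = (T * ((g.1 : GL ι F) : Matrix ι ι F) * T') * (T * ((h.1 : GL ι F) : Matrix ι ι F) * T')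
    rw [Units.val_mul]
    simp only [Matrix.mul_assoc, cancelL hT'T]

theorem map_Omega (Q : (ι → F) → F) (Q' : (κ → F) → F) (T : Matrix κ ι F) (T' : Matrix ι κ F)
    (hTT' : T * T' = 1) (hT'T : T' * T = 1) (hT : ∀ v, Q' (T *ᵥ v) = Q v) :
    (Cfsg.Omega F Q).map (isoConj Q Q' T T' hTT' hT'T hT).toMonoidHom = Cfsg.Omega F Q' := by
  show (commutator ↥(Cfsg.isometryGroup F Q)).map (isoConj Q Q' T T' hTT' hT'T hT).toMonoidHom
    = commutator ↥(Cfsg.isometryGroup F Q')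
  rw [_root_.commutator_def, _root_.commutator_def, Subgroup.map_commutator,
    Subgroup.map_top_of_surjective _ (isoConj Q Q' T T' hTT' hT'T hT).surjective]

/-- the induced isomorphism `Ω(Q) ≃* Ω(Q')` -/
noncomputable def omegaConj (Q : (ι → F) → F) (Q' : (κ → F) → F) (T : Matrix κ ι F)
    (T' : Matrix ι κ F) (hTT' : T * T' = 1) (hT'T : T' * T = 1) (hT : ∀ v, Q' (T *ᵥ v) = Q v) :
    ↥(Cfsg.Omega F Q) ≃* ↥(Cfsg.Omega F Q') :=
  ((isoConj Q Q' T T' hTT' hT'T hT).subgroupMap (Cfsg.Omega F Q)).trans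
    (MulEquiv.subgroupCongr (map_Omega Q Q' T T' hTT' hT'T hT))

theorem omegaConj_coe (Q : (ι → F) → F) (Q' : (κ → F) → F) (T : Matrix κ ι F)
    (T' : Matrix ι κ F) (hTT' : T * T' = 1) (hT'T : T' * T = 1) (hT : ∀ v, Q' (T *ᵥ v) = Q v)
    (s : ↥(Cfsg.Omega F Q)) :
    ((((omegaConj Q Q' T T' hTT' hT'T hT s : ↥(Cfsg.Omega F Q')) :
        ↥(Cfsg.isometryGroup F Q')) : GL κ F) : Matrix κ κ F)
      = T * ((((s : ↥(Cfsg.isometryGroup F Q)) : GL ι F)) : Matrix ι ι F) * T' := rfl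

theorem map_center (Q : (ι → F) → F) (Q' : (κ → F) → F) (T : Matrix κ ι F)
    (T' : Matrix ι κ F) (hTT' : T * T' = 1) (hT'T : T' * T = 1) (hT : ∀ v, Q' (T *ᵥ v) = Q v) :
    (Subgroup.center ↥(Cfsg.Omega F Q)).map (omegaConj Q Q' T T' hTT' hT'T hT).toMonoidHom
      = Subgroup.center ↥(Cfsg.Omega F Q') := by
  ext y
  rw [Subgroup.mem_map_equiv, Subgroup.mem_center_iff, Subgroup.mem_center_iff]
  constructor
  · intro h b
    have h1 := congrArg (omegaConj Q Q' T T' hTT' hT'T hT)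
      (h ((omegaConj Q Q' T T' hTT' hT'T hT).symm b))
    simpa using h1
  · intro h a
    have h1 := congrArg (omegaConj Q Q' T T' hTT' hT'T hT).symm
      (h (omegaConj Q Q' T T' hTT' hT'T hT a))
    simpa using h1

/-- the induced isomorphism `PΩ(Q) ≃* PΩ(Q')` -/
noncomputable def pomegaConj (Q : (ι → F) → F) (Q' : (κ → F) → F) (T : Matrix κ ι F)
    (T' : Matrix ι κ F) (hTT' : T * T' = 1) (hT'T : T' * T = 1) (hT : ∀ v, Q' (T *ᵥ v) = Q v) :
    Cfsg.POmega F Q ≃* Cfsg.POmega F Q' :=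
  QuotientGroup.congr (Subgroup.center ↥(Cfsg.Omega F Q)) (Subgroup.center ↥(Cfsg.Omega F Q'))
    (omegaConj Q Q' T T' hTT' hT'T hT) (map_center Q Q' T T' hTT' hT'T hT)

theorem pomegaConj_mk (Q : (ι → F) → F) (Q' : (κ → F) → F) (T : Matrix κ ι F)
    (T' : Matrix ι κ F) (hTT' : T * T' = 1) (hT'T : T' * T = 1) (hT : ∀ v, Q' (T *ᵥ v) = Q v)
    (s : ↥(Cfsg.Omega F Q)) :
    pomegaConj Q Q' T T' hTT' hT'T hT (QuotientGroup.mk s)
      = QuotientGroup.mk (omegaConj Q Q' T T' hTT' hT'T hT s) := rfl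

/-- the two twisting identities `T' g' T^τ = g` and `T'^τ g'⁻¹ T = g⁻¹` -/
theorem twist_left (T : Matrix κ ι F) (T' : Matrix ι κ F) (hT'T : T' * T = 1)
    (g : GL ι F) (g' : GL κ F) (τ : F ≃+* F)
    (h : (g' : Matrix κ κ F) * T.map τ = T * (g : Matrix ι ι F)) :
    T' * (g' : Matrix κ κ F) * T.map τ = (g : Matrix ι ι F) := by
  rw [Matrix.mul_assoc, h, ← Matrix.mul_assoc, hT'T, Matrix.one_mul]

theorem twist_right (T : Matrix κ ι F) (T' : Matrix ι κ F) (hT'T : T' * T = 1)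
    (g : GL ι F) (g' : GL κ F) (τ : F ≃+* F)
    (h : (g' : Matrix κ κ F) * T.map τ = T * (g : Matrix ι ι F)) :
    T'.map τ * ((g'⁻¹ : GL κ F) : Matrix κ κ F) * T = ((g⁻¹ : GL ι F) : Matrix ι ι F) := by
  have h1 : T.map τ * ((g⁻¹ : GL ι F) : Matrix ι ι F)
      = ((g'⁻¹ : GL κ F) : Matrix κ κ F) * T := by
    calc T.map τ * ((g⁻¹ : GL ι F) : Matrix ι ι F)
        = ((g'⁻¹ : GL κ F) : Matrix κ κ F) * ((g' : Matrix κ κ F) * T.map τ)
            * ((g⁻¹ : GL ι F) : Matrix ι ι F) := by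
          rw [← Matrix.mul_assoc ((g'⁻¹ : GL κ F) : Matrix κ κ F), Units.inv_mul, Matrix.one_mul]
      _ = ((g'⁻¹ : GL κ F) : Matrix κ κ F) * T := by
          rw [h, Matrix.mul_assoc, Matrix.mul_assoc, Units.mul_inv, Matrix.mul_one]
  have h2 : T'.map τ * T.map τ = 1 := by
    rw [← map_mul_equiv, hT'T, map_one_equiv]
  rw [Matrix.mul_assoc, ← h1, ← Matrix.mul_assoc, h2, Matrix.one_mul]

end Transport

theorem exists_transport {ι κ : Type} [Fintype ι] [DecidableEq ι] [Fintype κ] [DecidableEq κ]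
    {F : Type u} [Field F] (Q : (ι → F) → F) (Q' : (κ → F) → F)
    (T : Matrix κ ι F) (T' : Matrix ι κ F) (hTT' : T * T' = 1) (hT'T : T' * T = 1)
    (hT : ∀ v, Q' (T *ᵥ v) = Q v) :
    ∃ ψ : POmega F Q ≃* POmega F Q',
      (∀ (g : GL ι F) (g' : GL κ F) (τ : F ≃+* F) (β : MulAut (POmega F Q)),
        (g' : Matrix κ κ F) * T.map τ = T * (g : Matrix ι ι F) →
        Ind Q β g τ → Ind Q' (MulAut.congr ψ β) g' τ) ∧
      (∀ (g : GL ι F) (g' : GL κ F) (τ : F ≃+* F) (β' : MulAut (POmega F Q')),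
        (g' : Matrix κ κ F) * T.map τ = T * (g : Matrix ι ι F) →
        Ind Q' β' g' τ → Ind Q ((MulAut.congr ψ).symm β') g τ) := by
  refine ⟨pomegaConj Q Q' T T' hTT' hT'T hT, ?_, ?_⟩
  · rintro g g' τ β h ⟨⟨c, hc⟩, hβ⟩
    have hA := twist_left T T' hT'T g g' τ h
    have hB := twist_right T T' hT'T g g' τ h
    refine ⟨⟨c, fun w => ?_⟩, ?_⟩
    · -- the pair part
      have e1 : (fun i => τ (w i)) = (T.map τ) *ᵥ (fun j => τ ((T' *ᵥ w) j)) := by
        rw [← map_mulVec_equiv, Matrix.mulVec_mulVec, hTT', Matrix.one_mulVec]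
      rw [e1, Matrix.mulVec_mulVec, h, ← Matrix.mulVec_mulVec, hT, hc,
        rev_isom Q Q' T T' hTT' hT]
    · -- the induced part
      intro t t' htt
      obtain ⟨s, hs⟩ : ∃ s, omegaConj Q Q' T T' hTT' hT'T hT s = t :=
        ⟨(omegaConj Q Q' T T' hTT' hT'T hT).symm t, by simp⟩
      obtain ⟨s', hs'⟩ : ∃ s', omegaConj Q Q' T T' hTT' hT'T hT s' = t' :=
        ⟨(omegaConj Q Q' T T' hTT' hT'T hT).symm t', by simp⟩
      rw [← hs, ← hs', omegaConj_coe, omegaConj_coe] at htt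
      have h2 : ((((s' : ↥(Cfsg.isometryGroup F Q)) : GL ι F)) : Matrix ι ι F)
          = (g : Matrix ι ι F) * ((((s : ↥(Cfsg.isometryGroup F Q)) : GL ι F)) : Matrix ι ι F).map τ
            * ((g⁻¹ : GL ι F) : Matrix ι ι F) := by
        have h3 : ((((s' : ↥(Cfsg.isometryGroup F Q)) : GL ι F)) : Matrix ι ι F)
            = T' * (T * ((((s' : ↥(Cfsg.isometryGroup F Q)) : GL ι F)) : Matrix ι ι F) * T') * T := by
          simp only [Matrix.mul_assoc, cancelL hT'T, hT'T, Matrix.mul_one]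
        rw [h3, htt, map_mul_equiv, map_mul_equiv, ← hA, ← hB]
        simp only [Matrix.mul_assoc]
      have h4 := hβ s s' h2
      show (pomegaConj Q Q' T T' hTT' hT'T hT)
          (β ((pomegaConj Q Q' T T' hTT' hT'T hT).symm (QuotientGroup.mk t)))
        = QuotientGroup.mk t'
      have h6 : (pomegaConj Q Q' T T' hTT' hT'T hT).symm (QuotientGroup.mk t)
          = QuotientGroup.mk s := by
        rw [MulEquiv.symm_apply_eq, pomegaConj_mk, hs]
      rw [h6, h4, pomegaConj_mk, hs']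
  · rintro g g' τ β' h ⟨⟨c, hc⟩, hβ⟩
    have hA := twist_left T T' hT'T g g' τ h
    have hB := twist_right T T' hT'T g g' τ h
    refine ⟨⟨c, fun v => ?_⟩, ?_⟩
    · -- the pair part
      have e1 := hc (T *ᵥ v)
      rw [map_mulVec_equiv, Matrix.mulVec_mulVec, h, ← Matrix.mulVec_mulVec, hT, hT] at e1
      exact e1
    · intro s s' hss
      have h2 : ((((omegaConj Q Q' T T' hTT' hT'T hT s' : ↥(Cfsg.Omega F Q')) :
            ↥(Cfsg.isometryGroup F Q')) : GL κ F) : Matrix κ κ F)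
          = (g' : Matrix κ κ F) * ((((omegaConj Q Q' T T' hTT' hT'T hT s : ↥(Cfsg.Omega F Q')) :
            ↥(Cfsg.isometryGroup F Q')) : GL κ F) : Matrix κ κ F).map τ
            * ((g'⁻¹ : GL κ F) : Matrix κ κ F) := by
        rw [omegaConj_coe, omegaConj_coe, hss, map_mul_equiv, map_mul_equiv]
        have hB' : T'.map τ * ((g'⁻¹ : GL κ F) : Matrix κ κ F)
            = ((g⁻¹ : GL ι F) : Matrix ι ι F) * T' := by
          rw [← hB]
          simp only [Matrix.mul_assoc, hTT', Matrix.mul_one]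
        calc T * ((g : Matrix ι ι F) *
              ((((s : ↥(Cfsg.isometryGroup F Q)) : GL ι F)) : Matrix ι ι F).map τ *
              ((g⁻¹ : GL ι F) : Matrix ι ι F)) * T'
            = (T * (g : Matrix ι ι F)) *
              ((((s : ↥(Cfsg.isometryGroup F Q)) : GL ι F)) : Matrix ι ι F).map τ *
              (((g⁻¹ : GL ι F) : Matrix ι ι F) * T') := by
              simp only [Matrix.mul_assoc]
          _ = (g' : Matrix κ κ F) * (T.map τ *
              ((((s : ↥(Cfsg.isometryGroup F Q)) : GL ι F)) : Matrix ι ι F).map τ * T'.map τ) *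
              ((g'⁻¹ : GL κ F) : Matrix κ κ F) := by
              rw [← h, ← hB']
              simp only [Matrix.mul_assoc]
      have h4 := hβ (omegaConj Q Q' T T' hTT' hT'T hT s) (omegaConj Q Q' T T' hTT' hT'T hT s') h2
      show (pomegaConj Q Q' T T' hTT' hT'T hT).symm
          (β' ((pomegaConj Q Q' T T' hTT' hT'T hT) (QuotientGroup.mk s)))
        = QuotientGroup.mk s'
      rw [pomegaConj_mk, h4, MulEquiv.symm_apply_eq, pomegaConj_mk]

end Cfsg.Agent.Lib.Helper67.GFTR
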