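import Mathlib
import Cfsg.Agent.Lib.Helper54.GTCSP

/-!
# S2702 piece GT3-CSP (for helper53): `|PGSp_{2m}(F)| = |Sp_{2m}(F)|` for a finite field `F`
-/

set_option autoImplicit false

namespace Cfsg.Agent.Lib.Helper67.GT3CSP

open Cfsg Matrix

section

variable {F : Type*} [Field F]

/-- the diagonal similarity with multiplier `c` -/
def dlt (m : ℕ) (c : F) : Matrix (Fin m ⊕ Fin m) (Fin m ⊕ Fin m) F :=
  Matrix.fromBlocks (c • (1 : Matrix (Fin m) (Fin m) F)) 0 0 1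

theorem dlt_mul (m : ℕ) (c d : F) : dlt m c * dlt m d = dlt m (c * d) := by
  unfold dlt
  rw [Matrix.fromBlocks_multiply]
  simp [smul_smul, mul_comm]

theorem dlt_one (m : ℕ) : dlt m (1 : F) = 1 := by
  unfold dlt
  rw [one_smul, Matrix.fromBlocks_one]

theorem dlt_transpose (m : ℕ) (c : F) : (dlt m c)ᵀ = dlt m c := by
  unfold dlt
  rw [Matrix.fromBlocks_transpose]
  simp

theorem dlt_J (m : ℕ) (c : F) :
    dlt m c * Matrix.J (Fin m) F * (dlt m c)ᵀ = c • Matrix.J (Fin m) F := by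
  rw [dlt_transpose]
  unfold dlt Matrix.J
  rw [Matrix.fromBlocks_multiply, Matrix.fromBlocks_multiply, Matrix.fromBlocks_smul]
  simp

theorem dlt_cancel (m : ℕ) (c : Fˣ) (X : Matrix (Fin m ⊕ Fin m) (Fin m ⊕ Fin m) F) :
    dlt m ((c⁻¹ : Fˣ) : F) * (dlt m (c : F) * X) = X := by
  rw [← Matrix.mul_assoc, dlt_mul, Units.inv_mul, dlt_one, Matrix.one_mul]

theorem dlt_cancel' (m : ℕ) (c : Fˣ) (X : Matrix (Fin m ⊕ Fin m) (Fin m ⊕ Fin m) F) :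
    dlt m (c : F) * (dlt m ((c⁻¹ : Fˣ) : F) * X) = X := by
  rw [← Matrix.mul_assoc, dlt_mul, Units.mul_inv, dlt_one, Matrix.one_mul]

/-- the multiplier of `δ_c s` is `c` -/
theorem dlt_symp (m : ℕ) (c : F) (s : Matrix (Fin m ⊕ Fin m) (Fin m ⊕ Fin m) F)
    (hs : s * Matrix.J (Fin m) F * sᵀ = Matrix.J (Fin m) F) :
    (dlt m c * s) * Matrix.J (Fin m) F * (dlt m c * s)ᵀ = c • Matrix.J (Fin m) F := by
  rw [Matrix.transpose_mul]
  calc dlt m c * s * Matrix.J (Fin m) F * (sᵀ * (dlt m c)ᵀ)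
      = dlt m c * (s * Matrix.J (Fin m) F * sᵀ) * (dlt m c)ᵀ := by
        simp only [Matrix.mul_assoc]
    _ = c • Matrix.J (Fin m) F := by rw [hs, dlt_J]

/-- the multiplier is unique -/
theorem smul_J_inj (m : ℕ) (hm : 1 ≤ m) (c d : F)
    (h : c • Matrix.J (Fin m) F = d • Matrix.J (Fin m) F) : c = d := by
  have h1 := congrFun (congrFun h (Sum.inr ⟨0, hm⟩)) (Sum.inl ⟨0, hm⟩)
  simpa [Matrix.J] using h1

/-- the unit `δ_c s` -/
def uGL (m : ℕ) (c : Fˣ) (s : Matrix.symplecticGroup (Fin m) F) : GL (Fin m ⊕ Fin m) F :=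
  ⟨dlt m (c : F) * (s : Matrix (Fin m ⊕ Fin m) (Fin m ⊕ Fin m) F),
    ((s⁻¹ : Matrix.symplecticGroup (Fin m) F) : Matrix (Fin m ⊕ Fin m) (Fin m ⊕ Fin m) F) *
      dlt m ((c⁻¹ : Fˣ) : F), by
    have h1 : (s : Matrix (Fin m ⊕ Fin m) (Fin m ⊕ Fin m) F) *
        ((s⁻¹ : Matrix.symplecticGroup (Fin m) F) : Matrix (Fin m ⊕ Fin m) (Fin m ⊕ Fin m) F)
          = 1 := congrArg Subtype.val (mul_inv_cancel s)
    calc dlt m (c : F) * (s : Matrix (Fin m ⊕ Fin m) (Fin m ⊕ Fin m) F) *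
          (((s⁻¹ : Matrix.symplecticGroup (Fin m) F) :
            Matrix (Fin m ⊕ Fin m) (Fin m ⊕ Fin m) F) * dlt m ((c⁻¹ : Fˣ) : F))
        = dlt m (c : F) * ((s : Matrix (Fin m ⊕ Fin m) (Fin m ⊕ Fin m) F) *
          ((s⁻¹ : Matrix.symplecticGroup (Fin m) F) :
            Matrix (Fin m ⊕ Fin m) (Fin m ⊕ Fin m) F)) * dlt m ((c⁻¹ : Fˣ) : F) := by
          simp only [Matrix.mul_assoc]
      _ = 1 := by rw [h1, Matrix.mul_one, dlt_mul, Units.mul_inv, dlt_one], by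
    have h1 : ((s⁻¹ : Matrix.symplecticGroup (Fin m) F) :
          Matrix (Fin m ⊕ Fin m) (Fin m ⊕ Fin m) F) *
        (s : Matrix (Fin m ⊕ Fin m) (Fin m ⊕ Fin m) F) = 1 :=
      congrArg Subtype.val (inv_mul_cancel s)
    calc ((s⁻¹ : Matrix.symplecticGroup (Fin m) F) :
            Matrix (Fin m ⊕ Fin m) (Fin m ⊕ Fin m) F) * dlt m ((c⁻¹ : Fˣ) : F) *
          (dlt m (c : F) * (s : Matrix (Fin m ⊕ Fin m) (Fin m ⊕ Fin m) F))
        = ((s⁻¹ : Matrix.symplecticGroup (Fin m) F) :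
            Matrix (Fin m ⊕ Fin m) (Fin m ⊕ Fin m) F) * (dlt m ((c⁻¹ : Fˣ) : F) *
          (dlt m (c : F) * (s : Matrix (Fin m ⊕ Fin m) (Fin m ⊕ Fin m) F))) := by
          simp only [Matrix.mul_assoc]
      _ = 1 := by rw [dlt_cancel, h1]⟩

theorem uGL_val (m : ℕ) (c : Fˣ) (s : Matrix.symplecticGroup (Fin m) F) :
    ((uGL m c s : GL (Fin m ⊕ Fin m) F) : Matrix (Fin m ⊕ Fin m) (Fin m ⊕ Fin m) F) =
      dlt m (c : F) * (s : Matrix (Fin m ⊕ Fin m) (Fin m ⊕ Fin m) F) := rfl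

theorem uGL_mem (m : ℕ) (c : Fˣ) (s : Matrix.symplecticGroup (Fin m) F) :
    uGL m c s ∈ Cfsg.GSp m F := by
  rw [Cfsg.Agent.Lib.Helper54.GTCSP.mem_GSp_iff]
  exact ⟨c, by rw [uGL_val]; exact dlt_symp m (c : F) _ (SymplecticGroup.mem_iff.mp s.2)⟩

/-- `Fˣ × Sp ≃ GSp` -/
theorem card_GSp (m : ℕ) (hm : 1 ≤ m) :
    Nat.card (Cfsg.GSp m F) = Nat.card Fˣ * Nat.card (Matrix.symplecticGroup (Fin m) F) := by
  rw [← Nat.card_prod]
  symm
  apply Nat.card_congr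
  refine Equiv.ofBijective
    (fun x : Fˣ × Matrix.symplecticGroup (Fin m) F =>
      (⟨uGL m x.1 x.2, uGL_mem m x.1 x.2⟩ : Cfsg.GSp m F)) ⟨?_, ?_⟩
  · rintro ⟨c, s⟩ ⟨c', s'⟩ h
    have h1 : dlt m (c : F) * (s : Matrix (Fin m ⊕ Fin m) (Fin m ⊕ Fin m) F) =
        dlt m (c' : F) * (s' : Matrix (Fin m ⊕ Fin m) (Fin m ⊕ Fin m) F) := by
      have h2 := congrArg (fun g : Cfsg.GSp m F =>
        ((g : GL (Fin m ⊕ Fin m) F) : Matrix (Fin m ⊕ Fin m) (Fin m ⊕ Fin m) F)) h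
      exact h2
    have hc : (c : F) = (c' : F) := by
      apply smul_J_inj m hm
      rw [← dlt_symp m (c : F) _ (SymplecticGroup.mem_iff.mp s.2), h1,
        dlt_symp m (c' : F) _ (SymplecticGroup.mem_iff.mp s'.2)]
    have hc' : c = c' := Units.ext hc
    subst hc'
    have hs : (s : Matrix (Fin m ⊕ Fin m) (Fin m ⊕ Fin m) F) =
        (s' : Matrix (Fin m ⊕ Fin m) (Fin m ⊕ Fin m) F) := by
      rw [← dlt_cancel m c (s : Matrix (Fin m ⊕ Fin m) (Fin m ⊕ Fin m) F), h1, dlt_cancel]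
    have hs' : s = s' := Subtype.ext hs
    rw [hs']
  · rintro ⟨g, hg⟩
    obtain ⟨c, hc⟩ := (Cfsg.Agent.Lib.Helper54.GTCSP.mem_GSp_iff m g).mp hg
    have hs : dlt m ((c⁻¹ : Fˣ) : F) * (g : Matrix (Fin m ⊕ Fin m) (Fin m ⊕ Fin m) F) ∈
        Matrix.symplecticGroup (Fin m) F := by
      rw [SymplecticGroup.mem_iff, Matrix.transpose_mul]
      calc dlt m ((c⁻¹ : Fˣ) : F) * (g : Matrix (Fin m ⊕ Fin m) (Fin m ⊕ Fin m) F) *
            Matrix.J (Fin m) F *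
            ((g : Matrix (Fin m ⊕ Fin m) (Fin m ⊕ Fin m) F)ᵀ * (dlt m ((c⁻¹ : Fˣ) : F))ᵀ)
          = dlt m ((c⁻¹ : Fˣ) : F) * ((g : Matrix (Fin m ⊕ Fin m) (Fin m ⊕ Fin m) F) *
            Matrix.J (Fin m) F * (g : Matrix (Fin m ⊕ Fin m) (Fin m ⊕ Fin m) F)ᵀ) *
            (dlt m ((c⁻¹ : Fˣ) : F))ᵀ := by simp only [Matrix.mul_assoc]
        _ = Matrix.J (Fin m) F := by
          rw [hc, Matrix.mul_smul, Matrix.smul_mul, dlt_J, smul_smul, Units.mul_inv, one_smul]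
    refine ⟨(c, ⟨_, hs⟩), ?_⟩
    apply Subtype.ext
    apply Units.ext
    show dlt m (c : F) * (dlt m ((c⁻¹ : Fˣ) : F) *
      (g : Matrix (Fin m ⊕ Fin m) (Fin m ⊕ Fin m) F)) = _
    rw [dlt_cancel']

theorem scalars_le_GSp (m : ℕ) : Geo.scalars (Fin m ⊕ Fin m) F ≤ Cfsg.GSp m F := by
  intro g hg
  obtain ⟨c, hc⟩ := (Geo.mem_scalars_iff g).mp hg
  rw [Cfsg.Agent.Lib.Helper54.GTCSP.mem_GSp_iff]
  refine ⟨c * c, ?_⟩
  rw [hc, Matrix.transpose_smul, Matrix.transpose_one, Matrix.smul_mul, Matrix.one_mul,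
    Matrix.mul_smul, Matrix.mul_one, smul_smul, Units.val_mul]

theorem card_scalars (m : ℕ) (hm : 1 ≤ m) :
    Nat.card (Geo.scalars (Fin m ⊕ Fin m) F) = Nat.card Fˣ := by
  have : Nonempty (Fin m ⊕ Fin m) := ⟨Sum.inl ⟨0, hm⟩⟩
  have hinj : Function.Injective
      (Units.map (Matrix.scalar (Fin m ⊕ Fin m) : F →+* Matrix (Fin m ⊕ Fin m) (Fin m ⊕ Fin m) F).toMonoidHom) := by
    apply Units.map_injective
    intro a b hab
    exact Matrix.scalar_inj.mp hab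
  exact (Nat.card_congr (MonoidHom.ofInjective hinj).toEquiv).symm

end

/-- GT3-CSP -/
theorem card_pgsp {F : Type*} [Field F] [Fintype F] (m : ℕ) (hm : 1 ≤ m) :
    Nat.card (Cfsg.PGSp m F) = Nat.card (Matrix.symplecticGroup (Fin m) F) := by
  classical
  show Nat.card (↥(Cfsg.GSp m F) ⧸ (Geo.scalars (Fin m ⊕ Fin m) F).subgroupOf (Cfsg.GSp m F)) = _
  have h1 := Subgroup.card_eq_card_quotient_mul_card_subgroup
    ((Geo.scalars (Fin m ⊕ Fin m) F).subgroupOf (Cfsg.GSp m F))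
  have h2 := card_GSp (F := F) m hm
  have h3 : Nat.card ((Geo.scalars (Fin m ⊕ Fin m) F).subgroupOf (Cfsg.GSp m F)) = Nat.card Fˣ := by
    rw [← card_scalars (F := F) m hm]
    exact Nat.card_congr (Subgroup.subgroupOfEquivOfLe (scalars_le_GSp m)).toEquiv
  have h4 : 0 < Nat.card Fˣ := Nat.card_pos
  rw [h2, h3] at h1
  exact Nat.eq_of_mul_eq_mul_right h4 (by rw [← h1, mul_comm])

end Cfsg.Agent.Lib.Helper67.GT3CSP
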