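import Mathlib
import Cfsg.Agent.Lib.Helper22.BFDefs

/-! Piece S1B of the S4503 project (helper22): from "the support of the multiplicities is one
coset of `E`" to the dichotomy "the value at `z` has maximal norm, or the orthogonality of the
restrictions to non-conjugate powers". -/

set_option autoImplicit false
set_option linter.style.haveILetI false

namespace Cfsg.Agent.Lib.Helper67.BFT

open Cfsg Cfsg.Agent.Lib.Helper22.BFD
open scoped ComplexConjugate

universe u

theorem s1b_pow_mul (p : ℕ) [Fact p.Prime] {M : Type*} [Monoid M] (z : M) (hzp : z ^ p = 1)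
    (x y : ZMod p) : z ^ (x * y).val = (z ^ x.val) ^ y.val := by
  rw [ZMod.val_mul, ← pow_eq_pow_mod _ hzp, pow_mul]

theorem s1b_pow_add (p : ℕ) [Fact p.Prime] {M : Type*} [Monoid M] (z : M) (hzp : z ^ p = 1)
    (x y : ZMod p) : z ^ (x + y).val = z ^ x.val * z ^ y.val := by
  rw [ZMod.val_add, ← pow_eq_pow_mod _ hzp, pow_add]

section

variable {G : Type u} [Group G] [Fintype G]

/-- PIECE S1B -/
theorem step1b (p : ℕ) [Fact p.Prime] (ζ : ℂ) (hζ : IsPrimitiveRoot ζ p) (z : G)
    (hz : orderOf z = p) (χ : G → ℂ) (n : ℕ) (hn : χ 1 = (n : ℂ)) (hdeg : 2 * n + 1 < p)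
    (a : ZMod p → ℕ)
    (ha : ∀ t : ZMod p, χ (z ^ t.val) = ∑ u : ZMod p, (a u : ℂ) * ζ ^ (u * t).val)
    (hf : (Ef p z).card ≤ n) (u₀ : ZMod p) (hu₀ : u₀ ≠ 0)
    (hW : ∀ u : ZMod p, a u ≠ 0 → ∃ k ∈ Ef p z, u = k * u₀) :
    (∃ c : ℂ, ‖c‖ = 1 ∧ χ z = c * χ 1) ∨
    (2 * (Ef p z).card + 1 < p ∧ 2 ≤ (Ef p z).card ∧
      ∀ a' b' : ZMod p, a' ≠ 0 → b' ≠ 0 → ¬ IsConj (z ^ a'.val) (z ^ b'.val) →
        ∑ t : ZMod p, χ (z ^ (a' * t).val) * conj (χ (z ^ (b' * t).val)) = 0) := by
  classical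
  have hp : p.Prime := Fact.out
  haveI : Fact (1 < p) := ⟨hp.one_lt⟩
  have hzp : z ^ p = 1 := by rw [← hz]; exact pow_orderOf_eq_one z
  have hζp : ζ ^ p = 1 := hζ.pow_eq_one
  have hζn : ‖ζ‖ = 1 := hζ.norm'_eq_one hp.ne_zero
  have h1E : (1 : ZMod p) ∈ Ef p z := by
    unfold Ef
    rw [Finset.mem_filter]
    refine ⟨Finset.mem_univ _, ?_⟩
    rw [ZMod.val_one, pow_one]
  have hfpos : 1 ≤ (Ef p z).card := Finset.card_pos.mpr ⟨1, h1E⟩
  rcases Nat.lt_or_ge (Ef p z).card 2 with hlt | h2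
  · left
    have hc1 : (Ef p z).card = 1 := by omega
    obtain ⟨k₀, hk₀⟩ := Finset.card_eq_one.mp hc1
    have hk1 : ∀ k ∈ Ef p z, k = 1 := by
      intro k hk
      rw [hk₀, Finset.mem_singleton] at hk h1E
      rw [hk, h1E]
    have hW' : ∀ u : ZMod p, u ≠ u₀ → a u = 0 := by
      intro u hu
      by_contra h
      obtain ⟨k, hk, hku⟩ := hW u h
      rw [hk1 k hk, one_mul] at hku
      exact hu hku
    have hval : ∀ t : ZMod p, χ (z ^ t.val) = (a u₀ : ℂ) * ζ ^ (u₀ * t).val := by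
      intro t
      rw [ha t]
      refine Finset.sum_eq_single u₀ (fun u _ hu => ?_) (fun h => absurd (Finset.mem_univ _) h)
      rw [hW' u hu]; simp
    have hχ1 : χ 1 = (a u₀ : ℂ) := by
      have h := hval 0
      rwa [ZMod.val_zero, pow_zero, mul_zero, ZMod.val_zero, pow_zero, mul_one] at h
    have hχz : χ z = (a u₀ : ℂ) * ζ ^ u₀.val := by
      have h := hval 1
      rwa [ZMod.val_one, pow_one, mul_one] at h
    refine ⟨ζ ^ u₀.val, ?_, ?_⟩
    · rw [norm_pow, hζn, one_pow]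
    · rw [hχz, hχ1, mul_comm]
  · right
    refine ⟨by omega, h2, ?_⟩
    intro a' b' ha' hb' hnc
    have hconjpow : ∀ (x y : G) (m : ℕ), IsConj x y → IsConj (x ^ m) (y ^ m) := by
      intro x y m hxy
      obtain ⟨c, hc⟩ := isConj_iff.mp hxy
      exact isConj_iff.mpr ⟨c, by rw [← conj_pow, hc]⟩
    have key : ∀ u u' : ZMod p, u * a' = u' * b' → (a u : ℂ) * (a u' : ℂ) = 0 := by
      intro u u' huu
      by_contra hne
      have hu : a u ≠ 0 := by
        intro h; apply hne; rw [h]; simp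
      have hu' : a u' ≠ 0 := by
        intro h; apply hne; rw [h]; simp
      obtain ⟨k, hk, rfl⟩ := hW u hu
      obtain ⟨k', hk', rfl⟩ := hW u' hu'
      have h3 : k * a' = k' * b' := by
        have h4 : u₀ * (k * a') = u₀ * (k' * b') := by linear_combination huu
        exact mul_left_cancel₀ hu₀ h4
      have hk1 : IsConj (z ^ k.val) z := (Finset.mem_filter.mp hk).2
      have hk1' : IsConj (z ^ k'.val) z := (Finset.mem_filter.mp hk').2
      have c1 : IsConj (z ^ (k * a').val) (z ^ a'.val) := by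
        rw [s1b_pow_mul p z hzp]; exact hconjpow _ _ _ hk1
      have c2 : IsConj (z ^ (k' * b').val) (z ^ b'.val) := by
        rw [s1b_pow_mul p z hzp]; exact hconjpow _ _ _ hk1'
      rw [h3] at c1
      exact hnc (c1.symm.trans c2)
    have hsum0 : ∀ u : ZMod p, ∑ t : ZMod p, ζ ^ (u * t).val = if u = 0 then (p : ℂ) else 0 := by
      intro u
      have h1 : ∀ t : ZMod p, ζ ^ (u * t).val =
          (AddChar.zmodChar p hζ.pow_eq_one) (t * u) := by
        intro t
        rw [AddChar.zmodChar_apply, mul_comm]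
      rw [Finset.sum_congr rfl (fun t _ => h1 t),
        AddChar.sum_mulShift u (AddChar.zmodChar_primitive_of_primitive_root p hζ), ZMod.card]
      split_ifs <;> simp
    have he_conj : ∀ w : ZMod p, conj (ζ ^ w.val) = ζ ^ (-w).val := by
      intro w
      have h1 : ζ ^ (-w).val * ζ ^ w.val = 1 := by
        rw [← s1b_pow_add p ζ hζp, neg_add_cancel, ZMod.val_zero, pow_zero]
      have h2 : conj (ζ ^ w.val) * ζ ^ w.val = 1 := by
        rw [mul_comm, Complex.mul_conj, Complex.normSq_eq_norm_sq, norm_pow, hζn]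
        simp
      have hne : ζ ^ w.val ≠ 0 := by
        intro h; rw [h, mul_zero] at h1; exact zero_ne_one h1
      exact mul_right_cancel₀ hne (h2.trans h1.symm)
    have hterm : ∀ t : ZMod p, χ (z ^ (a' * t).val) * conj (χ (z ^ (b' * t).val)) =
        ∑ u : ZMod p, ∑ u' : ZMod p,
          (a u : ℂ) * (a u' : ℂ) * ζ ^ ((u * a' - u' * b') * t).val := by
      intro t
      rw [ha, ha, map_sum, Finset.sum_mul_sum]
      refine Finset.sum_congr rfl fun u _ => Finset.sum_congr rfl fun u' _ => ?_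
      rw [map_mul, Complex.conj_natCast, he_conj]
      have h5 : (u * a' - u' * b') * t = u * (a' * t) + -(u' * (b' * t)) := by ring
      rw [h5, s1b_pow_add p ζ hζp]
      ring
    rw [Finset.sum_congr rfl (fun t _ => hterm t), Finset.sum_comm]
    refine Finset.sum_eq_zero fun u _ => ?_
    rw [Finset.sum_comm]
    refine Finset.sum_eq_zero fun u' _ => ?_
    rw [← Finset.mul_sum, hsum0]
    split_ifs with h
    · rw [key u u' (sub_eq_zero.mp h), zero_mul]
    · rw [mul_zero]

end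

end Cfsg.Agent.Lib.Helper67.BFT
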