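import Mathlib
import Cfsg.Agent.Lib.Helper44.ESDefs

/-!
# ES-S1 (piece of S5877): two of the elements `hh g x k` do not commute

Abstract group theory: the commutator pairing on `H` with values in the central subgroup `Z`, and a
polarisation argument.
-/

set_option autoImplicit false

namespace Cfsg.Agent.Lib.Helper44.ES

section ESS1

variable {G : Type*} [Group G] {H Z : Subgroup G} {r : ℕ}

/-- The commutator pairing `a b a⁻¹ b⁻¹`. -/
private def ess1_cm (a b : G) : G := a * b * a⁻¹ * b⁻¹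

private theorem ess1_cm_mem (hB : Base H Z r) {a b : G} (ha : a ∈ H) (hb : b ∈ H) :
    ess1_cm a b ∈ Z := hB.comm_mem a ha b hb

private theorem ess1_cm_self (a : G) : ess1_cm a a = 1 := by unfold ess1_cm; group

private theorem ess1_cm_one_left (a : G) : ess1_cm 1 a = 1 := by unfold ess1_cm; group

private theorem ess1_cm_inv (a b : G) : (ess1_cm a b)⁻¹ = ess1_cm b a := by unfold ess1_cm; group

private theorem ess1_cm_eq_one_iff (a b : G) : ess1_cm a b = 1 ↔ a * b = b * a := by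
  unfold ess1_cm
  constructor
  · intro h
    calc a * b = (a * b * a⁻¹ * b⁻¹) * (b * a) := by group
      _ = b * a := by rw [h, one_mul]
  · intro h
    calc a * b * a⁻¹ * b⁻¹ = (a * b) * a⁻¹ * b⁻¹ := by group
      _ = 1 := by rw [h]; group

private theorem ess1_cm_mul_left (hB : Base H Z r) {a b c : G} (hb : b ∈ H) (hc : c ∈ H) :
    ess1_cm (a * b) c = ess1_cm a c * ess1_cm b c := by
  have h := hB.central _ (ess1_cm_mem hB hb hc)
  have h1 : ess1_cm (a * b) c = a * ess1_cm b c * (c * a⁻¹ * c⁻¹) := by unfold ess1_cm; group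
  have h2 : a * (c * a⁻¹ * c⁻¹) = ess1_cm a c := by unfold ess1_cm; group
  rw [h1, ← h a, mul_assoc, h, h2]

private theorem ess1_cm_mul_right (hB : Base H Z r) {a b c : G} (ha : a ∈ H) (hc : c ∈ H) :
    ess1_cm a (b * c) = ess1_cm a b * ess1_cm a c := by
  have h := hB.central _ (ess1_cm_mem hB ha hc)
  have h1 : ess1_cm a (b * c) = a * b * a⁻¹ * (ess1_cm a c * b⁻¹) := by unfold ess1_cm; group
  rw [h1, h, ← mul_assoc]
  rfl

private theorem ess1_cm_conj (hB : Base H Z r) {a b : G} (ha : a ∈ H) (hb : b ∈ H) (u : G) :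
    ess1_cm (u * a * u⁻¹) (u * b * u⁻¹) = ess1_cm a b := by
  have h := hB.central _ (ess1_cm_mem hB ha hb) u⁻¹
  have h1 : ess1_cm (u * a * u⁻¹) (u * b * u⁻¹) = u * (ess1_cm a b * u⁻¹) := by
    unfold ess1_cm; group
  rw [h1, h, mul_inv_cancel_left]

private theorem ess1_cm_inv_left (hB : Base H Z r) {a b : G} (ha : a ∈ H) (hb : b ∈ H) :
    ess1_cm a⁻¹ b = (ess1_cm a b)⁻¹ := by
  have h := ess1_cm_mul_left hB (a := a⁻¹) ha hb
  rw [inv_mul_cancel, ess1_cm_one_left] at h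
  exact eq_inv_of_mul_eq_one_left h.symm

private theorem ess1_cm_inv_right (hB : Base H Z r) {a b : G} (ha : a ∈ H) (hb : b ∈ H) :
    ess1_cm a b⁻¹ = (ess1_cm a b)⁻¹ := by
  rw [← ess1_cm_inv b⁻¹ a, ess1_cm_inv_left hB hb ha, ess1_cm_inv b a]

private theorem ess1_conj_pow_mem {g : G} (hS : Setup H Z g r) {a : G} (ha : a ∈ H) (k : ℕ) :
    g ^ k * a * (g ^ k)⁻¹ ∈ H := by
  induction k with
  | zero => simpa using ha
  | succ k ih =>
    have e : g ^ (k + 1) * a * (g ^ (k + 1))⁻¹ = g * (g ^ k * a * (g ^ k)⁻¹) * g⁻¹ := by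
      group
    rw [e]; exact hS.norm _ ih

end ESS1

theorem es_s1 {G : Type*} [Group G] (H Z : Subgroup G) (g : G) (r ϖ : ℕ) (hS : Setup H Z g r)
    (hodd : Odd ϖ) (hcop : Nat.Coprime ϖ r) (hg : g ^ ϖ = 1) :
    ∃ x ∈ H, ∃ k : ℕ, ∃ s ∈ Z, s ≠ 1 ∧ hh g x 1 * hh g x k = s * (hh g x k * hh g x 1) := by
  have hB := hS.base
  by_contra hcon
  push Not at hcon
  have hP : ∀ x ∈ H, ∀ k : ℕ, g ^ k * x * (g ^ k)⁻¹ ∈ H :=
    fun x hx k => ess1_conj_pow_mem hS hx k
  have hhm : ∀ x ∈ H, ∀ k : ℕ, hh g x k ∈ H :=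
    fun x hx k => H.mul_mem (H.inv_mem hx) (hP x hx k)
  -- Step A: all the `hh g x k` commute with `hh g x 1`
  have hA : ∀ x ∈ H, ∀ k : ℕ, ess1_cm (hh g x 1) (hh g x k) = 1 := by
    intro x hx k
    by_contra hne
    exact hcon x hx k _ (ess1_cm_mem hB (hhm x hx 1) (hhm x hx k)) hne
      (by unfold ess1_cm; group)
  -- Step B: `f k = f 1 ^ k` for `f k = <x, γ^k x>`
  have hBk : ∀ x ∈ H, ∀ k : ℕ,
      ess1_cm x (g ^ k * x * (g ^ k)⁻¹) = (ess1_cm x (g * x * g⁻¹)) ^ k := by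
    intro x hx k
    induction k with
    | zero => simp [ess1_cm_self]
    | succ k ih =>
      have h1 := hA x hx (k + 1)
      have hx' : x⁻¹ ∈ H := H.inv_mem hx
      have hP1 : g * x * g⁻¹ ∈ H := hS.norm x hx
      have e1 : hh g x 1 = x⁻¹ * (g * x * g⁻¹) := by simp [hh]
      have e2 : hh g x (k + 1) = x⁻¹ * (g * (g ^ k * x * (g ^ k)⁻¹) * g⁻¹) := by
        unfold hh; group
      have hPk := hP x hx k
      have hPk1 : g * (g ^ k * x * (g ^ k)⁻¹) * g⁻¹ ∈ H := hS.norm _ hPk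
      rw [e1, e2, ess1_cm_mul_left hB hP1 (H.mul_mem hx' hPk1),
        ess1_cm_mul_right hB hx' hPk1, ess1_cm_mul_right hB hP1 hPk1, ess1_cm_self,
        ess1_cm_inv_left hB hx hPk1, ess1_cm_inv_right hB hP1 hx,
        ess1_cm_inv (g * x * g⁻¹) x, ess1_cm_conj hB hx hPk g, one_mul, ih] at h1
      have e3 : g ^ (k + 1) * x * (g ^ (k + 1))⁻¹ = g * (g ^ k * x * (g ^ k)⁻¹) * g⁻¹ := by
        group
      rw [e3, pow_succ']
      exact inv_mul_eq_one.mp h1
  -- Step C: `<x, γ x> = 1`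
  have hC : ∀ x ∈ H, ess1_cm x (g * x * g⁻¹) = 1 := by
    intro x hx
    have h1 := hBk x hx ϖ
    rw [hg] at h1
    simp only [one_mul, inv_one, mul_one, ess1_cm_self] at h1
    have h2 : (ess1_cm x (g * x * g⁻¹)) ^ r = 1 := hB.comm_pow x hx _ (hS.norm x hx)
    have h3 : orderOf (ess1_cm x (g * x * g⁻¹)) ∣ Nat.gcd ϖ r :=
      Nat.dvd_gcd (orderOf_dvd_of_pow_eq_one h1.symm) (orderOf_dvd_of_pow_eq_one h2)
    rw [Nat.Coprime.gcd_eq_one hcop, Nat.dvd_one, orderOf_eq_one_iff] at h3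
    exact h3
  -- Step D: polarisation
  have hD : ∀ x ∈ H, ∀ y ∈ H, ess1_cm x (g * y * g⁻¹) * ess1_cm y (g * x * g⁻¹) = 1 := by
    intro x hx y hy
    have h1 := hC (x * y) (H.mul_mem hx hy)
    have e : g * (x * y) * g⁻¹ = (g * x * g⁻¹) * (g * y * g⁻¹) := by group
    have hX := hS.norm x hx
    have hY := hS.norm y hy
    rw [e, ess1_cm_mul_left hB hy (H.mul_mem hX hY), ess1_cm_mul_right hB hx hY,
      ess1_cm_mul_right hB hy hY, hC x hx, hC y hy, one_mul, mul_one] at h1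
    exact h1
  have hD2 : ∀ x ∈ H, ∀ y ∈ H, ess1_cm x (g * (g * y * g⁻¹) * g⁻¹) = ess1_cm x y := by
    intro x hx y hy
    have h1 := hD x hx (g * y * g⁻¹) (hS.norm y hy)
    rw [ess1_cm_conj hB hy hx g, ← ess1_cm_inv x y] at h1
    exact mul_inv_eq_one.mp h1
  have hD3 : ∀ y ∈ H, g * (g * y * g⁻¹) * g⁻¹ * y⁻¹ ∈ Z := by
    intro y hy
    apply hB.cent
    intro x hx
    have h1 : ess1_cm x (g * (g * y * g⁻¹) * g⁻¹ * y⁻¹) = 1 := by
      rw [ess1_cm_mul_right hB hx (H.inv_mem hy), hD2 x hx y hy, ess1_cm_inv_right hB hx hy,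
        mul_inv_cancel]
    exact ((ess1_cm_eq_one_iff _ _).mp h1).symm
  -- Step E: `γ` is trivial on `H`
  have hE : ∀ y ∈ H, g * y = y * g := by
    intro y hy
    have hsZ : g * (g * y * g⁻¹) * g⁻¹ * y⁻¹ ∈ Z := hD3 y hy
    generalize hs : g * (g * y * g⁻¹) * g⁻¹ * y⁻¹ = s at hsZ
    have hsy : g * (g * y * g⁻¹) * g⁻¹ = s * y := by rw [← hs]; group
    have hpow : ∀ m : ℕ, g ^ (2 * m) * y * (g ^ (2 * m))⁻¹ = s ^ m * y := by
      intro m
      induction m with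
      | zero => simp
      | succ m ih =>
        have e : g ^ (2 * (m + 1)) * y * (g ^ (2 * (m + 1)))⁻¹
            = g * (g * (g ^ (2 * m) * y * (g ^ (2 * m))⁻¹) * g⁻¹) * g⁻¹ := by
          rw [show 2 * (m + 1) = 2 + 2 * m by ring, pow_add, pow_two]; group
        have hz := hB.central _ (Z.pow_mem hsZ m)
        rw [e, ih]
        calc g * (g * (s ^ m * y) * g⁻¹) * g⁻¹ = g * g * s ^ m * (y * g⁻¹ * g⁻¹) := by group
          _ = s ^ m * (g * g) * (y * g⁻¹ * g⁻¹) := by rw [← hz (g * g)]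
          _ = s ^ m * (g * (g * y * g⁻¹) * g⁻¹) := by group
          _ = s ^ (m + 1) * y := by rw [hsy, ← mul_assoc, ← pow_succ]
    obtain ⟨m, hm⟩ := hodd
    have h1 := hpow (m + 1)
    have e : g ^ (2 * (m + 1)) = g := by
      rw [show 2 * (m + 1) = ϖ + 1 by omega, pow_succ, hg, one_mul]
    rw [e] at h1
    have hz := hB.central _ (Z.pow_mem hsZ (m + 1)) y
    rw [hz] at h1
    have h2 := hS.notI y hy _ (Z.pow_mem hsZ (m + 1)) h1
    rw [h2, mul_one] at h1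
    calc g * y = g * y * g⁻¹ * g := by group
      _ = y * g := by rw [h1]
  obtain ⟨x, hx, hne⟩ := hS.nontriv
  exact hne (hE x hx)

end Cfsg.Agent.Lib.Helper44.ES
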