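import Mathlib
import Cfsg.Agent.Lib.Helper67.ExtraRep

/-! Representations of a Frobenius group `K ⋊ ⟨x⟩` (`x` of prime order, `K` nilpotent) in
coprime characteristic: if the fixed vectors of `x` are pairwise dependent, then the derived
subgroup of `K` acts trivially (helper67). -/

set_option autoImplicit false

namespace Cfsg.Agent.Lib.Helper67

open Module
open Cfsg.Agent.Lib.Helper17

universe u v w

section FrobRep

variable {k : Type w} [Field k] {A : Type v} [AddCommGroup A] [Module k A]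
  {Γ : Type u} [Group Γ] [Finite Γ]

/-- Maschke: an invariant subspace of an invariant subspace has an invariant complement. -/
theorem exists_inv_compl (ρ : Γ →* Module.End k A) (L : Subgroup Γ)
    (hLk : (Nat.card L : k) ≠ 0) (W B : Submodule k A)
    (hW : ∀ g ∈ L, ∀ w ∈ W, ρ g w ∈ W) (hB : ∀ g ∈ L, ∀ w ∈ B, ρ g w ∈ B) (hBW : B ≤ W) :
    ∃ B' : Submodule k A, (∀ g ∈ L, ∀ w ∈ B', ρ g w ∈ B') ∧ B' ≤ W ∧ B ⊓ B' = ⊥ ∧
      B ⊔ B' = W := by
  classical
  obtain ⟨π₀, hπ₀⟩ :=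
    LinearMap.exists_leftInverse_of_injective B.subtype (Submodule.ker_subtype B)
  set π : Module.End k A := B.subtype.comp π₀ with hπ
  have hπB : ∀ a, π a ∈ B := fun a => (π₀ a).2
  have hπid : ∀ b ∈ B, π b = b := by
    intro b hb
    have h1 := congrArg (fun f : B →ₗ[k] B => ((f ⟨b, hb⟩ : B) : A)) hπ₀
    simpa [hπ] using h1
  set P : Module.End k A := (Nat.card L : k)⁻¹ • ∑ g ∈ hhQs L, ρ g * π * ρ g⁻¹ with hP
  have hPB : ∀ a, P a ∈ B := by
    intro a
    rw [hP, LinearMap.smul_apply, LinearMap.sum_apply]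
    apply B.smul_mem
    apply B.sum_mem
    intro g hg
    rw [hh_mem_Qs] at hg
    exact hB g hg _ (hπB _)
  have hPid : ∀ b ∈ B, P b = b := by
    intro b hb
    rw [hP, LinearMap.smul_apply, LinearMap.sum_apply]
    have h1 : ∀ g ∈ hhQs L, (ρ g * π * ρ g⁻¹) b = b := by
      intro g hg
      rw [hh_mem_Qs] at hg
      rw [Module.End.mul_apply, Module.End.mul_apply, hπid _ (hB g⁻¹ (L.inv_mem hg) b hb),
        ← Module.End.mul_apply, ← map_mul, mul_inv_cancel, map_one, Module.End.one_apply]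
    rw [Finset.sum_congr rfl h1, Finset.sum_const, hh_card_Qs, ← Nat.cast_smul_eq_nsmul k,
      smul_smul, inv_mul_cancel₀ hLk, one_smul]
  have hPc : ∀ h ∈ L, ρ h * P = P * ρ h := by
    intro h hh
    rw [hP, mul_smul_comm, smul_mul_assoc, Finset.mul_sum, Finset.sum_mul]
    congr 1
    refine Finset.sum_nbij' (fun g => h * g) (fun g => h⁻¹ * g) ?_ ?_ ?_ ?_ ?_
    · intro g hg; rw [hh_mem_Qs] at hg ⊢; exact L.mul_mem hh hg
    · intro g hg; rw [hh_mem_Qs] at hg ⊢; exact L.mul_mem (L.inv_mem hh) hg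
    · intro g _; group
    · intro g _; group
    · intro g _
      rw [mul_inv_rev, map_mul, map_mul]
      simp only [mul_assoc]
      rw [← map_mul ρ h⁻¹ h, inv_mul_cancel, map_one, mul_one]
  refine ⟨W ⊓ LinearMap.ker P, ?_, inf_le_left, ?_, ?_⟩
  · intro g hg w hw
    refine ⟨hW g hg w hw.1, ?_⟩
    show P (ρ g w) = 0
    have h1 : P (ρ g w) = (P * ρ g) w := rfl
    rw [h1, ← hPc g hg, Module.End.mul_apply, show P w = 0 from hw.2, map_zero]
  · rw [eq_bot_iff]
    intro b hb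
    have h1 : P b = 0 := hb.2.2
    rw [hPid b hb.1] at h1
    rw [Submodule.mem_bot]; exact h1
  · apply le_antisymm
    · exact sup_le hBW inf_le_left
    · intro w hw
      have h1 : w = P w + (w - P w) := by abel
      rw [h1]
      apply Submodule.add_mem_sup (hPB w)
      refine ⟨W.sub_mem hw (hBW (hPB w)), ?_⟩
      show P (w - P w) = 0
      rw [map_sub, hPid _ (hPB w), sub_self]

omit [Finite Γ] in
/-- in a nilpotent subgroup `K`, a subgroup `M` not containing `K` has an element of `K`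
outside `M` that is central modulo `M` -/
theorem exists_central_mod_nil (K M : Subgroup Γ) (hnil : Group.IsNilpotent K)
    (hKM : ¬ K ≤ M) : ∃ z ∈ K, z ∉ M ∧ ∀ g ∈ K, z * g * z⁻¹ * g⁻¹ ∈ M := by
  classical
  obtain ⟨n, hn⟩ := (Subgroup.isNilpotent_iff_lowerCentralSeries K).1 hnil
  have hex : ∃ n, K.lowerCentralSeries n ≤ M := ⟨n, by rw [hn]; exact bot_le⟩
  have hmin := @Nat.find_min _ _ hex
  have hspec := Nat.find_spec hex
  have h0 : Nat.find hex ≠ 0 := by
    intro h0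
    rw [h0, Subgroup.lowerCentralSeries_zero] at hspec
    exact hKM hspec
  obtain ⟨m, hm⟩ := Nat.exists_eq_succ_of_ne_zero h0
  have hm' : ¬ K.lowerCentralSeries m ≤ M := hmin (by omega)
  obtain ⟨z, hz, hzM⟩ := SetLike.not_le_iff_exists.1 hm'
  refine ⟨z, Subgroup.lowerCentralSeries_le_self K m hz, hzM, ?_⟩
  intro g hg
  apply hspec
  rw [hm, Subgroup.lowerCentralSeries_succ]
  exact Subgroup.commutator_mem_commutator hz hg

/-- invariance of a subspace under `K` and `x` -/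
def FInv (ρ : Γ →* Module.End k A) (K : Subgroup Γ) (x : Γ) (W : Submodule k A) : Prop :=
  (∀ g ∈ K, ∀ w ∈ W, ρ g w ∈ W) ∧ ∀ w ∈ W, ρ x w ∈ W

/-- **Irreducible case.** -/
theorem frob_irr [IsAlgClosed k] [FiniteDimensional k A] (ρ : Γ →* Module.End k A)
    (K : Subgroup Γ) (x : Γ) (r : ℕ)
    (hr : r.Prime) (hxr : x ^ r = 1) (hxK : ∀ g ∈ K, x * g * x⁻¹ ∈ K)
    (hfpf : ∀ i : ℕ, ¬ r ∣ i → ∀ g ∈ K, x ^ i * g = g * x ^ i → g = 1)
    (hnil : Group.IsNilpotent K)
    (W : Submodule k A) (hW : FInv ρ K x W) (hW0 : W ≠ ⊥)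
    (hmin : ∀ B : Submodule k A, FInv ρ K x B → B ≤ W → B = ⊥ ∨ B = W)
    (hfix : ∀ v ∈ W, ∀ w ∈ W, ρ x v = v → ρ x w = w →
      ∃ a b : k, (a ≠ 0 ∨ b ≠ 0) ∧ a • v + b • w = 0) :
    ∀ g ∈ K, ∀ g' ∈ K, ∀ w ∈ W, ρ (g * g' * g⁻¹ * g'⁻¹) w = w := by
  classical
  have hρinv : ∀ g : Γ, ρ g * ρ g⁻¹ = 1 := fun g => by rw [← map_mul, mul_inv_cancel, map_one]
  have hρinv' : ∀ g : Γ, ρ g⁻¹ * ρ g = 1 := fun g => by rw [← map_mul, inv_mul_cancel, map_one]
  have hxinv : ∀ i : ℕ, (x ^ i)⁻¹ = x ^ ((r - 1) * i) := by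
    intro i
    have e : (r - 1) * i + i = r * i := by
      have h1 := hr.pos
      obtain ⟨r', rfl⟩ : ∃ r', r = r' + 1 := ⟨r - 1, by omega⟩
      simp only [Nat.add_sub_cancel]; ring
    rw [inv_eq_iff_mul_eq_one, ← pow_add, add_comm, e, pow_mul, hxr, one_pow]
  have hxKpow : ∀ i : ℕ, ∀ g ∈ K, x ^ i * g * (x ^ i)⁻¹ ∈ K := by
    intro i
    induction i with
    | zero => intro g hg; simpa using hg
    | succ i ih =>
      intro g hg
      have e : x ^ (i + 1) * g * (x ^ (i + 1))⁻¹ = x * (x ^ i * g * (x ^ i)⁻¹) * x⁻¹ := by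
        rw [pow_succ']; group
      rw [e]; exact hxK _ (ih g hg)
  have hxKpow' : ∀ i : ℕ, ∀ g ∈ K, (x ^ i)⁻¹ * g * x ^ i ∈ K := by
    intro i g hg
    have h1 := hxKpow ((r - 1) * i) g hg
    rw [← hxinv i, inv_inv] at h1
    exact h1
  have hWxpow : ∀ i : ℕ, ∀ w ∈ W, ρ (x ^ i) w ∈ W := by
    intro i
    induction i with
    | zero => intro w hw; simpa using hw
    | succ i ih =>
      intro w hw
      rw [pow_succ, map_mul, Module.End.mul_apply]
      exact ih _ (hW.2 w hw)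
  -- the kernel of `K` on `W`
  let N : Subgroup Γ :=
    { carrier := {g | g ∈ K ∧ ∀ w ∈ W, ρ g w = w}
      mul_mem' := by
        rintro a b ⟨ha, ha'⟩ ⟨hb, hb'⟩
        exact ⟨K.mul_mem ha hb, fun w hw => by
          rw [map_mul, Module.End.mul_apply, hb' w hw, ha' w hw]⟩
      one_mem' := ⟨K.one_mem, fun w _ => by simp⟩
      inv_mem' := by
        rintro a ⟨ha, ha'⟩
        refine ⟨K.inv_mem ha, fun w hw => ?_⟩
        have h1 : ρ a⁻¹ (ρ a w) = w := by
          rw [← Module.End.mul_apply, hρinv', Module.End.one_apply]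
        rwa [ha' w hw] at h1 }
  have hNmem : ∀ g, g ∈ N ↔ g ∈ K ∧ ∀ w ∈ W, ρ g w = w := fun g => Iff.rfl
  by_cases hKN : K ≤ N
  · intro g hg g' hg' w hw
    exact (hKN (K.mul_mem (K.mul_mem (K.mul_mem hg hg') (K.inv_mem hg)) (K.inv_mem hg'))).2 w hw
  obtain ⟨z₀, hz₀K, hz₀N, hz₀c⟩ := exists_central_mod_nil K N hnil hKN
  let Zt : Γ → Prop := fun z => z ∈ K ∧ ∀ g ∈ K, z * g * z⁻¹ * g⁻¹ ∈ N
  have hNx : ∀ i : ℕ, ∀ n ∈ N, (x ^ i)⁻¹ * n * x ^ i ∈ N := by
    intro i n hn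
    refine ⟨hxKpow' i n hn.1, fun w hw => ?_⟩
    rw [map_mul, map_mul, Module.End.mul_apply, Module.End.mul_apply, hn.2 _ (hWxpow i w hw),
      ← Module.End.mul_apply, hρinv', Module.End.one_apply]
  have hZtx : ∀ i : ℕ, ∀ z, Zt z → Zt ((x ^ i)⁻¹ * z * x ^ i) := by
    intro i z hz
    refine ⟨hxKpow' i z hz.1, fun g hg => ?_⟩
    have e : (x ^ i)⁻¹ * z * x ^ i * g * ((x ^ i)⁻¹ * z * x ^ i)⁻¹ * g⁻¹
        = (x ^ i)⁻¹ * (z * (x ^ i * g * (x ^ i)⁻¹) * z⁻¹ * (x ^ i * g * (x ^ i)⁻¹)⁻¹) * x ^ i := by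
      group
    rw [e]
    exact hNx i _ (hz.2 _ (hxKpow i g hg))
  -- a minimal `K`-invariant subspace
  let SS : Set (Submodule k A) := {S | S ≠ ⊥ ∧ S ≤ W ∧ ∀ g ∈ K, ∀ s ∈ S, ρ g s ∈ S}
  have hSSne : SS.Nonempty := ⟨W, hW0, le_rfl, hW.1⟩
  obtain ⟨S, ⟨hS0, hSW, hSK⟩, hSmin⟩ :=
    WellFounded.has_min (wellFounded_lt (α := Submodule k A)) SS hSSne
  haveI : Nontrivial S := Submodule.nontrivial_iff_ne_bot.2 hS0
  obtain ⟨s₀, hs₀S, hs₀0⟩ := (Submodule.ne_bot_iff S).1 hS0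
  -- Schur on `S`
  have hschur : ∀ z, Zt z → ∃ κ : k, ∀ s ∈ S, ρ z s = κ • s := by
    intro z hz
    let ρS := restrictHom ρ K S hSK
    have hirrS : ∀ T : Submodule k S,
        (∀ g ∈ (⊤ : Subgroup K), Submodule.map (ρS g) T ≤ T) → T = ⊥ ∨ T = ⊤ := by
      intro T hT
      by_cases hT0 : T = ⊥
      · exact Or.inl hT0
      · right
        have hmem : T.map S.subtype ∈ SS := by
          refine ⟨?_, ?_, ?_⟩
          · obtain ⟨t, ht, ht0⟩ := (Submodule.ne_bot_iff T).1 hT0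
            intro hc
            have h1 : (t : A) ∈ T.map S.subtype := ⟨t, ht, rfl⟩
            rw [hc, Submodule.mem_bot] at h1
            exact ht0 (Subtype.ext h1)
          · rintro v ⟨t, _, rfl⟩; exact hSW t.2
          · rintro g hg v ⟨t, ht, rfl⟩
            exact ⟨ρS ⟨g, hg⟩ t, hT ⟨g, hg⟩ (Subgroup.mem_top _) (Submodule.mem_map_of_mem ht),
              rfl⟩
        have hEq : T.map S.subtype = S :=
          eq_of_le_of_not_lt (Submodule.map_subtype_le S T) (hSmin _ hmem)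
        rw [eq_top_iff]
        intro u _
        have h1 : (u : A) ∈ T.map S.subtype := by rw [hEq]; exact u.2
        obtain ⟨t, ht, htu⟩ := h1
        have h2 : t = u := Subtype.ext htu
        rw [← h2]; exact ht
    have hcomm : ∀ g ∈ (⊤ : Subgroup K),
        (ρ z).restrict (hSK z hz.1) * ρS g = ρS g * (ρ z).restrict (hSK z hz.1) := by
      intro g _
      apply LinearMap.ext; intro s; apply Subtype.ext
      show ρ z (ρ (g : Γ) (s : A)) = ρ (g : Γ) (ρ z (s : A))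
      have hc := (hz.2 (g : Γ) g.2).2 (ρ (g : Γ) (ρ z (s : A)))
        (hSW (hSK _ g.2 _ (hSK z hz.1 _ s.2)))
      rw [← Module.End.mul_apply, ← Module.End.mul_apply, ← map_mul, ← map_mul] at hc
      have e : z * (g : Γ) * z⁻¹ * (g : Γ)⁻¹ * (g : Γ) * z = z * (g : Γ) := by group
      rw [e, map_mul, Module.End.mul_apply] at hc
      rw [hc, ← Module.End.mul_apply, ← map_mul]
    obtain ⟨κ, hκ⟩ := hh_schurQ ρS ⊤ hirrS ((ρ z).restrict (hSK z hz.1)) hcomm
    refine ⟨κ, fun s hs => ?_⟩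
    have h1 := congrArg (fun T : Module.End k S => ((T ⟨s, hs⟩ : S) : A)) hκ
    simpa using h1
  have hsc : ∀ z, Zt z → ∀ i : ℕ, ∃ κ : k, ∀ s ∈ S, ρ z (ρ (x ^ i) s) = κ • ρ (x ^ i) s := by
    intro z hz i
    obtain ⟨κ, hκ⟩ := hschur _ (hZtx i z hz)
    refine ⟨κ, fun s hs => ?_⟩
    have h1 := hκ s hs
    have e : z * x ^ i = x ^ i * ((x ^ i)⁻¹ * z * x ^ i) := by group
    rw [← Module.End.mul_apply, ← map_mul, e, map_mul, Module.End.mul_apply, h1, map_smul]
  choose! χ hχ using hsc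
  -- `W` is spanned by the translates of `S`
  set T : Submodule k A := Submodule.span k {v | ∃ i : ℕ, ∃ s ∈ S, v = ρ (x ^ i) s} with hT
  have hTW : T = W := by
    have hTle : T ≤ W := by
      rw [hT, Submodule.span_le]
      rintro v ⟨i, s, hs, rfl⟩
      exact hWxpow i s (hSW hs)
    have hTinv : FInv ρ K x T := by
      constructor
      · intro g hg
        have h1 : T ≤ T.comap (ρ g) := by
          rw [hT, Submodule.span_le]
          rintro v ⟨i, s, hs, rfl⟩
          show ρ g (ρ (x ^ i) s) ∈ Submodule.span k {v | ∃ i : ℕ, ∃ s ∈ S, v = ρ (x ^ i) s}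
          apply Submodule.subset_span
          refine ⟨i, ρ ((x ^ i)⁻¹ * g * x ^ i) s, hSK _ (hxKpow' i g hg) s hs, ?_⟩
          rw [← Module.End.mul_apply, ← Module.End.mul_apply, ← map_mul, ← map_mul]
          congr 2; group
        exact fun w hw => h1 hw
      · have h1 : T ≤ T.comap (ρ x) := by
          rw [hT, Submodule.span_le]
          rintro v ⟨i, s, hs, rfl⟩
          show ρ x (ρ (x ^ i) s) ∈ Submodule.span k {v | ∃ i : ℕ, ∃ s ∈ S, v = ρ (x ^ i) s}
          apply Submodule.subset_span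
          refine ⟨i + 1, s, hs, ?_⟩
          rw [← Module.End.mul_apply, ← map_mul, pow_succ']
        exact fun w hw => h1 hw
    rcases hmin T hTinv hTle with h1 | h1
    · exfalso
      have h2 : s₀ ∈ T := Submodule.subset_span ⟨0, s₀, hs₀S, by simp⟩
      rw [h1, Submodule.mem_bot] at h2
      exact hs₀0 h2
    · exact h1
  have hfixT : ∀ c : Γ, (∀ e : ℕ, ∀ s ∈ S, ρ c (ρ (x ^ e) s) = ρ (x ^ e) s) →
      ∀ w ∈ W, ρ c w = w := by
    intro c hc w hw
    rw [← hTW, hT] at hw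
    induction hw using Submodule.span_induction with
    | mem v hv =>
      obtain ⟨i, s, hs, rfl⟩ := hv
      exact hc i s hs
    | zero => simp
    | add a b _ _ ha hb => rw [map_add, ha, hb]
    | smul t a _ ha => rw [map_smul, ha]
  by_cases hA : ∃ i j : ℕ, i < j ∧ j < r ∧ ∀ z, Zt z → χ z i = χ z j
  · -- equal weights: contradiction
    exfalso
    obtain ⟨i, j, hij, hjr, hAeq⟩ := hA
    obtain ⟨d, rfl⟩ := Nat.exists_eq_add_of_lt hij
    have hd : ¬ r ∣ (d + 1) := by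
      intro hc
      have := Nat.le_of_dvd (by omega) hc
      omega
    -- `z` and its conjugate agree on `x ^ i • S`
    have hagree : ∀ z, Zt z → ∀ s ∈ S,
        ρ (z⁻¹ * ((x ^ (d + 1))⁻¹ * z * x ^ (d + 1))) (ρ (x ^ i) s) = ρ (x ^ i) s := by
      intro z hz s hs
      have hz'' := hZtx (d + 1) z hz
      have h1 : χ z (i + d + 1) = χ ((x ^ (d + 1))⁻¹ * z * x ^ (d + 1)) i := by
        have h2 := hχ z hz (i + d + 1) s₀ hs₀S
        have h3 := hχ _ hz'' i s₀ hs₀S
        have e : z * x ^ (i + d + 1)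
            = x ^ (d + 1) * (((x ^ (d + 1))⁻¹ * z * x ^ (d + 1)) * x ^ i) := by
          rw [show i + d + 1 = (d + 1) + i by ring, pow_add]; group
        have h4 : ρ z (ρ (x ^ (i + d + 1)) s₀)
            = χ ((x ^ (d + 1))⁻¹ * z * x ^ (d + 1)) i • ρ (x ^ (i + d + 1)) s₀ := by
          rw [← Module.End.mul_apply, ← map_mul, e, map_mul, Module.End.mul_apply, map_mul,
            Module.End.mul_apply, h3, map_smul, ← Module.End.mul_apply, ← map_mul, ← pow_add,
            show (d + 1) + i = i + d + 1 by ring]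
        rw [h2] at h4
        have h5 : (χ z (i + d + 1) - χ ((x ^ (d + 1))⁻¹ * z * x ^ (d + 1)) i)
            • ρ (x ^ (i + d + 1)) s₀ = 0 := by rw [sub_smul, h4, sub_self]
        rcases smul_eq_zero.1 h5 with h6 | h6
        · exact sub_eq_zero.1 h6
        · exfalso
          apply hs₀0
          have h7 : ρ (x ^ (i + d + 1))⁻¹ (ρ (x ^ (i + d + 1)) s₀) = s₀ := by
            rw [← Module.End.mul_apply, hρinv', Module.End.one_apply]
          rw [h6, map_zero] at h7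
          exact h7.symm
      have h8 : ρ ((x ^ (d + 1))⁻¹ * z * x ^ (d + 1)) (ρ (x ^ i) s) = ρ z (ρ (x ^ i) s) := by
        rw [hχ _ hz'' i s hs, hχ z hz i s hs, ← h1, hAeq z hz]
      rw [map_mul, Module.End.mul_apply, h8, ← Module.End.mul_apply, hρinv',
        Module.End.one_apply]
    have hcz : ∀ z, Zt z → z⁻¹ * ((x ^ (d + 1))⁻¹ * z * x ^ (d + 1)) ∈ N := by
      intro z hz
      refine ⟨K.mul_mem (K.inv_mem hz.1) (hxKpow' (d + 1) z hz.1), ?_⟩
      apply hfixT
      intro e s hs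
      -- `x ^ e = x ^ e' * x ^ i`
      have he : x ^ e = x ^ (e + (r - 1) * i) * x ^ i := by
        rw [pow_add, ← hxinv i]; group
      have hz' := hZtx (e + (r - 1) * i) z hz
      have h1 := hagree _ hz' s hs
      have e2 : z⁻¹ * ((x ^ (d + 1))⁻¹ * z * x ^ (d + 1)) * x ^ (e + (r - 1) * i)
          = x ^ (e + (r - 1) * i) * (((x ^ (e + (r - 1) * i))⁻¹ * z * x ^ (e + (r - 1) * i))⁻¹ *
            ((x ^ (d + 1))⁻¹ * ((x ^ (e + (r - 1) * i))⁻¹ * z * x ^ (e + (r - 1) * i))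
              * x ^ (d + 1))) := by
        group
      have h2 : ρ (x ^ e) s = ρ (x ^ (e + (r - 1) * i)) (ρ (x ^ i) s) := by
        rw [he, map_mul, Module.End.mul_apply]
      rw [h2]
      have h3 : ρ (z⁻¹ * ((x ^ (d + 1))⁻¹ * z * x ^ (d + 1)))
            (ρ (x ^ (e + (r - 1) * i)) (ρ (x ^ i) s))
          = ρ (x ^ (e + (r - 1) * i))
            (ρ (((x ^ (e + (r - 1) * i))⁻¹ * z * x ^ (e + (r - 1) * i))⁻¹ *
              ((x ^ (d + 1))⁻¹ * ((x ^ (e + (r - 1) * i))⁻¹ * z * x ^ (e + (r - 1) * i))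
                * x ^ (d + 1))) (ρ (x ^ i) s)) := by
        have h4 : ρ (z⁻¹ * ((x ^ (d + 1))⁻¹ * z * x ^ (d + 1))) * ρ (x ^ (e + (r - 1) * i))
            = ρ (x ^ (e + (r - 1) * i)) *
              ρ (((x ^ (e + (r - 1) * i))⁻¹ * z * x ^ (e + (r - 1) * i))⁻¹ *
                ((x ^ (d + 1))⁻¹ * ((x ^ (e + (r - 1) * i))⁻¹ * z * x ^ (e + (r - 1) * i))
                  * x ^ (d + 1))) := by
          rw [← map_mul, ← map_mul, e2]
        rw [← Module.End.mul_apply, h4, Module.End.mul_apply]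
      rw [h3, h1]
    -- the Lang map
    have hinj : ∀ g ∈ K, ∀ g' ∈ K,
        g⁻¹ * ((x ^ (d + 1))⁻¹ * g * x ^ (d + 1)) = g'⁻¹ * ((x ^ (d + 1))⁻¹ * g' * x ^ (d + 1)) →
        g = g' := by
      intro g hg g' hg' heq
      have h1 : x ^ (d + 1) * (g' * g⁻¹) = (g' * g⁻¹) * x ^ (d + 1) := by
        have e1 : x ^ (d + 1) * (g' * g⁻¹)
            = x ^ (d + 1) * g' * (g⁻¹ * ((x ^ (d + 1))⁻¹ * g * x ^ (d + 1)))
              * ((x ^ (d + 1))⁻¹ * g⁻¹ * x ^ (d + 1)) := by group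
        rw [e1, heq]; group
      have h2 := hfpf (d + 1) hd (g' * g⁻¹) (K.mul_mem hg' (K.inv_mem hg)) h1
      exact (mul_inv_eq_one.1 h2).symm
    let φ : N → N := fun n =>
      ⟨(n : Γ)⁻¹ * ((x ^ (d + 1))⁻¹ * (n : Γ) * x ^ (d + 1)),
        N.mul_mem (N.inv_mem n.2) (hNx (d + 1) n n.2)⟩
    have hφinj : Function.Injective φ := by
      intro a b hab
      exact Subtype.ext (hinj a a.2.1 b b.2.1 (congrArg Subtype.val hab))
    have hφsurj : Function.Surjective φ := Finite.injective_iff_surjective.1 hφinj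
    have hz₀t : Zt z₀ := ⟨hz₀K, hz₀c⟩
    obtain ⟨n, hn⟩ := hφsurj ⟨_, hcz z₀ hz₀t⟩
    have h1 := hinj n n.2.1 z₀ hz₀K (congrArg Subtype.val hn)
    exact hz₀N (h1 ▸ n.2)
  · -- distinct weights
    push Not at hA
    have hind : ∀ m : ℕ, m ≤ r → ∀ u : ℕ → A, (∀ i, ∃ s ∈ S, u i = ρ (x ^ i) s) →
        ∑ i ∈ Finset.range m, u i = 0 → ∀ i < m, u i = 0 := by
      intro m
      induction m with
      | zero => intro _ u _ _ i hi; omega
      | succ m ih =>
        intro hm u hu hsum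
        have hlow : ∀ i₀ < m, u i₀ = 0 := by
          intro i₀ hi₀
          obtain ⟨z, hz, hne⟩ := hA i₀ m hi₀ (by omega)
          have hu' : ∀ i, ∃ s ∈ S, (χ z i - χ z m) • u i = ρ (x ^ i) s := by
            intro i
            obtain ⟨s, hs, hus⟩ := hu i
            exact ⟨(χ z i - χ z m) • s, S.smul_mem _ hs, by rw [hus, map_smul]⟩
          have hsum' : ∑ i ∈ Finset.range m, (χ z i - χ z m) • u i = 0 := by
            have h1 : ρ z (∑ i ∈ Finset.range (m + 1), u i)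
                - χ z m • ∑ i ∈ Finset.range (m + 1), u i = 0 := by
              rw [hsum, map_zero, smul_zero, sub_zero]
            rw [map_sum, Finset.smul_sum, ← Finset.sum_sub_distrib] at h1
            have h2 : ∀ i ∈ Finset.range (m + 1), ρ z (u i) - χ z m • u i
                = (χ z i - χ z m) • u i := by
              intro i _
              obtain ⟨s, hs, hus⟩ := hu i
              rw [hus, hχ z hz i s hs, sub_smul]
            rw [Finset.sum_congr rfl h2, Finset.sum_range_succ, sub_self, zero_smul, add_zero]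
              at h1
            exact h1
          have h3 := ih (by omega) _ hu' hsum' i₀ hi₀
          rcases smul_eq_zero.1 h3 with h4 | h4
          · exact absurd (sub_eq_zero.1 h4) hne
          · exact h4
        intro i hi
        rcases Nat.lt_succ_iff_lt_or_eq.1 hi with h1 | h1
        · exact hlow i h1
        · rw [Finset.sum_range_succ, Finset.sum_eq_zero (fun i hi => hlow i (Finset.mem_range.1 hi)),
            zero_add] at hsum
          rw [h1]; exact hsum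
    have hΦinj : ∀ s ∈ S, ∑ i ∈ Finset.range r, ρ (x ^ i) s = 0 → s = 0 := by
      intro s hs hsum
      have h1 := hind r le_rfl (fun i => ρ (x ^ i) s) (fun i => ⟨s, hs, rfl⟩) hsum 0 hr.pos
      simpa using h1
    have hΦfix : ∀ s : A, ρ x (∑ i ∈ Finset.range r, ρ (x ^ i) s)
        = ∑ i ∈ Finset.range r, ρ (x ^ i) s := by
      intro s
      rw [map_sum]
      have e : ∀ i ∈ Finset.range r, ρ x (ρ (x ^ i) s) = ρ (x ^ (i + 1)) s := by
        intro i _
        rw [← Module.End.mul_apply, ← map_mul, pow_succ']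
      rw [Finset.sum_congr rfl e]
      have h3 := Finset.sum_range_succ' (fun i => ρ (x ^ i) s) r
      have h4 := Finset.sum_range_succ (fun i => ρ (x ^ i) s) r
      rw [h4] at h3
      simp only [hxr, pow_zero] at h3
      exact (add_right_cancel h3).symm
    have hΦW : ∀ s ∈ S, ∑ i ∈ Finset.range r, ρ (x ^ i) s ∈ W :=
      fun s hs => W.sum_mem (fun i _ => hWxpow i s (hSW hs))
    have hdep : ∀ s ∈ S, ∀ s' ∈ S, ∃ a b : k, (a ≠ 0 ∨ b ≠ 0) ∧ a • s + b • s' = 0 := by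
      intro s hs s' hs'
      obtain ⟨a, b, hab, h1⟩ := hfix _ (hΦW s hs) _ (hΦW s' hs') (hΦfix s) (hΦfix s')
      refine ⟨a, b, hab, ?_⟩
      apply hΦinj _ (S.add_mem (S.smul_mem a hs) (S.smul_mem b hs'))
      rw [← h1, Finset.smul_sum, Finset.smul_sum, ← Finset.sum_add_distrib]
      refine Finset.sum_congr rfl (fun i _ => ?_)
      rw [map_add, map_smul, map_smul]
    have heig : ∀ g ∈ K, ∀ s ∈ S, ∃ c : k, ρ g s = c • s := by
      intro g hg s hs
      by_cases hs0 : s = 0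
      · exact ⟨0, by rw [hs0, map_zero, smul_zero]⟩
      · obtain ⟨a, b, hab, h1⟩ := hdep _ (hSK g hg s hs) s hs
        have ha : a ≠ 0 := by
          intro ha
          rw [ha, zero_smul, zero_add] at h1
          rcases smul_eq_zero.1 h1 with h2 | h2
          · rcases hab with h3 | h3
            · exact h3 ha
            · exact h3 h2
          · exact hs0 h2
        refine ⟨-(a⁻¹ * b), ?_⟩
        have h2 : a • ρ g s = -(b • s) := eq_neg_of_add_eq_zero_left h1
        calc ρ g s = a⁻¹ • (a • ρ g s) := by rw [smul_smul, inv_mul_cancel₀ ha, one_smul]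
          _ = -(a⁻¹ * b) • s := by rw [h2, smul_neg, smul_smul, neg_smul]
    have hcomS : ∀ g ∈ K, ∀ g' ∈ K, ∀ s ∈ S, ρ (g * g') s = ρ (g' * g) s := by
      intro g hg g' hg' s hs
      obtain ⟨c, hc⟩ := heig g hg s hs
      obtain ⟨c', hc'⟩ := heig g' hg' s hs
      rw [map_mul, map_mul, Module.End.mul_apply, Module.End.mul_apply, hc, hc', map_smul,
        map_smul, hc, hc', smul_smul, smul_smul, mul_comm]
    have hcommS : ∀ g ∈ K, ∀ g' ∈ K, ∀ s ∈ S, ρ (g * g' * g⁻¹ * g'⁻¹) s = s := by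
      intro g hg g' hg' s hs
      have ht : ρ (g' * g)⁻¹ s ∈ S := hSK _ (K.inv_mem (K.mul_mem hg' hg)) s hs
      have e : g * g' * g⁻¹ * g'⁻¹ = (g * g') * (g' * g)⁻¹ := by group
      rw [e, map_mul, Module.End.mul_apply, hcomS g hg g' hg' _ ht, ← Module.End.mul_apply,
        hρinv, Module.End.one_apply]
    intro g hg g' hg' w hw
    apply hfixT _ _ w hw
    intro e s hs
    have e1 : g * g' * g⁻¹ * g'⁻¹ * x ^ e
        = x ^ e * (((x ^ e)⁻¹ * g * x ^ e) * ((x ^ e)⁻¹ * g' * x ^ e)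
          * ((x ^ e)⁻¹ * g * x ^ e)⁻¹ * ((x ^ e)⁻¹ * g' * x ^ e)⁻¹) := by group
    rw [← Module.End.mul_apply, ← map_mul, e1, map_mul, Module.End.mul_apply,
      hcommS _ (hxKpow' e g hg) _ (hxKpow' e g' hg') s hs]

/-- **Main theorem.** If the fixed vectors of `x` in the invariant subspace `W` are pairwise
dependent, the derived subgroup of `K` acts trivially on `W`. -/
theorem frob_comm_trivial [IsAlgClosed k] [FiniteDimensional k A] (ρ : Γ →* Module.End k A)
    (K : Subgroup Γ) (x : Γ) (r : ℕ)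
    (hr : r.Prime) (hxr : x ^ r = 1) (hxK : ∀ g ∈ K, x * g * x⁻¹ ∈ K)
    (hfpf : ∀ i : ℕ, ¬ r ∣ i → ∀ g ∈ K, x ^ i * g = g * x ^ i → g = 1)
    (hnil : Group.IsNilpotent K)
    (hKk : (Nat.card K : k) ≠ 0) (hrk : (r : k) ≠ 0)
    (W : Submodule k A) (hW : FInv ρ K x W)
    (hfix : ∀ v ∈ W, ∀ w ∈ W, ρ x v = v → ρ x w = w →
      ∃ a b : k, (a ≠ 0 ∨ b ≠ 0) ∧ a • v + b • w = 0) :
    ∀ g ∈ K, ∀ g' ∈ K, ∀ w ∈ W, ρ (g * g' * g⁻¹ * g'⁻¹) w = w := by
  classical
  have hLk : (Nat.card ↥(K ⊔ Subgroup.zpowers x) : k) ≠ 0 := by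
    obtain ⟨m, hm⟩ := card_sup_zpowers_dvd K x r hxK hxr
    intro h0
    have h1 : ((Nat.card K * r : ℕ) : k) = 0 := by
      rw [hm, Nat.cast_mul, h0, zero_mul]
    rw [Nat.cast_mul] at h1
    exact (mul_ne_zero hKk hrk) h1
  have hKL : K ≤ K ⊔ Subgroup.zpowers x := le_sup_left
  have hxL : x ∈ K ⊔ Subgroup.zpowers x :=
    (le_sup_right : Subgroup.zpowers x ≤ K ⊔ Subgroup.zpowers x) (Subgroup.mem_zpowers x)
  have key : ∀ n : ℕ, ∀ W : Submodule k A, finrank k W = n → FInv ρ K x W →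
      (∀ v ∈ W, ∀ w ∈ W, ρ x v = v → ρ x w = w →
        ∃ a b : k, (a ≠ 0 ∨ b ≠ 0) ∧ a • v + b • w = 0) →
      ∀ g ∈ K, ∀ g' ∈ K, ∀ w ∈ W, ρ (g * g' * g⁻¹ * g'⁻¹) w = w := by
    intro n
    induction n using Nat.strong_induction_on with
    | _ n ih =>
      intro W hn hW hfix
      by_cases hirr : ∀ B : Submodule k A, FInv ρ K x B → B ≤ W → B = ⊥ ∨ B = W
      · by_cases hW0 : W = ⊥
        · intro g _ g' _ w hw
          rw [hW0, Submodule.mem_bot] at hw
          rw [hw, map_zero]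
        · exact frob_irr ρ K x r hr hxr hxK hfpf hnil W hW hW0 hirr hfix
      · push Not at hirr
        obtain ⟨B, hB, hBW, hB0, hBne⟩ := hirr
        obtain ⟨B', hB'inv, hB'W, hinf, hsup⟩ := exists_inv_compl ρ (K ⊔ Subgroup.zpowers x) hLk W B
          (inv_of_sup ρ K x W hW.1 hW.2) (inv_of_sup ρ K x B hB.1 hB.2) hBW
        have hB' : FInv ρ K x B' := ⟨fun g hg => hB'inv g (hKL hg), hB'inv x hxL⟩
        have hB'ne : B' ≠ W := by
          intro hc
          apply hB0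
          rw [← hinf, hc]
          exact (inf_eq_left.2 hBW).symm
        have h1 : finrank k B < n := by
          rw [← hn]; exact Submodule.finrank_lt_finrank_of_lt (lt_of_le_of_ne hBW hBne)
        have h2 : finrank k B' < n := by
          rw [← hn]; exact Submodule.finrank_lt_finrank_of_lt (lt_of_le_of_ne hB'W hB'ne)
        have ihB := ih _ h1 B rfl hB
          (fun v hv w hw => hfix v (hBW hv) w (hBW hw))
        have ihB' := ih _ h2 B' rfl hB'
          (fun v hv w hw => hfix v (hB'W hv) w (hB'W hw))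
        intro g hg g' hg' w hw
        rw [← hsup] at hw
        obtain ⟨b, hb, b', hb', rfl⟩ := Submodule.mem_sup.1 hw
        rw [map_add, ihB g hg g' hg' b hb, ihB' g hg g' hg' b' hb']
  exact key _ W rfl hW hfix

end FrobRep

end Cfsg.Agent.Lib.Helper67
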