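import Mathlib
import Cfsg.Agent.Lib.Helper78.JQDefs
import Cfsg.Agent.Lib.Helper55.Subn

/-! Project JQ (S2945, helper78), piece RNK (helper67): `O₂(X)` normalizes a subnormal subgroup
generated by elements of odd order, and contains its normal 2-subgroups. -/

set_option autoImplicit false

namespace Cfsg.Agent.Lib.Helper67.JQ

open Cfsg.Agent.Lib.Helper78.JQ Cfsg.Agent.Lib.Helper78.Jc

universe u

theorem rnk_conj_mem {X : Type u} [Group X] (K : Subgroup X) (hK : K.IsSubnormal)
    (hcl : Subgroup.closure {g : X | g ∈ K ∧ Odd (orderOf g)} = K) (r : X)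
    (hr : r ∈ Cfsg.pCore 2 X) : ∀ k ∈ K, r * k * r⁻¹ ∈ K := by
  haveI : (Cfsg.pCore 2 X).Normal := Cfsg.Agent.Lib.Helper55.pCore_normal
  have hR2 : IsPGroup 2 (Cfsg.pCore 2 X) := Cfsg.Agent.Lib.Helper55.pCore_isPGroup
  have hle : Subgroup.closure {g : X | g ∈ K ∧ Odd (orderOf g)} ≤
      K.comap (MulAut.conj r).toMonoidHom := by
    rw [Subgroup.closure_le]
    rintro g ⟨hgK, hodd⟩
    have hord : orderOf (r * g * r⁻¹) = orderOf g := by
      have := orderOf_injective (MulAut.conj r).toMonoidHom (MulAut.conj r).injective g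
      simpa using this
    have hcop : (orderOf (r * g * r⁻¹)).Coprime 2 := by
      rw [hord]; exact Nat.coprime_two_right.2 hodd
    have hmem : r * g * r⁻¹ ∈ Cfsg.pCore 2 X ⊔ K :=
      Subgroup.mul_mem _ (Subgroup.mul_mem _ (Subgroup.mem_sup_left hr)
        (Subgroup.mem_sup_right hgK)) (Subgroup.inv_mem _ (Subgroup.mem_sup_left hr))
    have := Cfsg.Agent.Lib.Helper55.subnormal_mem_of_coprime hR2 hK _ hcop hmem
    simpa using this
  intro k hk
  have hk' : k ∈ Subgroup.closure {g : X | g ∈ K ∧ Odd (orderOf g)} := by rw [hcl]; exact hk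
  have := hle hk'
  simpa using this

theorem rnk : RnkStmt.{u} := by
  intro X _ _ K O hK hcl hOK hKO hO2
  refine ⟨?_, ?_⟩
  · intro r hr
    rw [Subgroup.mem_normalizer_iff]
    intro h
    constructor
    · exact rnk_conj_mem K hK hcl r hr h
    · intro hh
      have := rnk_conj_mem K hK hcl r⁻¹ (Subgroup.inv_mem _ hr) _ hh
      have e : r⁻¹ * (r * h * r⁻¹) * r⁻¹⁻¹ = h := by group
      rwa [e] at this
  · have hN : (O.subgroupOf K).Normal :=
      (Subgroup.normal_subgroupOf_iff_le_normalizer hOK).2 hKO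
    have hOs : O.IsSubnormal := Subgroup.IsSubnormal.step O K hOK hK hN
    exact Cfsg.Agent.Lib.Helper55.subnormal_pgroup_le_pCore hOs hO2

end Cfsg.Agent.Lib.Helper67.JQ
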