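import Mathlib
import Cfsg.Agent.Lib.Helper72.JRDefs

/-! Project JR (S2950, helper72), piece L1X (helper67): the abstract form of the key lemma; the
first of two `J`-components normalizes the four-group `W` of the second. -/

set_option autoImplicit false

namespace Cfsg.Agent.Lib.Helper67.JR

open Cfsg.Agent.Lib.Helper72.JR Cfsg.Agent.Lib.Helper72.JP Cfsg.Agent.Lib.Helper72.JM
  Cfsg.Agent.Lib.Helper72.JL Cfsg.Agent.Lib.Helper72.SC Cfsg.Agent.Lib.Helper78.Jc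

open scoped commutatorElement

universe u

/-- a four-element subgroup containing `a ≠ 1` and normalized by a fixed-point-free `y` with
`y ^ 3 = 1` consists of `1, a, y a y⁻¹, y⁻¹ a y` -/
theorem l1x_four {X : Type u} [Group X] (W : Subgroup X) (hW4 : Nat.card ↥W = 4) (y a : X)
    (hy3 : y ^ 3 = 1) (ha : a ∈ W) (ha1 : a ≠ 1) (hb : y * a * y⁻¹ ∈ W) (hc : y⁻¹ * a * y ∈ W)
    (hfpf : y * a * y⁻¹ = a → a = 1) :
    ∀ w ∈ W, w = 1 ∨ w = a ∨ w = y * a * y⁻¹ ∨ w = y⁻¹ * a * y := by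
  classical
  have hyy : y * y = y⁻¹ := by
    have h : y * y * y = 1 := by rw [← hy3, pow_succ, pow_two]
    exact eq_inv_of_mul_eq_one_left h
  have hab : a ≠ y * a * y⁻¹ := fun h => ha1 (hfpf h.symm)
  have hac : a ≠ y⁻¹ * a * y := by
    intro h
    apply hab
    calc a = y * (y⁻¹ * a * y) * y⁻¹ := by group
      _ = y * a * y⁻¹ := by rw [← h]
  have hbc : y * a * y⁻¹ ≠ y⁻¹ * a * y := by
    intro h
    apply hac
    calc a = y * (y⁻¹ * a * y) * y⁻¹ := by group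
      _ = y * (y * a * y⁻¹) * y⁻¹ := by rw [← h]
      _ = (y * y) * a * (y * y)⁻¹ := by group
      _ = y⁻¹ * a * y := by rw [hyy, inv_inv]
  have h1b : (1 : X) ≠ y * a * y⁻¹ := by
    intro h
    apply ha1
    calc a = y⁻¹ * (y * a * y⁻¹) * y := by group
      _ = 1 := by rw [← h]; group
  have h1c : (1 : X) ≠ y⁻¹ * a * y := by
    intro h
    apply ha1
    calc a = y * (y⁻¹ * a * y) * y⁻¹ := by group
      _ = 1 := by rw [← h]; group
  have hcard : ({1, a, y * a * y⁻¹, y⁻¹ * a * y} : Finset X).card = 4 := by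
    rw [Finset.card_insert_of_notMem, Finset.card_insert_of_notMem,
      Finset.card_insert_of_notMem, Finset.card_singleton]
    · simp [hbc]
    · simp [hab, hac]
    · simp [Ne.symm ha1, h1b, h1c]
  have hsub : ((({1, a, y * a * y⁻¹, y⁻¹ * a * y} : Finset X) : Set X)) ⊆ (W : Set X) := by
    intro z hz
    simp only [Finset.coe_insert, Finset.coe_singleton, Set.mem_insert_iff,
      Set.mem_singleton_iff] at hz
    rcases hz with rfl | rfl | rfl | rfl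
    · exact W.one_mem
    · exact ha
    · exact hb
    · exact hc
  have hWn : (W : Set X).ncard = 4 := (Nat.card_coe_set_eq (W : Set X)).symm.trans hW4
  have hWfin : (W : Set X).Finite := Set.finite_of_ncard_ne_zero (by rw [hWn]; norm_num)
  have heq := Set.eq_of_subset_of_ncard_le hsub (by rw [Set.ncard_coe_finset, hcard, hWn]) hWfin
  intro w hw
  have hw' : w ∈ ((({1, a, y * a * y⁻¹, y⁻¹ * a * y} : Finset X) : Set X)) := by
    rw [heq]; exact hw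
  simpa only [Finset.coe_insert, Finset.coe_singleton, Set.mem_insert_iff,
    Set.mem_singleton_iff] using hw'

theorem l1x (hVab : VabStmt.{u}) (hO2 : O2Stmt.{u}) (hPs : PsStmt.{u}) (hExt2 : Ext2Stmt.{u})
    (hKn : KnStmt.{u}) (hCt : CtStmt.{u}) (hC2 : C2Stmt.{u})
    (hVw : Cfsg.Agent.Lib.Helper78.JN.VwStmt.{u}) : L1XStmt.{u} := by
  intro X _ _ T hS 𝒮 K₁ K₂ O W h𝒮 hK1J hK1odd hK2J hK2odd hQK hOK hKO hO2' hidx hP hW4 hu
    hnorm hfpf x hx w hw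
  obtain ⟨hVQ, hVc, hV2, hQT, hQV⟩ := hVab X T hS
  have hab : ∀ a b : ↥(VT T), a * b = b * a := fun a b => Subtype.ext (hVc a a.2 b b.2)
  have hexp : ∀ v : ↥(VT T), v ^ 2 = 1 := fun v => by
    apply Subtype.ext
    rw [pow_two]
    exact hV2 v v.2
  obtain ⟨N, hNle, hNnorm, hN3, hNsq, hNab⟩ :=
    hExt2 ↥(VT T) (rhoT T).range hab hexp (hPs X T hS) (hO2 X T hS)
  have hK1N := hKn X T hS N hNsq 𝒮 K₁ h𝒮 hK1J hK1odd
  have hK2N := hKn X T hS N hNsq 𝒮 K₂ h𝒮 hK2J hK2odd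
  obtain ⟨hQker, hCT⟩ := hCt X T hS
  have hQ2 : IsPGroup 2 ↥(Cfsg.pCore 2 X) :=
    Sylow.sSup_of_normal _ (fun _ hK => hK.2) (fun _ hK => hK.1)
  have hJT : sSup 𝒮 ≤ T := sSup_le (fun A hA => (h𝒮 A hA).1)
  -- (1) `O ≤ Q`
  have hOQ : O ≤ Cfsg.pCore 2 X := by
    intro o ho
    obtain ⟨n, hn⟩ := hO2' ⟨o, ho⟩
    have hn' : o ^ 2 ^ n = 1 := by simpa using congrArg Subtype.val hn
    exact hC2 X T hS N hN3 o (hK2N ⟨o, hOK ho, rfl⟩) ⟨n, hn'⟩
  have hOV : ∀ o ∈ O, ∀ v ∈ VT T, o * v = v * o := fun o ho v hv => hQV o (hOQ ho) v hv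
  -- (2) an element `y` of odd order of `K₂` acting nontrivially on `V`
  have hex : ∃ g : X, g ∈ K₂ ∧ Odd (orderOf g) ∧ g ∉ (rhoT T).ker := by
    by_contra hcon
    push Not at hcon
    have h1 : K₂ ≤ (rhoT T).ker := by
      rw [← hK2odd, Subgroup.closure_le]
      rintro g ⟨hg, hodd⟩
      exact hcon g hg hodd
    have h2 : K₂ ≤ Cfsg.pCore 2 X := by
      rw [← hK2J, Subgroup.commutator_le]
      intro k hk j hj
      exact hCT k (h1 hk) j (hJT hj)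
    have h3 : K₂ ≤ O := hP K₂ le_rfl (hQ2.to_le h2)
    have h4 : O.relIndex K₂ = 1 := Subgroup.relIndex_eq_one.2 h3
    omega
  obtain ⟨y, hyK, hyodd, hyker⟩ := hex
  have hyO : y ∉ O := fun h => hyker (hQker (hOQ h))
  have hy3O : y ^ 3 ∈ O := by
    haveI hOn : (O.subgroupOf K₂).Normal :=
      (Subgroup.normal_subgroupOf_iff_le_normalizer hOK).2 hKO
    have h1 := Subgroup.pow_index_mem (O.subgroupOf K₂) (⟨y, hyK⟩ : ↥K₂)
    have h2 : (O.subgroupOf K₂).index = 3 := hidx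
    rw [h2, Subgroup.mem_subgroupOf] at h1
    simpa using h1
  have hy3 : y ^ 3 = 1 := by
    obtain ⟨n, hn⟩ := hO2' ⟨y ^ 3, hy3O⟩
    have hn' : (y ^ 3) ^ 2 ^ n = 1 := by simpa using congrArg Subtype.val hn
    rw [← pow_mul] at hn'
    have h1 : orderOf y ∣ 3 * 2 ^ n := orderOf_dvd_of_pow_eq_one hn'
    have h2 : (orderOf y).Coprime (2 ^ n) :=
      Nat.Coprime.pow_right n (Nat.coprime_two_right.2 hyodd)
    exact orderOf_dvd_iff_pow_eq_one.1 (Nat.Coprime.dvd_of_dvd_mul_right h2 h1)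
  -- (3) `[V, y] ≤ W`
  have hVy : ∀ v ∈ VT T, v⁻¹ * (y * v * y⁻¹) ∈ W :=
    hVw X (VT T) (Cfsg.pCore 2 X) K₂ O W y inferInstance hVc hV2 hVQ hQK hP hOV hyK hy3 hu
  -- (4) a nontrivial commutator
  have hv0 : ∃ v₀ ∈ VT T, v₀⁻¹ * (y * v₀ * y⁻¹) ≠ 1 := by
    by_contra hcon
    push Not at hcon
    apply hyker
    rw [MonoidHom.mem_ker]
    apply MulEquiv.ext
    intro v
    apply Subtype.ext
    have h1 := hcon v.1 v.2
    have h2 : y * (v : X) * y⁻¹ = (v : X) := by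
      calc y * (v : X) * y⁻¹ = (v : X) * ((v : X)⁻¹ * (y * (v : X) * y⁻¹)) := by group
        _ = (v : X) := by rw [h1, mul_one]
    exact h2
  obtain ⟨v₀, hv₀, hw₀⟩ := hv0
  have hVn : (VT T).Normal := inferInstance
  -- (5) every element of `W` is a commutator
  have hall : ∀ w ∈ W, ∃ v ∈ VT T, w = v⁻¹ * (y * v * y⁻¹) := by
    have hbW := hnorm y hyK _ (hVy v₀ hv₀)
    have hcW := hnorm y⁻¹ (K₂.inv_mem hyK) _ (hVy v₀ hv₀)
    rw [inv_inv] at hcW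
    have h4 := l1x_four W hW4 y (v₀⁻¹ * (y * v₀ * y⁻¹)) hy3 (hVy v₀ hv₀) hw₀ hbW hcW
      (hfpf y hyK hyO _ (hVy v₀ hv₀))
    intro w hw
    rcases h4 w hw with h | h | h | h
    · exact ⟨1, (VT T).one_mem, by rw [h]; group⟩
    · exact ⟨v₀, hv₀, h⟩
    · exact ⟨y * v₀ * y⁻¹, hVn.conj_mem v₀ hv₀ y, by rw [h]; group⟩
    · refine ⟨y⁻¹ * v₀ * y, ?_, by rw [h]; group⟩
      have := hVn.conj_mem v₀ hv₀ y⁻¹
      rwa [inv_inv] at this
  -- (6) the conclusion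
  obtain ⟨v, hv, rfl⟩ := hall w hw
  have hv' : x * v * x⁻¹ ∈ VT T := hVn.conj_mem v hv x
  have hρx : rhoT T x ∈ N := hK1N ⟨x, hx, rfl⟩
  have hρy : rhoT T y ∈ N := hK2N ⟨y, hyK, rfl⟩
  have hρ : rhoT T (x * y * x⁻¹) = rhoT T y := by
    rw [map_mul, map_mul, map_inv, hNab _ hρx _ hρy, mul_inv_cancel_right]
  have h1 : rhoT T (x * y * x⁻¹) ⟨x * v * x⁻¹, hv'⟩ = rhoT T y ⟨x * v * x⁻¹, hv'⟩ := by
    rw [hρ]
  have h2 : (x * y * x⁻¹) * (x * v * x⁻¹) * (x * y * x⁻¹)⁻¹ = y * (x * v * x⁻¹) * y⁻¹ :=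
    congrArg Subtype.val h1
  have h3 : x * (v⁻¹ * (y * v * y⁻¹)) * x⁻¹ =
      (x * v * x⁻¹)⁻¹ * ((x * y * x⁻¹) * (x * v * x⁻¹) * (x * y * x⁻¹)⁻¹) := by group
  rw [h3, h2]
  exact hVy _ hv'

end Cfsg.Agent.Lib.Helper67.JR
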