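import Mathlib
import Cfsg.Agent.Lib.Helper80.PrimSolDefs
import Cfsg.Agent.Lib.Helper86.PSFPFB

/-!
# S5876 piece FPFC (for helper80): a non-identity element of an abelian normal subgroup of an
irreducible primitive linear group has no non-zero fixed vector
-/

set_option autoImplicit false
open Cfsg

namespace Cfsg.Agent.Lib.Helper67

open Matrix Cfsg.Agent.Lib.Helper80

section FPFC

variable {F : Type*} [Field F] {n : ℕ}

/-- the stabiliser of a vector -/
def psStab (v : Fin n → F) : Subgroup (GL (Fin n) F) where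
  carrier := {b | ((b : GL (Fin n) F) : Matrix (Fin n) (Fin n) F) *ᵥ v = v}
  mul_mem' := by
    intro x y hx hy
    have hx' : ((x : GL (Fin n) F) : Matrix (Fin n) (Fin n) F) *ᵥ v = v := hx
    have hy' : ((y : GL (Fin n) F) : Matrix (Fin n) (Fin n) F) *ᵥ v = v := hy
    show ((x * y : GL (Fin n) F) : Matrix (Fin n) (Fin n) F) *ᵥ v = v
    rw [Units.val_mul, ← Matrix.mulVec_mulVec, hy', hx']
  one_mem' := by
    show ((1 : GL (Fin n) F) : Matrix (Fin n) (Fin n) F) *ᵥ v = v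
    rw [Units.val_one, Matrix.one_mulVec]
  inv_mem' := by
    intro x hx
    have hx' : ((x : GL (Fin n) F) : Matrix (Fin n) (Fin n) F) *ᵥ v = v := hx
    show ((x⁻¹ : GL (Fin n) F) : Matrix (Fin n) (Fin n) F) *ᵥ v = v
    calc ((x⁻¹ : GL (Fin n) F) : Matrix (Fin n) (Fin n) F) *ᵥ v
        = ((x⁻¹ : GL (Fin n) F) : Matrix (Fin n) (Fin n) F) *ᵥ
            (((x : GL (Fin n) F) : Matrix (Fin n) (Fin n) F) *ᵥ v) := by rw [hx']
      _ = v := by
        rw [Matrix.mulVec_mulVec, ← Units.val_mul, inv_mul_cancel, Units.val_one,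
          Matrix.one_mulVec]

theorem mem_psStab {v : Fin n → F} {b : GL (Fin n) F} :
    b ∈ psStab v ↔ ((b : GL (Fin n) F) : Matrix (Fin n) (Fin n) F) *ᵥ v = v := Iff.rfl

theorem mem_fixSp_iff_le {B : Subgroup (GL (Fin n) F)} {v : Fin n → F} :
    v ∈ fixSp B ↔ B ≤ psStab v := by
  rw [mem_fixSp]; rfl

/-- the conjugate `g B g⁻¹` -/
def psCj (B : Subgroup (GL (Fin n) F)) (g : GL (Fin n) F) : Subgroup (GL (Fin n) F) :=
  B.map (MulAut.conj g).toMonoidHom

theorem fixSp_psCj (B : Subgroup (GL (Fin n) F)) (g : GL (Fin n) F) :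
    fixSp (psCj B g) =
      (fixSp B).map (Matrix.toLin' ((g : GL (Fin n) F) : Matrix (Fin n) (Fin n) F)) :=
  (fixSp_map B g).symm

theorem mem_psCj {B : Subgroup (GL (Fin n) F)} {g x : GL (Fin n) F} :
    x ∈ psCj B g ↔ ∃ b ∈ B, g * b * g⁻¹ = x := by
  unfold psCj
  rw [Subgroup.mem_map]
  rfl

theorem psCj_one (B : Subgroup (GL (Fin n) F)) : psCj B 1 = B := by
  ext x
  rw [mem_psCj]
  constructor
  · rintro ⟨b, hb, rfl⟩
    simpa using hb
  · intro hx
    exact ⟨x, hx, by simp⟩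

theorem psCj_mul (B : Subgroup (GL (Fin n) F)) (g h : GL (Fin n) F) :
    psCj (psCj B h) g = psCj B (g * h) := by
  ext x
  rw [mem_psCj, mem_psCj]
  constructor
  · rintro ⟨c, hc, rfl⟩
    obtain ⟨b, hb, rfl⟩ := mem_psCj.mp hc
    exact ⟨b, hb, by group⟩
  · rintro ⟨b, hb, rfl⟩
    exact ⟨h * b * h⁻¹, mem_psCj.mpr ⟨b, hb, rfl⟩, by group⟩

theorem card_psCj (B : Subgroup (GL (Fin n) F)) (g : GL (Fin n) F) :
    Nat.card (psCj B g) = Nat.card B :=
  Subgroup.card_map_of_injective (MulAut.conj g).injective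

theorem finrank_map_GL (g : GL (Fin n) F) (W : Submodule F (Fin n → F)) :
    Module.finrank F (W.map (Matrix.toLin' ((g : GL (Fin n) F) : Matrix (Fin n) (Fin n) F))) =
      Module.finrank F W := by
  have hinj : Function.Injective
      (Matrix.toLin' ((g : GL (Fin n) F) : Matrix (Fin n) (Fin n) F)) := by
    apply Function.LeftInverse.injective
      (g := Matrix.toLin' ((g⁻¹ : GL (Fin n) F) : Matrix (Fin n) (Fin n) F))
    intro v
    rw [Matrix.toLin'_apply, Matrix.toLin'_apply, Matrix.mulVec_mulVec, ← Units.val_mul,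
      inv_mul_cancel, Units.val_one, Matrix.one_mulVec]
  exact (LinearEquiv.finrank_eq (Submodule.equivMapOfInjective _ hinj W)).symm

/-- maximality of `B`: elements of `A` outside `B` fix no non-zero vector of `fixSp B` -/
theorem fpfc_max {A B : Subgroup (GL (Fin n) F)} {a : GL (Fin n) F}
    (hBmax : Maximal (fun C : Subgroup (GL (Fin n) F) => C ≤ A ∧ a ∈ C ∧ fixSp C ≠ ⊥) B)
    (b : GL (Fin n) F) (hb : b ∈ A) (hbB : b ∉ B) (v : Fin n → F) (hv : v ∈ fixSp B)
    (hbv : ((b : GL (Fin n) F) : Matrix (Fin n) (Fin n) F) *ᵥ v = v) : v = 0 := by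
  by_contra hv0
  have h1 : B ⊔ Subgroup.zpowers b ≤ psStab v :=
    sup_le (mem_fixSp_iff_le.mp hv) (by rw [Subgroup.zpowers_le]; exact hbv)
  have h2 : fixSp (B ⊔ Subgroup.zpowers b) ≠ ⊥ := by
    intro e
    have h3 : v ∈ fixSp (B ⊔ Subgroup.zpowers b) := mem_fixSp_iff_le.mpr h1
    rw [e, Submodule.mem_bot] at h3
    exact hv0 h3
  have h3 : B ⊔ Subgroup.zpowers b ≤ B :=
    hBmax.2 ⟨sup_le hBmax.1.1 (by rw [Subgroup.zpowers_le]; exact hb),
      Subgroup.mem_sup_left hBmax.1.2.1, h2⟩ le_sup_left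
  exact hbB (h3 (Subgroup.mem_sup_right (Subgroup.mem_zpowers b)))

end FPFC

/-- PIECE FPFC -/
theorem eigenspace_one_eq_bot_of_abelian_normal {F : Type*} [Field F] [Fintype F] {n : ℕ}
    (G : Subgroup (GL (Fin n) F))
    (hirr : Cfsg.Geo.ActsIrreducibly (Cfsg.Geo.matrixSet G))
    (hprim : ∀ (m t : ℕ) (D : Fin t → Submodule F (Fin n → F)), 2 ≤ t →
      Cfsg.Geo.IsMDecomposition m D → ¬ G ≤ Cfsg.Geo.decompositionStabilizer D)
    (A : Subgroup (GL (Fin n) F)) (hAG : A ≤ G) (hAn : ∀ g ∈ G, ∀ a ∈ A, g * a * g⁻¹ ∈ A)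
    (hAab : ∀ a ∈ A, ∀ b ∈ A, a * b = b * a) (a : GL (Fin n) F) (ha : a ∈ A) (ha1 : a ≠ 1) :
    Module.End.eigenspace (Matrix.toLin' ((a : GL (Fin n) F) : Matrix (Fin n) (Fin n) F)) 1 = ⊥ := by
  classical
  by_contra hne
  have : Finite (GL (Fin n) F) := inferInstance
  -- a maximal subgroup of `A` containing `a` with a non-zero fixed vector
  have hz : Subgroup.zpowers a ≤ A ∧ a ∈ Subgroup.zpowers a ∧ fixSp (Subgroup.zpowers a) ≠ ⊥ := by
    refine ⟨by rw [Subgroup.zpowers_le]; exact ha, Subgroup.mem_zpowers a, ?_⟩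
    obtain ⟨v, hv, hv0⟩ := (Submodule.ne_bot_iff _).mp hne
    intro e
    have h1 : v ∈ fixSp (Subgroup.zpowers a) := by
      rw [mem_fixSp_iff_le, Subgroup.zpowers_le]
      exact (mem_eigenspace_one_iff a v).mp hv
    rw [e, Submodule.mem_bot] at h1
    exact hv0 h1
  obtain ⟨B, hBmax⟩ : ∃ B, Maximal
      (fun C : Subgroup (GL (Fin n) F) => C ≤ A ∧ a ∈ C ∧ fixSp C ≠ ⊥) B :=
    (Set.toFinite {C : Subgroup (GL (Fin n) F) | C ≤ A ∧ a ∈ C ∧ fixSp C ≠ ⊥}).exists_maximal
      ⟨_, hz⟩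
  obtain ⟨hBA, haB, hW⟩ := hBmax.1
  -- conjugates of `B`
  have hcjA : ∀ g ∈ G, psCj B g ≤ A := by
    intro g hg x hx
    obtain ⟨b, hb, rfl⟩ := mem_psCj.mp hx
    exact hAn g hg b (hBA hb)
  have hcjmax : ∀ g ∈ G, ∀ b ∈ A, b ∉ psCj B g → ∀ v, v ∈ fixSp (psCj B g) →
      ((b : GL (Fin n) F) : Matrix (Fin n) (Fin n) F) *ᵥ v = v → v = 0 := by
    intro g hg b hb hbn v hv hbv
    rw [fixSp_psCj] at hv
    obtain ⟨w, hw, rfl⟩ := hv
    have hb' : g⁻¹ * b * g ∈ A := by
      have h := hAn g⁻¹ (G.inv_mem hg) b hb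
      rwa [inv_inv] at h
    have hb'n : g⁻¹ * b * g ∉ B := by
      intro h
      apply hbn
      exact mem_psCj.mpr ⟨g⁻¹ * b * g, h, by group⟩
    have hw0 : w = 0 := by
      apply fpfc_max hBmax _ hb' hb'n w hw
      rw [Matrix.toLin'_apply] at hbv
      rw [Units.val_mul, Units.val_mul, ← Matrix.mulVec_mulVec, ← Matrix.mulVec_mulVec, hbv,
        Matrix.mulVec_mulVec, ← Units.val_mul, inv_mul_cancel, Units.val_one, Matrix.one_mulVec]
    rw [hw0, map_zero]
  -- the index type: the conjugates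
  set ι := {C : Subgroup (GL (Fin n) F) // ∃ g ∈ G, C = psCj B g} with hιdef
  have hind : iSupIndep (fun i : ι => fixSp i.1) := by
    apply Cfsg.Agent.Lib.Helper86.iSupIndep_fixSp A hAab (fun i : ι => i.1)
    · rintro ⟨C, g, hg, rfl⟩
      exact hcjA g hg
    · rintro ⟨C, g, hg, rfl⟩ b hb hbn v hv hbv
      exact hcjmax g hg b hb hbn v hv hbv
    · rintro ⟨C, g, hg, rfl⟩ ⟨C', g', hg', rfl⟩ hij hle
      apply hij
      apply Subtype.ext
      exact Subgroup.eq_of_le_of_card_ge hle (by rw [card_psCj, card_psCj])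
  let i₀ : ι := ⟨B, 1, G.one_mem, (psCj_one B).symm⟩
  -- the sum of the fixed spaces is invariant, hence everything
  have hSinv : ∀ s ∈ Cfsg.Geo.matrixSet G,
      (⨆ i : ι, fixSp i.1).map (Matrix.toLin' s) ≤ ⨆ i : ι, fixSp i.1 := by
    rintro _ ⟨g, hg, rfl⟩
    rw [Submodule.map_iSup]
    apply iSup_le
    rintro ⟨C, h, hh, rfl⟩
    show (fixSp (psCj B h)).map
      (Matrix.toLin' ((g : GL (Fin n) F) : Matrix (Fin n) (Fin n) F)) ≤ _
    rw [← fixSp_psCj, psCj_mul]
    exact le_iSup (fun i : ι => fixSp i.1) ⟨psCj B (g * h), g * h, G.mul_mem hg hh, rfl⟩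
  have hS : (⨆ i : ι, fixSp i.1) = ⊤ := by
    rcases hirr _ hSinv with h | h
    · exfalso
      apply hW
      rw [eq_bot_iff, ← h]
      exact le_iSup (fun i : ι => fixSp i.1) i₀
    · exact h
  -- at least two conjugates
  have ht2 : 2 ≤ Nat.card ι := by
    by_contra hlt
    have : Nonempty ι := ⟨i₀⟩
    have hpos : 0 < Nat.card ι := Nat.card_pos
    have h1 : Nat.card ι = 1 := by omega
    have : Subsingleton ι := (Nat.card_eq_one_iff_unique.mp h1).1
    have hWtop : fixSp B = ⊤ := by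
      rw [← hS]
      apply le_antisymm (le_iSup (fun i : ι => fixSp i.1) i₀)
      apply iSup_le
      intro i
      rw [Subsingleton.elim i i₀]
    apply ha1
    apply Units.ext
    apply Matrix.toLin'.injective
    apply LinearMap.ext
    intro v
    have hv : v ∈ fixSp B := by rw [hWtop]; exact Submodule.mem_top
    rw [Matrix.toLin'_apply, mem_fixSp.mp hv a haB, Units.val_one, Matrix.toLin'_one,
      LinearMap.id_apply]
  -- the decomposition
  obtain ⟨e⟩ : Nonempty (Fin (Nat.card ι) ≃ ι) := ⟨(Finite.equivFin ι).symm⟩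
  have hfr : ∀ i : ι, Module.finrank F (fixSp i.1) = Module.finrank F (fixSp B) := by
    rintro ⟨C, g, hg, rfl⟩
    show Module.finrank F (fixSp (psCj B g)) = _
    rw [fixSp_psCj]
    exact finrank_map_GL g (fixSp B)
  have hD : Cfsg.Geo.IsMDecomposition (Module.finrank F (fixSp B))
      (fun k : Fin (Nat.card ι) => fixSp (e k).1) :=
    { two_le := ht2
      pos := by
        by_contra h0
        apply hW
        exact Submodule.finrank_eq_zero.mp (by omega)
      finrank_eq := fun k => hfr (e k)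
      indep := hind.comp e.injective
      iSup_eq_top := by
        rw [← hS]
        exact e.iSup_comp (g := fun i : ι => fixSp i.1) }
  apply hprim _ _ _ ht2 hD
  intro g hg
  -- the permutation of the conjugates induced by `g`
  have hmem : ∀ (k : GL (Fin n) F), k ∈ G → ∀ i : ι, ∃ g' ∈ G, psCj i.1 k = psCj B g' := by
    intro k hk i
    obtain ⟨h, hh, e'⟩ := i.2
    exact ⟨k * h, G.mul_mem hk hh, by rw [e', psCj_mul]⟩
  let π : Equiv.Perm ι :=
    { toFun := fun i => ⟨psCj i.1 g, hmem g hg i⟩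
      invFun := fun i => ⟨psCj i.1 g⁻¹, hmem g⁻¹ (G.inv_mem hg) i⟩
      left_inv := by
        intro i
        apply Subtype.ext
        show psCj (psCj i.1 g) g⁻¹ = i.1
        rw [psCj_mul, inv_mul_cancel, psCj_one]
      right_inv := by
        intro i
        apply Subtype.ext
        show psCj (psCj i.1 g⁻¹) g = i.1
        rw [psCj_mul, mul_inv_cancel, psCj_one] }
  refine ⟨(e.trans π).trans e.symm, fun k => ?_⟩
  show (fixSp (e k).1).map (Matrix.toLin' ((g : GL (Fin n) F) : Matrix (Fin n) (Fin n) F)) =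
    fixSp (e (e.symm (π (e k)))).1
  rw [Equiv.apply_symm_apply, ← fixSp_psCj]
  rfl

end Cfsg.Agent.Lib.Helper67
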