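import Cfsg.Agent.Lib.Helper96.PiDefs
import Cfsg.Agent.Lib.Helper98.O72Fix

/-!
Project PE (S5988, helper96), piece INVELL (helper67): an involutory isometry fixes an elliptic
`m`-space when `2 * m + 2 ≤ finrank V`.
-/

set_option autoImplicit false
set_option linter.unusedSectionVars false
set_option linter.unusedVariables false

namespace Cfsg.Agent.Lib.Helper67.Pe

universe u

open Module Cfsg.Agent.Lib.Helper96.Sp Cfsg.Agent.Lib.Helper96.BG Cfsg.Agent.Lib.Helper96.Hy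
  Cfsg.Agent.Lib.Helper96.Pi Cfsg.Agent.Lib.Helper47

variable {F : Type u} [Field F] [Fintype F] {V : Type u} [AddCommGroup V] [Module F V]
  [FiniteDimensional F V] {B : LinearMap.BilinForm F V}

-- PIECE INVELL
theorem invol_fix_ell (hS : B.IsSymm) (h2 : (2 : F) ≠ 0) (hN : ND B ⊤) (hF : Facts B)
    (T : Module.End F V) (hT : Isom B T) (hT2 : T * T = 1) (m : ℕ) (hme : Even m)
    (hm2 : 2 ≤ m) (hmn : 2 * m + 2 ≤ finrank F V) :
    ∃ W : Submodule F V, finrank F W = m ∧ ND B W ∧ Typ B W (-1) ∧ W.map T ≤ W := by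
  haveI : Fact (Nat.Prime 2) := ⟨Nat.prime_two⟩
  have hr0 : ((2 : ℕ) : F) ≠ 0 := by exact_mod_cast h2
  have hq2 : ¬ 2 ∣ Fintype.card F := by
    intro hdvd
    obtain ⟨p, hp⟩ := CharP.exists F
    haveI := hp
    obtain ⟨n, hpp, hcard⟩ := FiniteField.card F p
    rw [hcard] at hdvd
    have h2p : 2 ∣ p := Nat.Prime.dvd_of_dvd_pow Nat.prime_two hdvd
    have hp2 : p = 2 := ((Nat.prime_dvd_prime_iff_eq Nat.prime_two hpp).mp h2p).symm
    subst hp2
    exact h2 (by exact_mod_cast CharP.cast_eq_zero F 2)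
  have hT2' : T ^ 2 = 1 := by
    rw [pow_two]
    exact hT2
  have hK : ND B (LinearMap.ker (T - 1)) :=
    Cfsg.Agent.Lib.Helper98.O72.nd_ker hS h2 hN T hT 2 hq2 hr0 hT2'
  have hR : ND B (LinearMap.range (T - 1)) :=
    Cfsg.Agent.Lib.Helper98.O72.nd_range hS h2 hN T hT 2 hq2 hr0 hT2'
  obtain ⟨-, -, -, -, -, hKinv, -, -, hdim⟩ := pow_one_setup T 2 hq2 hr0 hT2'
  obtain ⟨w, hw⟩ := hme
  have hw1 : 1 ≤ w := by omega
  by_cases hc : m + 1 ≤ finrank F (LinearMap.ker (T - 1))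
  · obtain ⟨W, hWK, hWnd, hWfin, hWt⟩ := hF.ell_sub _ hK w hw1 (by omega)
    exact ⟨W, by omega, hWnd, hWt, hKinv W hWK⟩
  · have hc' : m + 1 ≤ finrank F (LinearMap.range (T - 1)) := by omega
    obtain ⟨W, hWR, hWnd, hWfin, hWt⟩ := hF.ell_sub _ hR w hw1 (by omega)
    refine ⟨W, by omega, hWnd, hWt, ?_⟩
    rintro x ⟨x', hx', rfl⟩
    obtain ⟨u, hu⟩ := hWR hx'
    have h3 : T x' = -x' := by
      rw [← hu]
      have h4 : T (T u) = u := by
        have h5 := congrArg (fun f : Module.End F V => f u) hT2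
        simpa using h5
      simp only [LinearMap.sub_apply, Module.End.one_apply, map_sub, h4]
      abel
    show T x' ∈ W
    rw [h3]
    exact W.neg_mem hx'

end Cfsg.Agent.Lib.Helper67.Pe
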