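import Mathlib
import Cfsg.Prelude.Def_Blocks
import Cfsg.Prelude.Def_Local
import Cfsg.Agent.S0840
import Cfsg.Agent.Lib.Helper83.Linear
import Cfsg.Agent.Lib.Helper82.CharCore

/-! Piece C4 of the S4501 project (helper30): the class multiplication constant at `x` when only
the three characters `1`, `ζ`, `ζ'` do not vanish at `x`. -/

set_option autoImplicit false
open Cfsg
open scoped ComplexConjugate

namespace Cfsg.Agent.Lib.Helper30.S4501.C4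

/-- C4 -/
theorem count_formula {G : Type*} [Group G] [Finite G] (x : G) (ζ ζ' : Cfsg.IrrCharacter G)
    (h1 : (ζ : G → ℂ) ≠ (fun _ => 1)) (h2 : (ζ' : G → ℂ) ≠ (fun _ => 1)) (h3 : ζ ≠ ζ')
    (hdeg : Cfsg.charDegree (ζ' : G → ℂ) = Cfsg.charDegree (ζ : G → ℂ) + 1)
    (hx : (ζ : G → ℂ) x = 1) (hx' : (ζ' : G → ℂ) x = -1)
    (hreg : ∀ g : G, ¬ 3 ∣ orderOf g → (ζ' : G → ℂ) g = 1 + (ζ : G → ℂ) g)
    (hvan : ∀ χ : Cfsg.IrrCharacter G, (χ : G → ℂ) x ≠ 0 →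
        ((χ : G → ℂ) = (fun _ => 1) ∨ χ = ζ ∨ χ = ζ'))
    (a b : G) (ha : ¬ 3 ∣ orderOf a) (hb : ¬ 3 ∣ orderOf b) :
    (Nat.card {p : G × G // IsConj a p.1 ∧ IsConj b p.2 ∧ p.1 * p.2 = x} : ℂ) *
        (Nat.card (Subgroup.centralizer ({a} : Set G)) : ℂ) *
        (Nat.card (Subgroup.centralizer ({b} : Set G)) : ℂ) *
        ((Cfsg.charDegree (ζ : G → ℂ) : ℂ) * ((Cfsg.charDegree (ζ : G → ℂ) : ℂ) + 1)) =
      (Nat.card G : ℂ) * ((Cfsg.charDegree (ζ : G → ℂ) : ℂ) - (ζ : G → ℂ) a) *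
        ((Cfsg.charDegree (ζ : G → ℂ) : ℂ) - (ζ : G → ℂ) b) := by
  classical
  set T : IrrCharacter G := Cfsg.Agent.Lib.Helper83.trivIrr G with hT
  have hTv : ∀ g, (T : G → ℂ) g = 1 := fun g => rfl
  have hTζ : T ≠ ζ := by
    intro h; apply h1; rw [← h]; rfl
  have hTζ' : T ≠ ζ' := by
    intro h; apply h2; rw [← h]; rfl
  set F : IrrCharacter G → ℂ := fun χ =>
    (χ : G → ℂ) a * (χ : G → ℂ) b * conj ((χ : G → ℂ) x) / (χ : G → ℂ) 1 with hF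
  have hsupp : Function.support F ⊆
      (({T, ζ, ζ'} : Finset (IrrCharacter G)) : Set (IrrCharacter G)) := by
    intro χ hχ
    have hχx : (χ : G → ℂ) x ≠ 0 := by
      intro h0
      apply hχ
      simp [hF, h0]
    rcases hvan χ hχx with h | h | h
    · have h4 : χ = T := Subtype.ext h
      simp [h4]
    · simp [h]
    · simp [h]
  have hsum : ∑ᶠ χ : IrrCharacter G, F χ = F T + F ζ + F ζ' := by
    rw [finsum_eq_sum_of_support_subset F hsupp]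
    rw [Finset.sum_insert (by simp [hTζ, hTζ']), Finset.sum_insert (by simp [h3]),
      Finset.sum_singleton]
    ring
  have hd := Cfsg.Agent.Lib.Helper82.irr_charDegree ζ
  have hd' := Cfsg.Agent.Lib.Helper82.irr_charDegree ζ'
  have hdne : (charDegree (ζ : G → ℂ) : ℂ) ≠ 0 := by exact_mod_cast hd.2
  have hdne' : (charDegree (ζ : G → ℂ) : ℂ) + 1 ≠ 0 := by
    have h5 : charDegree (ζ : G → ℂ) + 1 ≠ 0 := Nat.succ_ne_zero _
    exact_mod_cast h5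
  have hFT : F T = 1 := by simp [hF, hTv]
  have hFζ : F ζ = (ζ : G → ℂ) a * (ζ : G → ℂ) b / (charDegree (ζ : G → ℂ) : ℂ) := by
    simp only [hF]
    rw [hx, ← hd.1]
    simp
  have hFζ' : F ζ' = -((1 + (ζ : G → ℂ) a) * (1 + (ζ : G → ℂ) b)) /
      ((charDegree (ζ : G → ℂ) : ℂ) + 1) := by
    simp only [hF]
    rw [hx', ← hd'.1, hdeg, hreg a ha, hreg b hb]
    push_cast
    simp
  have hS := Cfsg.Agent.S0840.result a b x
  rw [show (∑ᶠ χ : Cfsg.IrrCharacter G,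
      (χ : G → ℂ) a * (χ : G → ℂ) b * conj ((χ : G → ℂ) x) / (χ : G → ℂ) 1) =
      ∑ᶠ χ : IrrCharacter G, F χ from rfl, hsum, hFT, hFζ, hFζ'] at hS
  have hca := Cfsg.Agent.Lib.Helper83.card_conj_mul_card_centralizer a
  have hcb := Cfsg.Agent.Lib.Helper83.card_conj_mul_card_centralizer b
  have hca' : (Nat.card {x : G // IsConj a x} : ℂ) *
      (Nat.card (Subgroup.centralizer ({a} : Set G)) : ℂ) = (Nat.card G : ℂ) := by
    exact_mod_cast hca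
  have hcb' : (Nat.card {x : G // IsConj b x} : ℂ) *
      (Nat.card (Subgroup.centralizer ({b} : Set G)) : ℂ) = (Nat.card G : ℂ) := by
    exact_mod_cast hcb
  have hG : (Nat.card G : ℂ) ≠ 0 := by exact_mod_cast (Nat.card_pos (α := G)).ne'
  have e1 : ((1 : ℂ) + (ζ : G → ℂ) a * (ζ : G → ℂ) b / (charDegree (ζ : G → ℂ) : ℂ) +
      -((1 + (ζ : G → ℂ) a) * (1 + (ζ : G → ℂ) b)) / ((charDegree (ζ : G → ℂ) : ℂ) + 1)) *
      ((charDegree (ζ : G → ℂ) : ℂ) * ((charDegree (ζ : G → ℂ) : ℂ) + 1)) =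
      ((charDegree (ζ : G → ℂ) : ℂ) - (ζ : G → ℂ) a) *
        ((charDegree (ζ : G → ℂ) : ℂ) - (ζ : G → ℂ) b) := by
    field_simp
    ring
  rw [hS]
  calc (Nat.card {x : G // IsConj a x} : ℂ) * (Nat.card {x : G // IsConj b x} : ℂ) /
        (Nat.card G : ℂ) *
        ((1 : ℂ) + (ζ : G → ℂ) a * (ζ : G → ℂ) b / (charDegree (ζ : G → ℂ) : ℂ) +
          -((1 + (ζ : G → ℂ) a) * (1 + (ζ : G → ℂ) b)) / ((charDegree (ζ : G → ℂ) : ℂ) + 1)) *
        (Nat.card (Subgroup.centralizer ({a} : Set G)) : ℂ) *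
        (Nat.card (Subgroup.centralizer ({b} : Set G)) : ℂ) *
        ((charDegree (ζ : G → ℂ) : ℂ) * ((charDegree (ζ : G → ℂ) : ℂ) + 1))
      = ((Nat.card {x : G // IsConj a x} : ℂ) *
          (Nat.card (Subgroup.centralizer ({a} : Set G)) : ℂ)) *
        ((Nat.card {x : G // IsConj b x} : ℂ) *
          (Nat.card (Subgroup.centralizer ({b} : Set G)) : ℂ)) / (Nat.card G : ℂ) *
        (((1 : ℂ) + (ζ : G → ℂ) a * (ζ : G → ℂ) b / (charDegree (ζ : G → ℂ) : ℂ) +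
          -((1 + (ζ : G → ℂ) a) * (1 + (ζ : G → ℂ) b)) / ((charDegree (ζ : G → ℂ) : ℂ) + 1)) *
        ((charDegree (ζ : G → ℂ) : ℂ) * ((charDegree (ζ : G → ℂ) : ℂ) + 1))) := by ring
    _ = (Nat.card G : ℂ) * (Nat.card G : ℂ) / (Nat.card G : ℂ) *
        (((charDegree (ζ : G → ℂ) : ℂ) - (ζ : G → ℂ) a) *
          ((charDegree (ζ : G → ℂ) : ℂ) - (ζ : G → ℂ) b)) := by rw [hca', hcb', e1]
    _ = (Nat.card G : ℂ) * ((charDegree (ζ : G → ℂ) : ℂ) - (ζ : G → ℂ) a) *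
        ((charDegree (ζ : G → ℂ) : ℂ) - (ζ : G → ℂ) b) := by
      rw [mul_div_assoc, div_self hG, mul_one]
      ring

end Cfsg.Agent.Lib.Helper30.S4501.C4
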