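import Mathlib
import Cfsg.Agent.Lib.Helper91.SuU
import Cfsg.Agent.Lib.Helper18.UnitaryWitt

/-!
# S5172 piece WE (for helper91): a hyperbolic basis for the standard hermitian form in even
dimension
-/

set_option autoImplicit false

namespace Cfsg.Agent.Lib.Helper67.SuWE

open Matrix Cfsg.Agent.Lib.Helper91.SuU

section aux

variable {K : Type*} [Field K] (σ : K →+* K) (l : ℕ)

/-- the blockwise matrix: columns `inl j`, `inr j` are the vectors `u`, `v` in block `j` -/
def c0 (u v : Fin 2 → K) : Matrix (Fin l × Fin 2) (Fin l ⊕ Fin l) K :=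
  fun x j => Sum.elim (fun i => if x.1 = i then u x.2 else 0)
    (fun i => if x.1 = i then v x.2 else 0) j

theorem sum_aux (f g : Fin 2 → K) (j j' : Fin l) :
    ∑ x : Fin l × Fin 2, (if x.1 = j then f x.2 else 0) * σ (if x.1 = j' then g x.2 else 0)
      = if j = j' then f 0 * σ (g 0) + f 1 * σ (g 1) else 0 := by
  classical
  rw [Fintype.sum_prod_type]
  rw [Finset.sum_eq_single j]
  · rw [Fin.sum_univ_two]
    by_cases h : j = j'
    · simp [h]
    · simp [h]
  · intro b _ hb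
    simp [hb]
  · intro h
    exact absurd (Finset.mem_univ j) h

theorem c0_gram (u v : Fin 2 → K)
    (huu : u 0 * σ (u 0) + u 1 * σ (u 1) = 0) (huv : u 0 * σ (v 0) + u 1 * σ (v 1) = 1)
    (hvu : v 0 * σ (u 0) + v 1 * σ (u 1) = 1) (hvv : v 0 * σ (v 0) + v 1 * σ (v 1) = 0) :
    (c0 l u v)ᵀ * (c0 l u v).map σ = JJ l K := by
  classical
  ext a b
  rw [Matrix.mul_apply]
  rcases a with j | j <;> rcases b with j' | j'
  · have h := sum_aux σ l u u j j'
    rw [huu] at h
    simp only [Matrix.transpose_apply, Matrix.map_apply, c0, Sum.elim_inl, JJ,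
      Matrix.fromBlocks_apply₁₁, Matrix.zero_apply]
    rw [h]; simp
  · have h := sum_aux σ l u v j j'
    rw [huv] at h
    simp only [Matrix.transpose_apply, Matrix.map_apply, c0, Sum.elim_inl, Sum.elim_inr, JJ,
      Matrix.fromBlocks_apply₁₂, Matrix.one_apply]
    rw [h]
  · have h := sum_aux σ l v u j j'
    rw [hvu] at h
    simp only [Matrix.transpose_apply, Matrix.map_apply, c0, Sum.elim_inl, Sum.elim_inr, JJ,
      Matrix.fromBlocks_apply₂₁, Matrix.one_apply]
    rw [h]
  · have h := sum_aux σ l v v j j'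
    rw [hvv] at h
    simp only [Matrix.transpose_apply, Matrix.map_apply, c0, Sum.elim_inr, JJ,
      Matrix.fromBlocks_apply₂₂, Matrix.zero_apply]
    rw [h]; simp

theorem JJ_transpose : (JJ l K)ᵀ = JJ l K := by
  unfold JJ
  rw [Matrix.fromBlocks_transpose, Matrix.transpose_zero, Matrix.transpose_one]

theorem JJ_mul_JJ : JJ l K * JJ l K = 1 := by
  unfold JJ
  rw [Matrix.fromBlocks_multiply]
  simp

end aux

/-- WE: a hyperbolic basis matrix for the standard hermitian form in dimension `2 l` -/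
theorem witt_even {K : Type*} [Field K] [Fintype K] (q : ℕ) (hK : Fintype.card K = q ^ 2)
    (σ : K →+* K) (hσq : ∀ x, σ x = x ^ q) (l : ℕ) :
    ∃ (c : Matrix (Fin (2 * l)) (Fin l ⊕ Fin l) K) (c' : Matrix (Fin l ⊕ Fin l) (Fin (2 * l)) K),
      c * c' = 1 ∧ c' * c = 1 ∧ cᵀ * c.map σ = JJ l K := by
  classical
  obtain ⟨ω, -, hω⟩ := Cfsg.Agent.Lib.Helper18.exists_omega hK
  obtain ⟨lam, hlam⟩ := Cfsg.Agent.Lib.Helper18.exists_trace_one hK
  have hωσ : ω * σ ω = -1 := by rw [hσq, ← pow_succ']; exact hω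
  have hlσ : lam + σ lam = 1 := by rw [hσq]; exact hlam
  -- the two vectors of the hyperbolic pair
  obtain ⟨u, hu⟩ : ∃ u : Fin 2 → K, u = ![1, ω] := ⟨_, rfl⟩
  obtain ⟨v, hv⟩ : ∃ v : Fin 2 → K, v = ![1 - lam, -(lam * ω)] := ⟨_, rfl⟩
  have huu : u 0 * σ (u 0) + u 1 * σ (u 1) = 0 := by
    rw [hu]
    simp only [Matrix.cons_val_zero, Matrix.cons_val_one, map_one]
    linear_combination hωσ
  have huv : u 0 * σ (v 0) + u 1 * σ (v 1) = 1 := by
    rw [hu, hv]
    simp only [Matrix.cons_val_zero, Matrix.cons_val_one, map_one, map_sub, map_neg, map_mul]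
    linear_combination (-(σ lam)) * hωσ
  have hvu : v 0 * σ (u 0) + v 1 * σ (u 1) = 1 := by
    rw [hu, hv]
    simp only [Matrix.cons_val_zero, Matrix.cons_val_one, map_one]
    linear_combination (-lam) * hωσ
  have hvv : v 0 * σ (v 0) + v 1 * σ (v 1) = 0 := by
    rw [hv]
    simp only [Matrix.cons_val_zero, Matrix.cons_val_one, map_one, map_sub, map_neg, map_mul]
    linear_combination (lam * σ lam) * hωσ - hlσ
  have hg := c0_gram σ l u v huu huv hvu hvv
  -- transport along `Fin l × Fin 2 ≃ Fin (2 * l)`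
  let e : Fin l × Fin 2 ≃ Fin (2 * l) := finProdFinEquiv.trans (finCongr (mul_comm l 2))
  let c : Matrix (Fin (2 * l)) (Fin l ⊕ Fin l) K := (c0 l u v).submatrix e.symm id
  have hc : cᵀ * c.map σ = JJ l K := by
    have h1 : cᵀ = ((c0 l u v)ᵀ).submatrix id e.symm := rfl
    have h2 : c.map σ = ((c0 l u v).map σ).submatrix e.symm id := rfl
    rw [h1, h2, Matrix.submatrix_mul_equiv, hg, Matrix.submatrix_id_id]
  have hc2 : (c.map σ)ᵀ * c = JJ l K := by
    have h := congrArg Matrix.transpose hc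
    rw [Matrix.transpose_mul, Matrix.transpose_transpose, JJ_transpose] at h
    exact h
  have h1 : (JJ l K * (c.map σ)ᵀ) * c = 1 := by
    rw [Matrix.mul_assoc, hc2, JJ_mul_JJ]
  have e2 : Fin (2 * l) ≃ Fin l ⊕ Fin l :=
    (finCongr (two_mul l)).trans finSumFinEquiv.symm
  refine ⟨c, JJ l K * (c.map σ)ᵀ, ?_, h1, hc⟩
  exact (Matrix.mul_eq_one_comm_of_equiv e2.symm).mp h1

end Cfsg.Agent.Lib.Helper67.SuWE
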