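import Mathlib
import Cfsg.Prelude.Def_GeometricClasses
import Cfsg.Agent.Lib.Helper98.T73Defs

/-!
# Project T73 (S5987, architect helper98): piece DERM (proof by helper67)

For `q ≡ 7 mod 8` and `k` even, `Ω⁻_{2k+2}(F)` contains a non-scalar element `x` with `x² = -1`
all of whose invariant subspaces have even dimension.  The element is explicit; it lies in the
commutator subgroup because `x = [y, t]` for the isometries `y = (1 + x) / √2` and a reflection-like
involution `t` inverting `x`.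
-/

set_option autoImplicit false

namespace Cfsg.Agent.Lib.Helper98.T73

open Cfsg.Agent.Lib.Helper47 Module Polynomial

universe u

open scoped commutatorElement

variable {F : Type u} [Field F]

/-- the pairing `2j ↔ 2j+1` on `Fin (l + l)` -/
def derm_sig (l : ℕ) (i : Fin (l + l)) : Fin (l + l) :=
  ⟨if i.1 % 2 = 0 then i.1 + 1 else i.1 - 1, by have := i.2; split_ifs <;> omega⟩

theorem derm_sig_sig (l : ℕ) (i : Fin (l + l)) : derm_sig l (derm_sig l i) = i := by
  apply Fin.ext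
  simp only [derm_sig]
  have := i.2
  split_ifs <;> omega

/-- the sign `+1` at even, `-1` at odd indices -/
def derm_eps (F : Type u) [Field F] (l : ℕ) (i : Fin (l + l)) : F :=
  if i.1 % 2 = 0 then 1 else -1

theorem derm_eps_sq (l : ℕ) (i : Fin (l + l)) : derm_eps F l i * derm_eps F l i = 1 := by
  unfold derm_eps
  split_ifs <;> ring

theorem derm_eps_sig (l : ℕ) (i : Fin (l + l)) :
    derm_eps F l (derm_sig l i) = - derm_eps F l i := by
  unfold derm_eps
  simp only [derm_sig]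
  split_ifs <;> first | (exfalso; omega) | simp

/-- the element `x` as a linear map -/
def derm_X (l : ℕ) (a b s : F) : Module.End F ((Fin (l + l) ⊕ Fin (l + l)) ⊕ Fin 2 → F) where
  toFun v := Sum.elim (Sum.elim (fun i => - derm_eps F l i * v (.inl (.inl (derm_sig l i))))
      (fun i => - derm_eps F l i * v (.inl (.inr (derm_sig l i)))))
    ![s * (-a * v (.inr 0) - 2 * b * v (.inr 1)), s * (2 * v (.inr 0) + a * v (.inr 1))]
  map_add' u v := by
    ext j
    rcases j with (i | i) | j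
    · simp; ring
    · simp; ring
    · revert j
      rw [Fin.forall_fin_two]
      constructor
      · simp; ring
      · simp; ring
  map_smul' c v := by
    ext j
    rcases j with (i | i) | j
    · simp; ring
    · simp; ring
    · revert j
      rw [Fin.forall_fin_two]
      constructor
      · simp; ring
      · simp; ring

theorem derm_X_ll (l : ℕ) (a b s : F) (v : (Fin (l + l) ⊕ Fin (l + l)) ⊕ Fin 2 → F)
    (i : Fin (l + l)) :
    derm_X l a b s v (.inl (.inl i)) = - derm_eps F l i * v (.inl (.inl (derm_sig l i))) := rfl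

theorem derm_X_lr (l : ℕ) (a b s : F) (v : (Fin (l + l) ⊕ Fin (l + l)) ⊕ Fin 2 → F)
    (i : Fin (l + l)) :
    derm_X l a b s v (.inl (.inr i)) = - derm_eps F l i * v (.inl (.inr (derm_sig l i))) := rfl

theorem derm_X_r0 (l : ℕ) (a b s : F) (v : (Fin (l + l) ⊕ Fin (l + l)) ⊕ Fin 2 → F) :
    derm_X l a b s v (.inr 0) = s * (-a * v (.inr 0) - 2 * b * v (.inr 1)) := rfl

theorem derm_X_r1 (l : ℕ) (a b s : F) (v : (Fin (l + l) ⊕ Fin (l + l)) ⊕ Fin 2 → F) :
    derm_X l a b s v (.inr 1) = s * (2 * v (.inr 0) + a * v (.inr 1)) := rfl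

/-- the involution `t` inverting `x`, as a linear map -/
def derm_T (l : ℕ) (a : F) : Module.End F ((Fin (l + l) ⊕ Fin (l + l)) ⊕ Fin 2 → F) where
  toFun v := Sum.elim (Sum.elim (fun i => derm_eps F l i * v (.inl (.inl i)))
      (fun i => derm_eps F l i * v (.inl (.inr i))))
    ![v (.inr 0) + a * v (.inr 1), - v (.inr 1)]
  map_add' u v := by
    ext j
    rcases j with (i | i) | j
    · simp; ring
    · simp; ring
    · revert j
      rw [Fin.forall_fin_two]
      constructor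
      · simp; ring
      · simp; ring
  map_smul' c v := by
    ext j
    rcases j with (i | i) | j
    · simp; ring
    · simp; ring
    · revert j
      rw [Fin.forall_fin_two]
      constructor
      · simp; ring
      · simp

theorem derm_T_ll (l : ℕ) (a : F) (v : (Fin (l + l) ⊕ Fin (l + l)) ⊕ Fin 2 → F)
    (i : Fin (l + l)) :
    derm_T l a v (.inl (.inl i)) = derm_eps F l i * v (.inl (.inl i)) := rfl

theorem derm_T_lr (l : ℕ) (a : F) (v : (Fin (l + l) ⊕ Fin (l + l)) ⊕ Fin 2 → F)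
    (i : Fin (l + l)) :
    derm_T l a v (.inl (.inr i)) = derm_eps F l i * v (.inl (.inr i)) := rfl

theorem derm_T_r0 (l : ℕ) (a : F) (v : (Fin (l + l) ⊕ Fin (l + l)) ⊕ Fin 2 → F) :
    derm_T l a v (.inr 0) = v (.inr 0) + a * v (.inr 1) := rfl

theorem derm_T_r1 (l : ℕ) (a : F) (v : (Fin (l + l) ⊕ Fin (l + l)) ⊕ Fin 2 → F) :
    derm_T l a v (.inr 1) = - v (.inr 1) := rfl

theorem derm_XX (l : ℕ) (a b s : F) (hs : s * s * (4 * b - a ^ 2) = 1)
    (v : (Fin (l + l) ⊕ Fin (l + l)) ⊕ Fin 2 → F) :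
    derm_X l a b s (derm_X l a b s v) = -v := by
  ext j
  rcases j with (i | i) | j
  · rw [derm_X_ll, derm_X_ll, derm_sig_sig, derm_eps_sig, Pi.neg_apply]
    have := derm_eps_sq (F := F) l i
    linear_combination (-v (.inl (.inl i))) * this
  · rw [derm_X_lr, derm_X_lr, derm_sig_sig, derm_eps_sig, Pi.neg_apply]
    have := derm_eps_sq (F := F) l i
    linear_combination (-v (.inl (.inr i))) * this
  · revert j
    rw [Fin.forall_fin_two]
    constructor
    · rw [derm_X_r0, derm_X_r0, derm_X_r1, Pi.neg_apply]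
      linear_combination (-v (.inr 0)) * hs
    · rw [derm_X_r1, derm_X_r0, derm_X_r1, Pi.neg_apply]
      linear_combination (-v (.inr 1)) * hs

theorem derm_TT (l : ℕ) (a : F) (v : (Fin (l + l) ⊕ Fin (l + l)) ⊕ Fin 2 → F) :
    derm_T l a (derm_T l a v) = v := by
  ext j
  rcases j with (i | i) | j
  · rw [derm_T_ll, derm_T_ll]
    have := derm_eps_sq (F := F) l i
    linear_combination (v (.inl (.inl i))) * this
  · rw [derm_T_lr, derm_T_lr]
    have := derm_eps_sq (F := F) l i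
    linear_combination (v (.inl (.inr i))) * this
  · revert j
    rw [Fin.forall_fin_two]
    constructor
    · rw [derm_T_r0, derm_T_r0, derm_T_r1]
      ring
    · rw [derm_T_r1, derm_T_r1]
      ring

theorem derm_TX (l : ℕ) (a b s : F) (v : (Fin (l + l) ⊕ Fin (l + l)) ⊕ Fin 2 → F) :
    derm_T l a (derm_X l a b s v) = - derm_X l a b s (derm_T l a v) := by
  ext j
  rcases j with (i | i) | j
  · rw [derm_T_ll, derm_X_ll, Pi.neg_apply, derm_X_ll, derm_T_ll, derm_eps_sig]
    ring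
  · rw [derm_T_lr, derm_X_lr, Pi.neg_apply, derm_X_lr, derm_T_lr, derm_eps_sig]
    ring
  · revert j
    rw [Fin.forall_fin_two]
    constructor
    · rw [derm_T_r0, derm_X_r0, derm_X_r1, Pi.neg_apply, derm_X_r0, derm_T_r0, derm_T_r1]
      ring
    · rw [derm_T_r1, derm_X_r1, Pi.neg_apply, derm_X_r1, derm_T_r0, derm_T_r1]
      ring

theorem derm_Q_X (l : ℕ) (a b s : F) (hs : s * s * (4 * b - a ^ 2) = 1)
    (v : (Fin (l + l) ⊕ Fin (l + l)) ⊕ Fin 2 → F) :
    Cfsg.quadFormMinus (l + l) F a b (derm_X l a b s v) = Cfsg.quadFormMinus (l + l) F a b v := by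
  unfold Cfsg.quadFormMinus
  rw [derm_X_r0, derm_X_r1]
  have h1 : ∑ i, derm_X l a b s v (.inl (.inl i)) * derm_X l a b s v (.inl (.inr i)) =
      ∑ i, v (.inl (.inl i)) * v (.inl (.inr i)) := by
    rw [← Equiv.sum_comp (Function.Involutive.toPerm (derm_sig l) (derm_sig_sig l))
      (fun i => v (.inl (.inl i)) * v (.inl (.inr i)))]
    apply Finset.sum_congr rfl
    intro i _
    rw [derm_X_ll, derm_X_lr]
    have := derm_eps_sq (F := F) l i
    show _ = v (.inl (.inl (derm_sig l i))) * v (.inl (.inr (derm_sig l i)))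
    linear_combination
      (v (.inl (.inl (derm_sig l i))) * v (.inl (.inr (derm_sig l i)))) * this
  rw [h1]
  linear_combination (v (.inr 0) ^ 2 + a * v (.inr 0) * v (.inr 1) + b * v (.inr 1) ^ 2) * hs

theorem derm_Q_T (l : ℕ) (a b : F) (v : (Fin (l + l) ⊕ Fin (l + l)) ⊕ Fin 2 → F) :
    Cfsg.quadFormMinus (l + l) F a b (derm_T l a v) = Cfsg.quadFormMinus (l + l) F a b v := by
  unfold Cfsg.quadFormMinus
  rw [derm_T_r0, derm_T_r1]
  have h1 : ∑ i, derm_T l a v (.inl (.inl i)) * derm_T l a v (.inl (.inr i)) =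
      ∑ i, v (.inl (.inl i)) * v (.inl (.inr i)) := by
    apply Finset.sum_congr rfl
    intro i _
    rw [derm_T_ll, derm_T_lr]
    have := derm_eps_sq (F := F) l i
    linear_combination (v (.inl (.inl i)) * v (.inl (.inr i))) * this
  rw [h1]
  ring

theorem derm_Q_add_sub (k : ℕ) (a b : F) (u w : (Fin k ⊕ Fin k) ⊕ Fin 2 → F) :
    Cfsg.quadFormMinus k F a b (u + w) + Cfsg.quadFormMinus k F a b (u - w) =
      2 * Cfsg.quadFormMinus k F a b u + 2 * Cfsg.quadFormMinus k F a b w := by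
  unfold Cfsg.quadFormMinus
  simp only [Pi.add_apply, Pi.sub_apply]
  have hs : ∑ i, (u (.inl (.inl i)) + w (.inl (.inl i))) * (u (.inl (.inr i)) + w (.inl (.inr i)))
      + ∑ i, (u (.inl (.inl i)) - w (.inl (.inl i))) * (u (.inl (.inr i)) - w (.inl (.inr i)))
      = 2 * ∑ i, u (.inl (.inl i)) * u (.inl (.inr i))
        + 2 * ∑ i, w (.inl (.inl i)) * w (.inl (.inr i)) := by
    rw [Finset.mul_sum, Finset.mul_sum, ← Finset.sum_add_distrib, ← Finset.sum_add_distrib]
    exact Finset.sum_congr rfl (fun i _ => by ring)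
  linear_combination hs

theorem derm_Q_smul (k : ℕ) (a b c : F) (u : (Fin k ⊕ Fin k) ⊕ Fin 2 → F) :
    Cfsg.quadFormMinus k F a b (c • u) = c * c * Cfsg.quadFormMinus k F a b u := by
  unfold Cfsg.quadFormMinus
  simp only [Pi.smul_apply, smul_eq_mul]
  have hs : ∑ i, c * u (.inl (.inl i)) * (c * u (.inl (.inr i)))
      = c * c * ∑ i, u (.inl (.inl i)) * u (.inl (.inr i)) := by
    rw [Finset.mul_sum]
    exact Finset.sum_congr rfl (fun i _ => by ring)
  linear_combination hs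

theorem derm_exists_s [Fintype F] (h2 : (2 : F) ≠ 0) (a b : F)
    (hab : ∀ x y : F, x ^ 2 + a * x * y + b * y ^ 2 = 0 → x = 0 ∧ y = 0)
    (hns : ¬ IsSquare (-1 : F)) : ∃ s : F, s * s * (4 * b - a ^ 2) = 1 := by
  have hF : ringChar F ≠ 2 := by
    intro h
    apply h2
    have h3 := CharP.cast_eq_zero F (ringChar F)
    rw [h] at h3
    exact_mod_cast h3
  have hΔ : ¬ IsSquare (a ^ 2 - 4 * b) := by
    rintro ⟨c, hc⟩
    have := hab (c - a) 2 (by linear_combination (-1 : F) * hc)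
    exact h2 this.2
  have hΔ0 : a ^ 2 - 4 * b ≠ 0 := fun h => hΔ ⟨0, by rw [h]; ring⟩
  have hm1 : (-1 : F) ≠ 0 := neg_ne_zero.2 one_ne_zero
  have h1 : (-1 : F) ^ (Fintype.card F / 2) = -1 := by
    rcases FiniteField.pow_dichotomy hF hm1 with h | h
    · exact absurd ((FiniteField.isSquare_iff hF hm1).2 h) hns
    · exact h
  have h2' : (a ^ 2 - 4 * b) ^ (Fintype.card F / 2) = -1 := by
    rcases FiniteField.pow_dichotomy hF hΔ0 with h | h
    · exact absurd ((FiniteField.isSquare_iff hF hΔ0).2 h) hΔ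
    · exact h
  have hD0 : 4 * b - a ^ 2 ≠ 0 := fun h => hΔ0 (by linear_combination (-1 : F) * h)
  have hD : IsSquare (4 * b - a ^ 2) := by
    rw [FiniteField.isSquare_iff hF hD0]
    have e : 4 * b - a ^ 2 = (-1) * (a ^ 2 - 4 * b) := by ring
    rw [e, mul_pow, h1, h2']
    ring
  obtain ⟨c, hc⟩ := hD
  have hc0 : c ≠ 0 := by
    rintro rfl
    apply hD0
    rw [hc]
    ring
  refine ⟨c⁻¹, ?_⟩
  rw [hc]
  field_simp

/-- invariant subspaces of an endomorphism with square `-1` have even dimension when `-1` is a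
nonsquare -/
theorem derm_even {V : Type*} [AddCommGroup V] [Module F V] (hns : ¬ IsSquare (-1 : F))
    (f : Module.End F V) (hf : ∀ v, f (f v) = -v) (W : Submodule F V)
    (hW : ∀ w ∈ W, f w ∈ W) : Even (finrank F W) := by
  by_contra hodd
  rw [Nat.not_even_iff_odd] at hodd
  apply hns
  have hgg : (f.restrict hW : Module.End F W) * f.restrict hW =
      (-1 : F) • (1 : Module.End F W) := by
    apply LinearMap.ext
    intro w
    apply Subtype.ext
    rw [Module.End.mul_apply, LinearMap.coe_restrict_apply, LinearMap.coe_restrict_apply, hf]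
    simp
  have hdet := congrArg LinearMap.det hgg
  rw [map_mul, LinearMap.det_smul, map_one, mul_one, hodd.neg_one_pow] at hdet
  exact ⟨LinearMap.det (f.restrict hW), hdet.symm⟩

/-- the invertible matrix of an invertible endomorphism -/
def derm_gl {ι : Type} [Fintype ι] [DecidableEq ι] (f g : Module.End F (ι → F))
    (hfg : ∀ v, f (g v) = v) (hgf : ∀ v, g (f v) = v) : GL ι F :=
  ⟨LinearMap.toMatrix' f, LinearMap.toMatrix' g,
    by
      rw [← LinearMap.toMatrix'_comp]
      have : f ∘ₗ g = LinearMap.id := LinearMap.ext hfg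
      rw [this, LinearMap.toMatrix'_id],
    by
      rw [← LinearMap.toMatrix'_comp]
      have : g ∘ₗ f = LinearMap.id := LinearMap.ext hgf
      rw [this, LinearMap.toMatrix'_id]⟩

theorem derm_gl_mulVec {ι : Type} [Fintype ι] [DecidableEq ι] (f g : Module.End F (ι → F))
    (hfg : ∀ v, f (g v) = v) (hgf : ∀ v, g (f v) = v) (v : ι → F) :
    (derm_gl f g hfg hgf).1.mulVec v = f v := LinearMap.toMatrix'_mulVec f v

theorem derm_gl_inv {ι : Type} [Fintype ι] [DecidableEq ι] (f g : Module.End F (ι → F))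
    (hfg : ∀ v, f (g v) = v) (hgf : ∀ v, g (f v) = v) :
    (derm_gl f g hfg hgf)⁻¹ = derm_gl g f hgf hfg := by
  apply Units.ext
  rfl

theorem derm_mat_ext {ι : Type} [Fintype ι] [DecidableEq ι] (A B : Matrix ι ι F)
    (h : ∀ v, A.mulVec v = B.mulVec v) : A = B := by
  apply Matrix.toLin'.injective
  apply LinearMap.ext
  intro v
  rw [Matrix.toLin'_apply, Matrix.toLin'_apply]
  exact h v

theorem derm_mem_iso {ι : Type} [Fintype ι] [DecidableEq ι] (Q : (ι → F) → F) (g : GL ι F)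
    (h : ∀ u, Q (g.1.mulVec u) = Q u) : g ∈ Cfsg.isometryGroup F Q := by
  intro u v
  exact h u

variable [Fintype F]

/-- DERM -/
theorem exists_cpx_der_minus (h2 : (2 : F) ≠ 0) (k : ℕ) (a b : F)
    (hab : ∀ x y : F, x ^ 2 + a * x * y + b * y ^ 2 = 0 → x = 0 ∧ y = 0) (hk : Even k)
    (h8 : Fintype.card F % 8 = 7) :
    ∃ x : GL ((Fin k ⊕ Fin k) ⊕ Fin 2) F, x ∈ Cfsg.Geo.omegaGL (Cfsg.quadFormMinus k F a b) ∧
      (x : Matrix ((Fin k ⊕ Fin k) ⊕ Fin 2) ((Fin k ⊕ Fin k) ⊕ Fin 2) F)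
          * (x : Matrix ((Fin k ⊕ Fin k) ⊕ Fin 2) ((Fin k ⊕ Fin k) ⊕ Fin 2) F)
        = (-1 : F) • (1 : Matrix ((Fin k ⊕ Fin k) ⊕ Fin 2) ((Fin k ⊕ Fin k) ⊕ Fin 2) F) ∧
      (∀ z : F, (x : Matrix ((Fin k ⊕ Fin k) ⊕ Fin 2) ((Fin k ⊕ Fin k) ⊕ Fin 2) F)
        ≠ z • (1 : Matrix ((Fin k ⊕ Fin k) ⊕ Fin 2) ((Fin k ⊕ Fin k) ⊕ Fin 2) F)) ∧
      ∀ W : Submodule F ((Fin k ⊕ Fin k) ⊕ Fin 2 → F),
        W.map (Matrix.toLin'
          (x : Matrix ((Fin k ⊕ Fin k) ⊕ Fin 2) ((Fin k ⊕ Fin k) ⊕ Fin 2) F)) ≤ W →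
        Even (finrank F W) := by
  classical
  obtain ⟨l, rfl⟩ := hk
  have hns : ¬ IsSquare (-1 : F) := by
    rw [FiniteField.isSquare_neg_one_iff]
    omega
  obtain ⟨r, hr⟩ : IsSquare (2 : F) := by
    rw [FiniteField.isSquare_two_iff]
    omega
  have hr0 : r ≠ 0 := by
    rintro rfl
    apply h2
    rw [hr]
    ring
  obtain ⟨s, hs⟩ := derm_exists_s h2 a b hab hns
  have hXXv := derm_XX l a b s hs
  have hTTv := derm_TT (F := F) l a
  have hTXv := derm_TX l a b s
  have hQX := derm_Q_X l a b s hs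
  have hQT := derm_Q_T l a b
  generalize derm_X l a b s = eX at hXXv hTXv hQX
  generalize derm_T l a = eT at hTTv hTXv hQT
  obtain ⟨eY, hYv⟩ : ∃ eY : Module.End F ((Fin (l + l) ⊕ Fin (l + l)) ⊕ Fin 2 → F),
      ∀ v, eY v = r⁻¹ • (v + eX v) := ⟨r⁻¹ • (1 + eX), fun v => rfl⟩
  obtain ⟨eY', hY'v⟩ : ∃ eY' : Module.End F ((Fin (l + l) ⊕ Fin (l + l)) ⊕ Fin 2 → F),
      ∀ v, eY' v = r⁻¹ • (v - eX v) := ⟨r⁻¹ • (1 - eX), fun v => rfl⟩
  have hrr : r⁻¹ * r⁻¹ * 2 = 1 := by
    rw [hr]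
    field_simp
  have hYY' : ∀ v, eY (eY' v) = v := by
    intro v
    rw [hYv, hY'v, map_smul, map_sub, hXXv, ← smul_add, smul_smul]
    have e : v - eX v + (eX v - -v) = (2 : F) • v := by
      rw [two_smul]; abel
    rw [e, smul_smul, hrr, one_smul]
  have hY'Y : ∀ v, eY' (eY v) = v := by
    intro v
    rw [hY'v, hYv, map_smul, map_add, hXXv, ← smul_sub, smul_smul]
    have e : v + eX v - (eX v + -v) = (2 : F) • v := by
      rw [two_smul]; abel
    rw [e, smul_smul, hrr, one_smul]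
  have hQY : ∀ v, Cfsg.quadFormMinus (l + l) F a b (eY v) = Cfsg.quadFormMinus (l + l) F a b v := by
    intro v
    rw [hYv, derm_Q_smul]
    have hpar := derm_Q_add_sub (l + l) a b v (eX v)
    have e : Cfsg.quadFormMinus (l + l) F a b (v - eX v) =
        Cfsg.quadFormMinus (l + l) F a b (v + eX v) := by
      have h := hQX (v - eX v)
      rw [map_sub, hXXv] at h
      rw [← h]
      congr 1
      abel
    rw [e, hQX] at hpar
    have h3 : Cfsg.quadFormMinus (l + l) F a b (v + eX v) =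
        2 * Cfsg.quadFormMinus (l + l) F a b v := by
      have h4 : (2 : F) * Cfsg.quadFormMinus (l + l) F a b (v + eX v) =
          2 * (2 * Cfsg.quadFormMinus (l + l) F a b v) := by linear_combination hpar
      exact mul_left_cancel₀ h2 h4
    rw [h3]
    linear_combination (Cfsg.quadFormMinus (l + l) F a b v) * hrr
  have hcomm : ∀ v, eY (eT (eY' (eT v))) = eX v := by
    intro v
    rw [hY'v, map_smul, map_sub, hTTv, hTXv, hTTv, hYv, map_smul, map_sub, map_neg, hXXv,
      ← smul_add, smul_smul]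
    have e : v - -eX v + (eX v - - -v) = (2 : F) • eX v := by
      rw [two_smul]; abel
    rw [e, smul_smul, hrr, one_smul]
  have hXX' : ∀ v, eX ((-eX) v) = v := by
    intro v
    rw [LinearMap.neg_apply, map_neg, hXXv, neg_neg]
  have hX'X : ∀ v, (-eX) (eX v) = v := by
    intro v
    rw [LinearMap.neg_apply, hXXv, neg_neg]
  refine ⟨derm_gl eX (-eX) hXX' hX'X, ?_, ?_, ?_, ?_⟩
  · have hy : derm_gl eY eY' hYY' hY'Y ∈ Cfsg.isometryGroup F (Cfsg.quadFormMinus (l + l) F a b) :=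
      derm_mem_iso _ _ (fun u => by rw [derm_gl_mulVec]; exact hQY u)
    have ht : derm_gl eT eT hTTv hTTv ∈ Cfsg.isometryGroup F (Cfsg.quadFormMinus (l + l) F a b) :=
      derm_mem_iso _ _ (fun u => by rw [derm_gl_mulVec]; exact hQT u)
    have hc : derm_gl eY eY' hYY' hY'Y * derm_gl eT eT hTTv hTTv * (derm_gl eY eY' hYY' hY'Y)⁻¹ *
        (derm_gl eT eT hTTv hTTv)⁻¹ = derm_gl eX (-eX) hXX' hX'X := by
      apply Units.ext
      apply derm_mat_ext
      intro v
      rw [derm_gl_inv, derm_gl_inv, Units.val_mul, Units.val_mul, Units.val_mul,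
        ← Matrix.mulVec_mulVec, ← Matrix.mulVec_mulVec, ← Matrix.mulVec_mulVec,
        derm_gl_mulVec, derm_gl_mulVec, derm_gl_mulVec, derm_gl_mulVec, derm_gl_mulVec]
      exact hcomm v
    refine Subgroup.mem_map.2 ⟨⁅(⟨_, hy⟩ : Cfsg.isometryGroup F (Cfsg.quadFormMinus (l + l) F a b)),
      ⟨_, ht⟩⁆, Subgroup.commutator_mem_commutator (Subgroup.mem_top _) (Subgroup.mem_top _), ?_⟩
    rw [← hc]
    rfl
  · apply derm_mat_ext
    intro v
    rw [← Matrix.mulVec_mulVec, derm_gl_mulVec, derm_gl_mulVec, hXXv, Matrix.smul_mulVec,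
      Matrix.one_mulVec, neg_one_smul]
  · intro z hz
    have hsq : (derm_gl eX (-eX) hXX' hX'X).1 * (derm_gl eX (-eX) hXX' hX'X).1 =
        (-1 : F) • (1 : Matrix ((Fin (l + l) ⊕ Fin (l + l)) ⊕ Fin 2)
          ((Fin (l + l) ⊕ Fin (l + l)) ⊕ Fin 2) F) := by
      apply derm_mat_ext
      intro v
      rw [← Matrix.mulVec_mulVec, derm_gl_mulVec, derm_gl_mulVec, hXXv, Matrix.smul_mulVec,
        Matrix.one_mulVec, neg_one_smul]
    rw [hz] at hsq
    have h00 := congrFun (congrFun hsq (Sum.inr 0)) (Sum.inr 0)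
    simp at h00
    exact hns ⟨z, by rw [h00]⟩
  · intro W hW
    apply derm_even hns eX hXXv W
    intro w hw
    apply hW
    refine ⟨w, hw, ?_⟩
    rw [Matrix.toLin'_apply, derm_gl_mulVec]

end Cfsg.Agent.Lib.Helper98.T73
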