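import Mathlib
import Cfsg.Agent.Lib.Helper22.W2Defs

/-! Project W2 (S4707, helper22), piece ARITH (helper67): `2^m = 2a(a+1)` forces `a = 1`. -/

set_option autoImplicit false

namespace Cfsg.Agent.Lib.Helper67.W2

open Cfsg Cfsg.Agent.Lib.Helper22.W2

universe u

/-- PIECE ARITH -/
theorem arith (p a m : ℕ) (ha : 0 < a) (h1 : p = 2 * a ^ 2 + 2 * a + 1) (h2 : p = 2 ^ m + 1) :
    p = 5 := by
  have h0 : 2 ^ m = 2 * a ^ 2 + 2 * a := by
    have : 2 ^ m + 1 = 2 * a ^ 2 + 2 * a + 1 := by rw [← h2, ← h1]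
    omega
  have h3 : 2 ^ m = a * (2 * (a + 1)) := by rw [h0]; ring
  have h4 : 2 ^ m = (a + 1) * (2 * a) := by rw [h0]; ring
  obtain ⟨i, -, hi⟩ := (Nat.dvd_prime_pow Nat.prime_two).1 ⟨_, h3⟩
  obtain ⟨j, -, hj⟩ := (Nat.dvd_prime_pow Nat.prime_two).1 ⟨_, h4⟩
  rcases i with _ | i
  · rw [pow_zero] at hi
    subst hi
    rw [h1]
    norm_num
  · exfalso
    rw [pow_succ] at hi
    rcases j with _ | j
    · rw [pow_zero] at hj
      omega
    · rw [pow_succ] at hj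
      omega

end Cfsg.Agent.Lib.Helper67.W2
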